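import Mathlib

/-!
An abstract closure lemma of Bruhat type.
-/

set_option autoImplicit false
set_option linter.unusedSectionVars false
set_option linter.unusedVariables false

namespace Cfsg.Agent.Lib.SchD4.Abs

universe u v

variable {E : Type u} [Group E] {A : Type v} [AddGroup A]

/-- The set `U N U`. -/
def UNU (U N : Subgroup E) : Set E := {g | ∃ a ∈ U, ∃ n ∈ N, ∃ b ∈ U, g = a * n * b}

lemma one_mem_UNU (U N : Subgroup E) : (1 : E) ∈ UNU U N :=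
  ⟨1, U.one_mem, 1, N.one_mem, 1, U.one_mem, by simp⟩

lemma left_mem_UNU {U N : Subgroup E} {x g : E} (hx : x ∈ U) (hg : g ∈ UNU U N) : x * g ∈ UNU U N := by
  obtain ⟨a, ha, n, hn, b, hb, rfl⟩ := hg
  exact ⟨x * a, U.mul_mem hx ha, n, hn, b, hb, by group⟩

/-- The main computation. -/
theorem left_closed (U N M : Subgroup E) (x y : A → E)
    (hxU : ∀ a, x a ∈ U) (hMU : M ≤ U) (hform : ∀ u ∈ U, ∃ a, ∃ m ∈ M, u = x a * m)
    (hxM : ∀ a, ∀ m ∈ M, x a * m * (x a)⁻¹ ∈ M) (hyM : ∀ a, ∀ m ∈ M, y a * m * (y a)⁻¹ ∈ M)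
    (hxadd : ∀ a b, x a * x b = x (a + b)) (hyadd : ∀ a b, y a * y b = y (a + b))
    (hy : ∀ t, y t = 1 ∨ ∃ a b, ∃ n ∈ N, y t = x a * n * x b)
    (hx : ∀ t, x t = 1 ∨ ∃ a b, ∃ n ∈ N, x t = y a * n * y b ∧ ∀ c, ∃ d, n⁻¹ * x c * n = y d)
    (hdich : ∀ ν ∈ N, (∀ c, ν⁻¹ * x c * ν ∈ U) ∨ (∀ c, ν⁻¹ * y c * ν ∈ U))
    (t : A) {g : E} (hg : g ∈ UNU U N) : y t * g ∈ UNU U N := by
  obtain ⟨u, hu, ν, hν, b, hb, rfl⟩ := hg
  obtain ⟨a, m, hm, rfl⟩ := hform u hu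
  -- case A
  have caseA : ∀ (t' : A) (ν₁ : E), ν₁ ∈ N → (∀ c, ν₁⁻¹ * x c * ν₁ ∈ U) → ∀ b₁ ∈ U, y t' * ν₁ * b₁ ∈ UNU U N := by
    intro t' ν₁ h1 h2 b₁ hb₁
    rcases hy t' with h | ⟨a₂, b₂, n₂, hn₂, e⟩
    · rw [h, one_mul]
      exact ⟨1, U.one_mem, ν₁, h1, b₁, hb₁, by simp⟩
    · refine ⟨x a₂, hxU _, n₂ * ν₁, N.mul_mem hn₂ h1, ν₁⁻¹ * x b₂ * ν₁ * b₁, U.mul_mem (h2 _) hb₁, ?_⟩
      rw [e]
      group
  have hconj : y t * (x a * m) * ν * b = ((y t * x a) * m * (y t * x a)⁻¹) * (y t * (x a * ν * b)) := by group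
  have hmem : (y t * x a) * m * (y t * x a)⁻¹ ∈ U := by
    apply hMU
    have e : (y t * x a) * m * (y t * x a)⁻¹ = y t * (x a * m * (x a)⁻¹) * (y t)⁻¹ := by group
    rw [e]
    exact hyM _ _ (hxM _ _ hm)
  have e0 : y t * (x a * m * ν * b) = y t * (x a * m) * ν * b := by group
  rw [e0, hconj]
  apply left_mem_UNU hmem
  -- now `y t * (x a * ν * b)`
  rcases hdich ν hν with hA | hB
  · rw [show y t * (x a * ν * b) = (y t * x a) * ν * b by group]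
    rcases hy t with h | ⟨a₂, b₂, n₂, hn₂, e⟩
    · rw [h, one_mul]
      refine ⟨x a, hxU _, ν, hν, b, hb, rfl⟩
    · refine ⟨x a₂, hxU _, n₂ * ν, N.mul_mem hn₂ hν, ν⁻¹ * x (b₂ + a) * ν * b, U.mul_mem (hA _) hb, ?_⟩
      rw [e, ← hxadd]
      group
  · rcases hx a with h | ⟨a₂, b₂, n₂, hn₂, e, hc⟩
    · rw [h, one_mul]
      have : y t * (ν * b) = ν * ((ν⁻¹ * y t * ν) * b) := by group
      rw [this]
      exact ⟨1, U.one_mem, ν, hν, (ν⁻¹ * y t * ν) * b, U.mul_mem (hB t) hb, by group⟩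
    · have e1 : y t * (x a * ν * b) = y (t + a₂) * (n₂ * ν) * ((ν⁻¹ * y b₂ * ν) * b) := by
        rw [e, ← hyadd]
        group
      rw [e1]
      refine caseA _ _ (N.mul_mem hn₂ hν) ?_ _ (U.mul_mem (hB _) hb)
      intro c
      obtain ⟨d, hd⟩ := hc c
      have e2 : (n₂ * ν)⁻¹ * x c * (n₂ * ν) = ν⁻¹ * (n₂⁻¹ * x c * n₂) * ν := by group
      rw [e2, hd]
      exact hB d

/-- In a finite group, conjugation into a subgroup is onto. -/
lemma conj_inv_mem [Finite E] (H : Subgroup E) (g : E) (h : ∀ x ∈ H, g * x * g⁻¹ ∈ H) : ∀ x ∈ H, g⁻¹ * x * g ∈ H := by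
  intro x hx
  have hinj : Function.Injective (fun y : H => (⟨g * y.1 * g⁻¹, h y.1 y.2⟩ : H)) := by
    intro a b hab
    have := congrArg Subtype.val hab
    simp only at this
    apply Subtype.ext
    have h2 : g * a.1 * g⁻¹ = g * b.1 * g⁻¹ := this
    simpa using h2
  obtain ⟨y, hy⟩ := Finite.surjective_of_injective hinj ⟨x, hx⟩
  have e : g * y.1 * g⁻¹ = x := congrArg Subtype.val hy
  have : g⁻¹ * x * g = y.1 := by rw [← e]; group
  rw [this]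
  exact y.2

end Cfsg.Agent.Lib.SchD4.Abs
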