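import Cfsg.Agent.Lib.Steinberg.Rel

/-!
A collector for words in root elements whose parameters are monomials in a list of variables.
-/

set_option autoImplicit false
set_option linter.unusedSectionVars false
set_option linter.unusedVariables false

namespace Cfsg.Agent.Lib.SchD4.Col

open Cfsg _root_.Cfsg.Lie ChevalleyDatum
open _root_.Cfsg.Agent.Lib.Steinberg.Rel

variable {D : ChevalleyDatum} {F : Type*} [Field F] {Γ : Type*} [Group Γ]

/-- A letter: a root, a coefficient and the exponents of a monomial. -/
abbrev Ltr := ℕ × ℤ × List ℕ

/-- The value of a monomial. -/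
def evM : List F → List ℕ → F
  | a :: l, e :: k => a ^ e * evM l k
  | _, _ => 1

/-- The product of monomials. -/
def addM : List ℕ → List ℕ → List ℕ
  | [], k => k
  | l, [] => l
  | a :: l, b :: k => (a + b) :: addM l k

/-- The power of a monomial. -/
def smulM (n : ℕ) (l : List ℕ) : List ℕ := l.map (n * ·)

lemma evM_add (v : List F) (l k : List ℕ) : evM v (addM l k) = evM v l * evM v k := by
  induction v generalizing l k with
  | nil =>
    cases l <;> cases k <;> simp [addM, evM]
  | cons a v ih =>
    cases l with
    | nil => simp [addM, evM]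
    | cons x l =>
      cases k with
      | nil => simp [addM, evM]
      | cons y k =>
        simp only [addM, evM, ih, pow_add]
        ring

lemma evM_smul (v : List F) (n : ℕ) (l : List ℕ) : evM v (smulM n l) = evM v l ^ n := by
  induction v generalizing l with
  | nil =>
    cases l <;> simp [smulM, evM]
  | cons a v ih =>
    cases l with
    | nil => simp [smulM, evM]
    | cons x l =>
      have := ih l
      simp only [smulM, List.map_cons, evM] at this ⊢
      rw [this, mul_pow, ← pow_mul, mul_comm x n]

/-- The parameter of a letter. -/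
def val (v : List F) (x : Ltr) : F := (x.2.1 : F) * evM v x.2.2

/-- The value of a word. -/
def ev (y : ℕ → F → Γ) (v : List F) (w : List Ltr) : Γ := (w.map fun x => y x.1 (val v x)).prod

@[simp] lemma ev_nil (y : ℕ → F → Γ) (v : List F) : ev y v [] = 1 := rfl

lemma ev_cons (y : ℕ → F → Γ) (v : List F) (x : Ltr) (w : List Ltr) :
    ev y v (x :: w) = y x.1 (val v x) * ev y v w := by
  simp [ev]

/-- The terms produced by exchanging two letters. -/
def swapT (D : ChevalleyDatum) (b x : Ltr) : List Ltr :=
  (D.commTerms b.1 x.1).map fun k =>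
    (k.1, k.2.1 * (-b.2.1) ^ k.2.2.1 * x.2.1 ^ k.2.2.2,
      addM (smulM k.2.2.1 b.2.2) (smulM k.2.2.2 x.2.2))

/-- The order on the monomials. -/
def monLt : List ℕ → List ℕ → Bool
  | a :: l, b :: k => decide (a < b) || (decide (a = b) && monLt l k)
  | _, _ => false

/-- The insertion of a letter in a word. -/
def ins (D : ChevalleyDatum) (key : ℕ → ℤ) : ℕ → Ltr → List Ltr → List Ltr
  | 0, x, w => x :: w
  | f + 1, x, w =>
    if x.2.1 = 0 ∧ x.1 < D.nroots then w else
    match w with
    | [] => [x]
    | b :: v =>
      if x.1 = b.1 ∧ x.2.2 = b.2.2 ∧ x.1 < D.nroots then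
        ins D key f (x.1, x.2.1 + b.2.1, x.2.2) v
      else if key x.1 < key b.1 ∨ (key x.1 = key b.1 ∧ x.1 < b.1) then
        x :: b :: v
      else if x.1 = b.1 ∧ x.1 < D.nroots then
        if monLt x.2.2 b.2.2 = true then x :: b :: v else b :: ins D key f x v
      else if x.1 < D.nroots ∧ b.1 < D.nroots ∧ x.1 ≠ b.1 ∧ x.1 ≠ D.neg b.1 then
        ins D key f b (ins D key f x ((swapT D b x).foldr (ins D key f) v))
      else x :: b :: v

/-- The normal form of a word. -/
def collect (D : ChevalleyDatum) (key : ℕ → ℤ) (f : ℕ) (L : List Ltr) : List Ltr :=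
  L.foldr (ins D key f) []

section sound

variable {y : ℕ → F → Γ} (hy : StRel D y) (v : List F)

lemma ev_swapT (b x : Ltr) :
    ev y v (swapT D b x) = wY y (D.commWord F b.1 x.1 (val v b) (val v x)) := by
  simp only [ev, swapT, wY, commWord, List.map_map]
  congr 1
  apply List.map_congr_left
  intro k _
  simp only [Function.comp]
  congr 1
  simp only [val, evM_add, evM_smul]
  push_cast
  generalize ((b.2.1 : ℤ) : F) = c
  generalize ((x.2.1 : ℤ) : F) = c'
  have e : -(c * evM v b.2.2) = (-c) * evM v b.2.2 := by ring
  rw [e]
  generalize -c = c2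
  ring

include hy

/-- The soundness of the insertion. -/
theorem ev_ins {key : ℕ → ℤ} (f : ℕ) : ∀ (x : Ltr) (w : List Ltr),
    ev y v (ins D key f x w) = y x.1 (val v x) * ev y v w := by
  induction f with
  | zero =>
    intro x w
    simp [ins, ev_cons]
  | succ f ih =>
    intro x w
    have hfold : ∀ (L u : List Ltr), ev y v (L.foldr (ins D key f) u) = ev y v L * ev y v u := by
      intro L u
      induction L with
      | nil => simp
      | cons a L ihL =>
        simp only [List.foldr_cons]
        rw [ih, ihL, ev_cons]
        group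
    unfold ins
    split_ifs with h0
    · have hv : val v x = 0 := by
        simp [val, h0.1]
      rw [hv, hy.zero h0.2, one_mul]
    · cases w with
      | nil =>
        simp only [ev_cons, ev_nil, mul_one]
      | cons b u =>
        simp only
        split_ifs with h1 h2 h3 h4 h5
        · rw [ih, ev_cons]
          have hb : b.1 = x.1 := h1.1.symm
          rw [hb, ← mul_assoc, hy.add _ h1.2.2]
          congr 2
          simp only [val]
          rw [h1.2.1]
          push_cast
          ring
        · rw [ev_cons, ev_cons]
        · rw [ev_cons, ev_cons]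
        · rw [ev_cons, ih, ev_cons]
          have hb : b.1 = x.1 := h3.1.symm
          rw [hb, ← mul_assoc, ← mul_assoc, hy.add _ h3.2, hy.add _ h3.2, add_comm]
        · rw [ih, ih, hfold, ev_swapT, ev_cons]
          have := hy.comm b.1 x.1 h5.2.1 h5.1 h5.2.2.1 h5.2.2.2 (val v b) (val v x)
          calc y b.1 (val v b) * (y x.1 (val v x) * (wY y (D.commWord F b.1 x.1 (val v b) (val v x)) * ev y v u))
              = (y b.1 (val v b) * y x.1 (val v x) * wY y (D.commWord F b.1 x.1 (val v b) (val v x))) * ev y v u := by group
            _ = (y x.1 (val v x) * y b.1 (val v b)) * ev y v u := by rw [← this]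
            _ = _ := by group
        · rw [ev_cons, ev_cons]

theorem ev_collect {key : ℕ → ℤ} (f : ℕ) (L : List Ltr) : ev y v (collect D key f L) = ev y v L := by
  induction L with
  | nil => rfl
  | cons a L ih =>
    simp only [collect, List.foldr_cons] at ih ⊢
    rw [ev_ins hy v, ih, ev_cons]

/-- The main principle. -/
theorem ev_of_collect {key : ℕ → ℤ} {f : ℕ} {L L' : List Ltr} (h : collect D key f L = collect D key f L') :
    ev y v L = ev y v L' := by
  rw [← ev_collect hy v f L, ← ev_collect hy v f L', h]

end sound

end Cfsg.Agent.Lib.SchD4.Col
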