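import Cfsg.Agent.Lib.SchD4.Sys

/-!
The short roots and the torus in a central extension.
-/

set_option autoImplicit false
set_option linter.unusedSectionVars false
set_option linter.unusedVariables false
set_option linter.ambiguousOpen false
set_option linter.unusedSimpArgs false
set_option linter.unusedTactic false
set_option linter.unreachableTactic false
set_option linter.dupNamespace false

namespace Cfsg.Agent.Lib.SchD4.E1

open scoped MatrixGroups Matrix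
open Cfsg Cfsg.Agent.Lib.Chev.SL2 Cfsg.Agent.Lib.Steinberg.CExt Cfsg.Agent.Lib.SchD4.SL2 Cfsg.Agent.Lib.SchD4.Sys

universe u v

variable {K : Type u} [Field K] {G : Type v} [Group G] {E : Type u} [Group E]

lemma chi1_neg_one (φ : K →+* K) : chi1 φ (-1) = -1 := by
  apply Units.ext
  simp [chi1, Nm]

/-- The context. -/
structure Ctx [Finite K] (S : Sys K G) (σ : E →* G) where
  hc : σ.ker ≤ Subgroup.center E
  hK : 3 < Nat.card K
  ps : SL(2, K) →* E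
  hps : ∀ M, σ (ps M) = S.ψ M
  V : E
  hV : σ V = S.v

namespace Ctx

variable [Finite K] {S : Sys K G} {σ : E →* G} (C : Ctx S σ)

/-- `n_α`. -/
noncomputable def W : E := C.ps n0

/-- The second family. -/
def ps1 : SL(2, K) →* E := cjH C.V C.ps

/-- The third family. -/
noncomputable def ps2 : SL(2, K) →* E := cjH C.W C.ps1

lemma ps1_apply (M : SL(2, K)) : C.ps1 M = cj C.V (C.ps M) := rfl
lemma ps2_apply (M : SL(2, K)) : C.ps2 M = cj C.W (C.ps1 M) := rfl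

@[simp] lemma σ_W : σ C.W = S.w := C.hps _
@[simp] lemma σ_ps1 (M : SL(2, K)) : σ (C.ps1 M) = S.ψ₁ M := by
  rw [ps1_apply, map_cj, C.hV, C.hps]; rfl
@[simp] lemma σ_ps2 (M : SL(2, K)) : σ (C.ps2 M) = S.ψ₂ M := by
  rw [ps2_apply, map_cj, C.σ_W, C.σ_ps1]; rfl

include C in
lemma ext {f g : SL(2, K) →* E} (h : ∀ M, σ (f M) = σ (g M)) (M : SL(2, K)) : f M = g M :=
  DFunLike.congr_fun (lift_ext σ C.hc C.hK h) M

/-- The torus. -/
noncomputable def Aa (s : Kˣ) : E := C.ps (dg s)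
noncomputable def Bb (s : Kˣ) : E := C.ps1 (dg s)
noncomputable def Dd (s : Kˣ) : E := C.ps2 (dg s)

/-- The root elements. -/
noncomputable def r0 (a : K) : E := C.ps (upM a)
noncomputable def r0m (a : K) : E := C.ps (loM a)
noncomputable def r1 (a : K) : E := C.ps1 (upM a)
noncomputable def r1m (a : K) : E := C.ps1 (loM a)
noncomputable def r2 (a : K) : E := C.ps2 (upM a)
noncomputable def r2m (a : K) : E := C.ps2 (loM a)

lemma Aa_mul (s t : Kˣ) : C.Aa (s * t) = C.Aa s * C.Aa t := by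
  simp only [Aa, ← map_mul, dg_mul]
lemma Bb_mul (s t : Kˣ) : C.Bb (s * t) = C.Bb s * C.Bb t := by
  simp only [Bb, ← map_mul, dg_mul]
lemma Dd_mul (s t : Kˣ) : C.Dd (s * t) = C.Dd s * C.Dd t := by
  simp only [Dd, ← map_mul, dg_mul]
lemma Aa_one : C.Aa 1 = 1 := by simp [Aa, dg_one]
lemma Bb_one : C.Bb 1 = 1 := by simp [Bb, dg_one]
lemma Dd_one : C.Dd 1 = 1 := by simp [Dd, dg_one]
lemma Aa_inv (s : Kˣ) : C.Aa s⁻¹ = (C.Aa s)⁻¹ := by
  apply eq_inv_of_mul_eq_one_left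
  rw [← Aa_mul, inv_mul_cancel, Aa_one]
lemma Bb_inv (s : Kˣ) : C.Bb s⁻¹ = (C.Bb s)⁻¹ := by
  apply eq_inv_of_mul_eq_one_left
  rw [← Bb_mul, inv_mul_cancel, Bb_one]
lemma Dd_inv (s : Kˣ) : C.Dd s⁻¹ = (C.Dd s)⁻¹ := by
  apply eq_inv_of_mul_eq_one_left
  rw [← Dd_mul, inv_mul_cancel, Dd_one]

lemma r0_add (a b : K) : C.r0 (a + b) = C.r0 a * C.r0 b := by simp only [r0, ← map_mul, up_add]
lemma r0m_add (a b : K) : C.r0m (a + b) = C.r0m a * C.r0m b := by simp only [r0m, ← map_mul, lo_add]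
lemma r1_add (a b : K) : C.r1 (a + b) = C.r1 a * C.r1 b := by simp only [r1, ← map_mul, up_add]
lemma r1m_add (a b : K) : C.r1m (a + b) = C.r1m a * C.r1m b := by simp only [r1m, ← map_mul, lo_add]
lemma r2_add (a b : K) : C.r2 (a + b) = C.r2 a * C.r2 b := by simp only [r2, ← map_mul, up_add]
lemma r2m_add (a b : K) : C.r2m (a + b) = C.r2m a * C.r2m b := by simp only [r2m, ← map_mul, lo_add]
lemma r0_zero : C.r0 0 = 1 := by simp [r0, up_zero]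
lemma r1_zero : C.r1 0 = 1 := by simp [r1, up_zero]
lemma r2_zero : C.r2 0 = 1 := by simp [r2, up_zero]
lemma r0m_zero : C.r0m 0 = 1 := by simp [r0m, lo_zero]
lemma r1m_zero : C.r1m 0 = 1 := by simp [r1m, lo_zero]
lemma r2m_zero : C.r2m 0 = 1 := by simp [r2m, lo_zero]

variable (Ax' : Ax S)
include Ax'

/-- `v` commutes with the third family. -/
lemma v_ψ₂ (M : SL(2, K)) : cj S.v (S.ψ₂ M) = S.ψ₂ M := by
  rw [cj_eq_self_iff, Ax'.v_eq]
  have h1 := Ax'.h_c_b M S.u0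
  have h2 := Ax'.h_c_m M (-S.u0)
  calc S.xb S.u0 * S.xm (-S.u0) * S.xb S.u0 * S.ψ₂ M
      = S.xb S.u0 * S.xm (-S.u0) * (S.xb S.u0 * S.ψ₂ M) := by group
    _ = S.xb S.u0 * (S.xm (-S.u0) * S.ψ₂ M) * S.xb S.u0 := by rw [← h1]; group
    _ = (S.xb S.u0 * S.ψ₂ M) * S.xm (-S.u0) * S.xb S.u0 := by rw [← h2]; group
    _ = _ := by rw [← h1]; group

/-- `V` on the second family. -/
lemma V_ps1 (M : SL(2, K)) : cj C.V (C.ps1 M) = C.ps (dc (-1) M) := by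
  have := C.ext (f := cjH C.V C.ps1) (g := C.ps.comp (dc (-1))) (by
    intro M
    simp only [cjH_apply, map_cj, MonoidHom.comp_apply, C.hps, C.σ_ps1, C.hV]
    rw [← Ax'.h_v2 M, ← cj_cj]
    rfl) M
  exact this

/-- `V` on the third family. -/
lemma V_ps2 (M : SL(2, K)) : cj C.V (C.ps2 M) = C.ps2 M := by
  have := C.ext (f := cjH C.V C.ps2) (g := C.ps2) (by
    intro M
    simp only [cjH_apply, map_cj, C.σ_ps2, C.hV]
    exact v_ψ₂ Ax' M) M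
  exact this

/-- The torus on the second family. -/
lemma A_ps1 (s : Kˣ) (M : SL(2, K)) : cj (C.Aa s) (C.ps1 M) = C.ps1 (dc (chi1 S.φ s) M) := by
  have := C.ext (f := cjH (C.Aa s) C.ps1) (g := C.ps1.comp (dc (chi1 S.φ s))) (by
    intro M
    simp only [cjH_apply, map_cj, C.σ_ps1, MonoidHom.comp_apply, Aa, C.hps]
    exact Ax'.h_tor s M) M
  exact this

omit Ax' in
lemma W_Aa (s : Kˣ) : cj C.W (C.Aa s) = C.Aa s⁻¹ := by
  have := n0_conj_dg s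
  simp only [W, Aa, cj, ← map_mul, ← map_inv]
  rw [this]

omit Ax' in
lemma W_Aa_inv (s : Kˣ) : cj C.W⁻¹ (C.Aa s) = C.Aa s⁻¹ := by
  have e := C.W_Aa s⁻¹
  rw [inv_inv] at e
  rw [← e, cj_inv_cj]

omit Ax' in
lemma W_sq : C.W * C.W = C.Aa (-1) := by
  simp only [W, Aa, ← map_mul, n0_sq]

/-- `W` on the third family. -/
lemma W_ps2 (M : SL(2, K)) : cj C.W (C.ps2 M) = C.ps1 (dc (-1) M) := by
  rw [ps2_apply, cj_cj, W_sq, A_ps1 C Ax', chi1_neg_one]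

/-- The torus on the third family. -/
lemma A_ps2 (s : Kˣ) (M : SL(2, K)) : cj (C.Aa s) (C.ps2 M) = C.ps2 (dc (chi1 S.φ s)⁻¹ M) := by
  rw [ps2_apply, ps2_apply]
  have e : cj (C.Aa s) (cj C.W (C.ps1 M)) = cj C.W (cj (C.Aa s⁻¹) (C.ps1 M)) := by
    rw [cj_cj, cj_cj]
    congr 1
    have := C.W_Aa s⁻¹
    rw [inv_inv] at this
    rw [← this]
    simp [cj]
  rw [e, A_ps1 C Ax']
  have : chi1 S.φ s⁻¹ = (chi1 S.φ s)⁻¹ := by
    have := chi1_mul S.φ s⁻¹ s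
    rw [inv_mul_cancel] at this
    have h1 : chi1 S.φ 1 = 1 := by
      apply Units.ext
      simp [chi1, Nm]
    rw [h1] at this
    exact eq_inv_of_mul_eq_one_left this.symm
  rw [this]

/-! ### The torus -/

omit Ax' in
lemma V_A (s : Kˣ) : cj C.V (C.Aa s) = C.Bb s := rfl

lemma V_B (s : Kˣ) : cj C.V (C.Bb s) = C.Aa s := by
  rw [Bb, V_ps1 C Ax', dc_dg]
  rfl

lemma V_D (s : Kˣ) : cj C.V (C.Dd s) = C.Dd s := V_ps2 C Ax' _

omit Ax' in
lemma W_B (s : Kˣ) : cj C.W (C.Bb s) = C.Dd s := rfl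

lemma W_D (s : Kˣ) : cj C.W (C.Dd s) = C.Bb s := by
  rw [Dd, W_ps2 C Ax', dc_dg]
  rfl

lemma V_inv_A (s : Kˣ) : cj C.V⁻¹ (C.Aa s) = C.Bb s := by
  rw [← V_B C Ax', cj_inv_cj]

omit Ax' in
lemma V_inv_B (s : Kˣ) : cj C.V⁻¹ (C.Bb s) = C.Aa s := by
  rw [← V_A, cj_inv_cj]

lemma V_inv_D (s : Kˣ) : cj C.V⁻¹ (C.Dd s) = C.Dd s := by
  conv_lhs => rw [← V_D C Ax' s]
  rw [cj_inv_cj]

omit Ax' in
lemma W_inv_D (s : Kˣ) : cj C.W⁻¹ (C.Dd s) = C.Bb s := by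
  rw [← W_B, cj_inv_cj]

/-- The element `n_c`. -/
noncomputable def nc : E := C.ps2 n0

/-- `n_c` on `A`. -/
lemma nc_A (s : Kˣ) : cj C.nc (C.Aa s) = (C.Bb s)⁻¹ := by
  have e : C.nc = C.W * C.V * C.W * C.V⁻¹ * C.W⁻¹ := by
    show C.ps2 n0 = _
    rw [ps2_apply, ps1_apply]
    show cj C.W (cj C.V C.W) = _
    simp only [cj]
    group
  have e2 : cj C.nc (C.Aa s) = cj C.W (cj C.V (cj C.W (cj C.V⁻¹ (cj C.W⁻¹ (C.Aa s))))) := by
    rw [e]
    simp only [cj]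
    group
  rw [e2, W_Aa_inv, V_inv_A C Ax', W_B, V_D C Ax', W_D C Ax', Bb_inv]

lemma A_nc (s : Kˣ) : cj (C.Aa s) C.nc = C.Dd (chi1 S.φ s)⁻¹ * C.nc := by
  rw [nc, A_ps2 C Ax', dc_n0, map_mul]
  rfl

/-- The key relation. -/
lemma D_eq (s : Kˣ) : C.Dd (chi1 S.φ s)⁻¹ = C.Aa s * C.Bb s := by
  have h1 := A_nc C Ax' s
  have h2 := nc_A C Ax' s
  have e : C.Dd (chi1 S.φ s)⁻¹ = cj (C.Aa s) C.nc * C.nc⁻¹ := by
    rw [h1]
    group
  rw [e]
  have h3 : C.nc * (C.Aa s)⁻¹ * C.nc⁻¹ = C.Bb s := by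
    have := congrArg (·⁻¹) h2
    simp only [cj, inv_inv, mul_inv_rev] at this
    rw [← this]
    group
  calc cj (C.Aa s) C.nc * C.nc⁻¹ = C.Aa s * (C.nc * (C.Aa s)⁻¹ * C.nc⁻¹) := by
        simp only [cj]
        group
    _ = _ := by rw [h3]

lemma D_eq' (s : Kˣ) : C.Dd (chi1 S.φ s)⁻¹ = C.Bb s * C.Aa s := by
  have := congrArg (cj C.V) (D_eq C Ax' s)
  rw [V_D C Ax', cj_mul, V_A, V_B C Ax'] at this
  exact this

lemma AB_same (s : Kˣ) : C.Aa s * C.Bb s = C.Bb s * C.Aa s := by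
  rw [← D_eq C Ax', D_eq' C Ax']

/-- `A` and `B` commute. -/
lemma AB_comm (s t : Kˣ) : C.Aa s * C.Bb t = C.Bb t * C.Aa s := by
  obtain ⟨g, hg⟩ := IsCyclic.exists_generator (α := Kˣ)
  obtain ⟨i, rfl⟩ := Subgroup.mem_zpowers_iff.mp (hg s)
  obtain ⟨j, rfl⟩ := Subgroup.mem_zpowers_iff.mp (hg t)
  have hA : ∀ i : ℤ, C.Aa (g ^ i) = C.Aa g ^ i := fun i => map_zpow (C.ps.comp dgHom) g i
  have hB : ∀ i : ℤ, C.Bb (g ^ i) = C.Bb g ^ i := fun i => map_zpow (C.ps1.comp dgHom) g i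
  rw [hA, hB]
  have h : Commute (C.Aa g) (C.Bb g) := AB_same C Ax' g
  exact ((h.zpow_left i).zpow_right j)

end Ctx

end Cfsg.Agent.Lib.SchD4.E1
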