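import Cfsg.Agent.Lib.SchD4.E1

/-!
Long roots in a central extension: they are commutators of short root elements.
-/

set_option autoImplicit false
set_option linter.unusedSectionVars false
set_option linter.unusedVariables false
set_option linter.ambiguousOpen false
set_option linter.unusedSimpArgs false
set_option linter.unusedTactic false
set_option linter.unreachableTactic false
set_option linter.dupNamespace false

namespace Cfsg.Agent.Lib.SchD4.E1

open scoped MatrixGroups Matrix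
open Cfsg Cfsg.Agent.Lib.Chev.SL2 Cfsg.Agent.Lib.Steinberg.CExt Cfsg.Agent.Lib.SchD4.SL2 Cfsg.Agent.Lib.SchD4.Sys

universe u v

variable {K : Type u} [Field K] {G : Type v} [Group G] {E : Type u} [Group E]

section general
variable (σ : E →* G) (hc : σ.ker ≤ Subgroup.center E)
include hc

/-- `x` commutes with `y` if their images commute and their orders are coprime. -/
lemma comm_of_coprime {x y : E} {m p : ℕ} (hcomm : σ x * σ y = σ y * σ x) (hx : x ^ m = 1) (hy : σ y ^ p = 1)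
    (hpm : Nat.Coprime p m) : x * y = y * x := by
  have hZ := cm_central σ hc hcomm
  have h1 : ∀ k : ℕ, cm (x ^ k) y = cm x y ^ k := by
    intro k
    induction k with
    | zero => simp [cm]
    | succ k ih =>
      rw [pow_succ, pow_succ, cm_mul_left σ hc (by
        rw [map_pow]
        exact (Commute.pow_left (show Commute (σ x) (σ y) from hcomm) k)) hcomm, ih]
  have h2 : ∀ k : ℕ, cm x (y ^ k) = cm x y ^ k := by
    intro k
    induction k with
    | zero => simp [cm]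
    | succ k ih =>
      rw [pow_succ, pow_succ, cm_mul_right σ hc (by
        rw [map_pow]
        exact (Commute.pow_right (show Commute (σ x) (σ y) from hcomm) k)) hcomm, ih]
  have e1 : cm x y ^ m = 1 := by rw [← h1, hx]; simp [cm]
  have e2 : cm x y ^ p = 1 := by
    rw [← h2]
    have hZ' : y ^ p ∈ Subgroup.center E := by
      apply hc
      rw [MonoidHom.mem_ker, map_pow, hy]
    have := Subgroup.mem_center_iff.mp hZ' x
    simp only [cm]
    rw [show x * y ^ p = y ^ p * x from this]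
    group
  have e3 : cm x y = 1 := by
    have := (pow_gcd_eq_one (a := cm x y) (m := p) (n := m)).mpr ⟨e2, e1⟩
    rw [Nat.Coprime.gcd_eq_one hpm, pow_one] at this
    exact this
  simp only [cm] at e3
  have := mul_inv_eq_one.mp e3
  rwa [mul_inv_eq_iff_eq_mul] at this

/-- The key lemma for pairs of a short and a long root element. -/
lemma short_long {r : K → E} (hr : ∀ a b, r (a + b) = r a * r b) {y t : E} {l : K} (hl : l ≠ 1)
    (hscale : ∀ a, cj t (r a) = r (l * a)) (hty : t * y = y * t)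
    (hcomm : ∀ a, σ (r a) * σ y = σ y * σ (r a)) (a : K) : r a * y = y * r a := by
  letI : CommGroup (Subgroup.center E) :=
    { (inferInstance : Group (Subgroup.center E)) with
      mul_comm := fun a b => Subtype.ext (Subgroup.mem_center_iff.mp b.2 a.1) }
  let f : K → Subgroup.center E := fun a => ⟨cm (r a) y, cm_central σ hc (hcomm a)⟩
  have hf : ∀ a b, f (a + b) = f a * f b := by
    intro a b
    apply Subtype.ext
    show cm (r (a + b)) y = cm (r a) y * cm (r b) y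
    rw [hr]
    exact cm_mul_left σ hc (hcomm a) (hcomm b)
  have hinv : ∀ a, f (l * a) = f a := by
    intro a
    apply Subtype.ext
    show cm (r (l * a)) y = cm (r a) y
    have e : cm (r (l * a)) y = cm (cj t (r a)) (cj t y) := by
      rw [hscale, cj_eq_self_iff.mpr hty]
    rw [e, ← cj_cm]
    exact conj_of_central (cm_central σ hc (hcomm a)) t
  have := add_fun_trivial hf hl hinv a
  have e3 : cm (r a) y = 1 := congrArg Subtype.val this
  simp only [cm] at e3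
  have := mul_inv_eq_one.mp e3
  rwa [mul_inv_eq_iff_eq_mul] at this

end general

namespace Ctx

variable [Finite K] {S : Sys K G} {σ : E →* G} (C : Ctx S σ)

/-! ### The long root elements -/

/-- The commutators. -/
noncomputable def Fz (a b : K) : E := cm (C.r1 a) (C.r2 b)

/-- The highest root. -/
noncomputable def z (u : K) : E := C.Fz u 1

/-- `3α + β`. -/
noncomputable def l (u : K) : E := cj C.V⁻¹ (C.z u)

/-- `β`. -/
noncomputable def b (u : K) : E := cj C.W (C.l u)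

/-- `-β`. -/
noncomputable def bm (u : K) : E := cj C.V (C.b (-u))

/-- `-(3α + β)`. -/
noncomputable def f7 (u : K) : E := cj C.W (C.bm u)

/-- `-(3α + 2β)`. -/
noncomputable def f9 (u : K) : E := cj C.V (C.f7 u)

variable (Ax' : Ax S)
include Ax'

lemma σ_Fz (a b : K) : σ (C.Fz a b) = S.xz (a * b) := by
  rw [Fz, map_cm, r1, r2, σ_ps1, σ_ps2]
  exact Ax'.h_R1 a b

lemma σ_z (u : K) : σ (C.z u) = S.xz u := by
  rw [z, C.σ_Fz Ax', mul_one]

lemma σ_l (u : K) : σ (C.l u) = S.xl u := by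
  rw [l, map_cj, map_inv, C.hV, C.σ_z Ax']
  rfl

lemma σ_b (u : K) : σ (C.b u) = S.xb u := by
  rw [b, map_cj, C.σ_W, C.σ_l Ax']
  rfl

lemma σ_bm (u : K) : σ (C.bm u) = S.xm u := by
  rw [bm, map_cj, C.hV, C.σ_b Ax']
  rfl

lemma σ_f7 (u : K) : σ (C.f7 u) = cj S.w (S.xm u) := by
  rw [f7, map_cj, C.σ_W, C.σ_bm Ax']

lemma σ_f9 (u : K) : σ (C.f9 u) = S.xf9 u := by
  rw [f9, map_cj, C.hV, C.σ_f7 Ax']
  rfl

omit Ax' in
lemma xb_add (Ax' : Ax S) (a b : K) : S.xb (a + b) = S.xb a * S.xb b := by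
  simp only [Sys.xb, Sys.xl, Ax'.add_z, cj_mul]

omit Ax' in
lemma xm_add (Ax' : Ax S) (a b : K) : S.xm (a + b) = S.xm a * S.xm b := by
  simp only [Sys.xm, neg_add, xb_add Ax', cj_mul]

omit Ax' in
lemma xb_zero (Ax' : Ax S) : S.xb 0 = 1 := by
  have := xb_add Ax' 0 0
  rw [add_zero] at this
  exact mul_eq_left.mp this.symm

omit Ax' in
lemma xm_zero (Ax' : Ax S) : S.xm 0 = 1 := by
  have := xm_add Ax' 0 0
  rw [add_zero] at this
  exact mul_eq_left.mp this.symm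

omit Ax' in
lemma xb_pow (Ax' : Ax S) (u : K) (n : ℕ) : S.xb u ^ n = S.xb ((n : K) * u) := by
  induction n with
  | zero => simp [xb_zero Ax']
  | succ n ih =>
    rw [pow_succ, ih, ← xb_add Ax']
    congr 1
    push_cast
    ring

omit Ax' in
lemma xm_pow (Ax' : Ax S) (u : K) (n : ℕ) : S.xm u ^ n = S.xm ((n : K) * u) := by
  induction n with
  | zero => simp [xm_zero Ax']
  | succ n ih =>
    rw [pow_succ, ih, ← xm_add Ax']
    congr 1
    push_cast
    ring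

/-- The elements of the torus commuting with the long root groups. -/
def CA (y : E) : Prop := ∀ c : Kˣ, Nu S.φ c = 1 → C.Aa c * y = y * C.Aa c

omit Ax' in
lemma Aa_pow (s : Kˣ) (n : ℕ) : C.Aa s ^ n = C.Aa (s ^ n) := by
  induction n with
  | zero => simp [Aa_one]
  | succ n ih => rw [pow_succ, pow_succ, ih, Aa_mul]

lemma CA_of_b {y : E} {u : K} (hy : σ y = S.xb u) : C.CA y := by
  intro c hc
  refine comm_of_coprime σ C.hc (m := S.m) (p := S.p) ?_ ?_ ?_ Ax'.hpm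
  · rw [Aa, C.hps, hy]
    exact Ax'.h_C_b c hc u
  · rw [Aa_pow, Ax'.hm, Aa_one]
  · rw [hy, xb_pow Ax', Ax'.hpK, zero_mul, xb_zero Ax']

lemma CA_of_m {y : E} {u : K} (hy : σ y = S.xm u) : C.CA y := by
  intro c hc
  refine comm_of_coprime σ C.hc (m := S.m) (p := S.p) ?_ ?_ ?_ Ax'.hpm
  · rw [Aa, C.hps, hy]
    exact Ax'.h_C_m c hc u
  · rw [Aa_pow, Ax'.hm, Aa_one]
  · rw [hy, xm_pow Ax', Ax'.hpK, zero_mul, xm_zero Ax']

lemma σ_V' : σ (C.b S.u0 * C.bm (-S.u0) * C.b S.u0) = S.v := by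
  rw [map_mul, map_mul, C.σ_b Ax', C.σ_bm Ax']
  exact Ax'.v_eq.symm

/-- The elements of `C` commute with `V`. -/
lemma CA_V : C.CA C.V := by
  intro c hc
  have h1 := CA_of_b C Ax' (C.σ_b Ax' S.u0) c hc
  have h2 := CA_of_m C Ax' (C.σ_bm Ax' (-S.u0)) c hc
  have h3 : C.Aa c * (C.b S.u0 * C.bm (-S.u0) * C.b S.u0) = (C.b S.u0 * C.bm (-S.u0) * C.b S.u0) * C.Aa c := by
    calc C.Aa c * (C.b S.u0 * C.bm (-S.u0) * C.b S.u0)
        = (C.Aa c * C.b S.u0) * C.bm (-S.u0) * C.b S.u0 := by group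
      _ = C.b S.u0 * (C.Aa c * C.bm (-S.u0)) * C.b S.u0 := by rw [h1]; group
      _ = C.b S.u0 * C.bm (-S.u0) * (C.Aa c * C.b S.u0) := by rw [h2]; group
      _ = _ := by rw [h1]; group
  obtain ⟨k, hk, e⟩ := exists_central σ C.hc (x := C.b S.u0 * C.bm (-S.u0) * C.b S.u0) (x' := C.V)
    ((C.σ_V' Ax').trans C.hV.symm)
  rw [e, ← mul_assoc, h3, mul_assoc, mul_assoc]
  rw [Subgroup.mem_center_iff.mp hk (C.Aa c)]
  group

/-- `A` and `B` agree on the elements of norm one. -/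
lemma A_eq_B {c : Kˣ} (hc : Nu S.φ c = 1) : C.Bb c = C.Aa c := by
  rw [← V_A, cj_eq_self_iff]
  exact (C.CA_V Ax' c hc).symm

omit Ax' in
lemma CA_cj_W {y : E} (h : C.CA y) : C.CA (cj C.W y) := by
  intro c hc
  have e : C.Aa c = cj C.W (C.Aa c⁻¹) := by rw [W_Aa, inv_inv]
  rw [e, ← cj_mul, ← cj_mul, h _ (by rw [map_inv, hc, inv_one])]

omit Ax' in
lemma CA_cj_W_inv {y : E} (h : C.CA y) : C.CA (cj C.W⁻¹ y) := by
  intro c hc
  have e : C.Aa c = cj C.W⁻¹ (C.Aa c⁻¹) := by rw [W_Aa_inv, inv_inv]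
  rw [e, ← cj_mul, ← cj_mul, h _ (by rw [map_inv, hc, inv_one])]

lemma CA_cj_V {y : E} (h : C.CA y) : C.CA (cj C.V y) := by
  intro c hc
  have e : C.Aa c = cj C.V (C.Aa c) := (cj_eq_self_iff.mpr (C.CA_V Ax' c hc).symm).symm
  rw [e, ← cj_mul, ← cj_mul, h _ hc]

lemma CA_cj_V_inv {y : E} (h : C.CA y) : C.CA (cj C.V⁻¹ y) := by
  intro c hc
  have e : C.Aa c = cj C.V⁻¹ (C.Aa c) := by
    conv_lhs => rw [← cj_inv_cj C.V (C.Aa c), cj_eq_self_iff.mpr (C.CA_V Ax' c hc).symm]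
  rw [e, ← cj_mul, ← cj_mul, h _ hc]

lemma CA_of_l {y : E} {u : K} (hy : σ y = S.xl u) : C.CA y := by
  have h := CA_of_b C Ax' (y := cj C.W y) (u := u) (by rw [map_cj, C.σ_W, hy]; rfl)
  have := CA_cj_W_inv C h
  rwa [cj_inv_cj] at this

lemma CA_of_z {y : E} {u : K} (hy : σ y = S.xz u) : C.CA y := by
  have h := CA_of_l C Ax' (y := cj C.V⁻¹ y) (u := u) (by rw [map_cj, map_inv, C.hV, hy]; rfl)
  have := CA_cj_V C Ax' h
  rwa [cj_cj_inv] at this

/-! ### The short root elements and the torus -/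

omit Ax' in
lemma dg_conj (s : Kˣ) (M : SL(2, K)) : cj (dg s) M = dc (s * s) M := by
  have hs := s.ne_zero
  simp only [cj]
  rw [mul_inv_eq_iff_eq_mul, dc_apply]
  apply ext_sl <;> simp [mul00, mul01, mul10, mul11] <;> field_simp

omit Ax' in
lemma A_ps (s : Kˣ) (M : SL(2, K)) : cj (C.Aa s) (C.ps M) = C.ps (dc (s * s) M) := by
  rw [Aa, ← map_cj, dg_conj]

omit Ax' in
lemma B_ps1 (s : Kˣ) (M : SL(2, K)) : cj (C.Bb s) (C.ps1 M) = C.ps1 (dc (s * s) M) := by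
  rw [← V_A, ps1_apply, ps1_apply, ← A_ps]
  simp only [cj]
  group

/-- `V⁻¹` on the first family. -/
lemma V_inv_ps (M : SL(2, K)) : cj C.V⁻¹ (C.ps M) = C.ps1 (dc (-1) M) := by
  have := V_ps1 C Ax' (dc (-1) M)
  rw [dc_mul] at this
  simp only [mul_neg, mul_one, neg_neg, dc_one] at this
  rw [← this, cj_inv_cj]

omit Ax' in
lemma B_V (s : Kˣ) : C.Bb s * C.V = C.V * C.Aa s := by
  rw [← V_A]
  simp only [cj]
  group

omit Ax' in
lemma cj_B_V (s : Kˣ) (x : E) : cj (C.Bb s) (cj C.V x) = cj C.V (cj (C.Aa s) x) := by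
  rw [cj_cj, cj_cj, B_V]

lemma B_ps (s : Kˣ) (M : SL(2, K)) : cj (C.Bb s) (C.ps M) = C.ps (dc (chi1 S.φ s) M) := by
  have e : C.ps M = cj C.V (C.ps1 (dc (-1) M)) := by
    rw [V_ps1 C Ax', dc_mul]
    simp [dc_one]
  rw [e, cj_B_V, A_ps1 C Ax', V_ps1 C Ax', dc_mul, dc_mul]
  congr 2
  simp

lemma B_ps2 (s : Kˣ) (M : SL(2, K)) : cj (C.Bb s) (C.ps2 M) = C.ps2 (dc (chi1 S.φ s)⁻¹ M) := by
  have e : C.ps2 M = cj C.V (C.ps2 M) := (V_ps2 C Ax' M).symm
  rw [e, cj_B_V, A_ps2 C Ax', V_ps2 C Ax']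

omit Ax' in
lemma A_r0 (s : Kˣ) (a : K) : cj (C.Aa s) (C.r0 a) = C.r0 (((s * s : Kˣ) : K) * a) := by
  rw [r0, A_ps, dc_up]; rfl
omit Ax' in
lemma A_r0m (s : Kˣ) (a : K) : cj (C.Aa s) (C.r0m a) = C.r0m (((s * s : Kˣ) : K)⁻¹ * a) := by
  rw [r0m, A_ps, dc_lo]; rfl
lemma A_r1 (s : Kˣ) (a : K) : cj (C.Aa s) (C.r1 a) = C.r1 ((chi1 S.φ s : Kˣ) * a) := by
  rw [r1, A_ps1 C Ax', dc_up]; rfl
lemma A_r1m (s : Kˣ) (a : K) : cj (C.Aa s) (C.r1m a) = C.r1m (((chi1 S.φ s : Kˣ) : K)⁻¹ * a) := by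
  rw [r1m, A_ps1 C Ax', dc_lo]; rfl
lemma A_r2 (s : Kˣ) (a : K) : cj (C.Aa s) (C.r2 a) = C.r2 (((chi1 S.φ s)⁻¹ : Kˣ) * a) := by
  rw [r2, A_ps2 C Ax', dc_up]; rfl
lemma A_r2m (s : Kˣ) (a : K) : cj (C.Aa s) (C.r2m a) = C.r2m ((((chi1 S.φ s)⁻¹ : Kˣ) : K)⁻¹ * a) := by
  rw [r2m, A_ps2 C Ax', dc_lo]; rfl
lemma B_r0 (s : Kˣ) (a : K) : cj (C.Bb s) (C.r0 a) = C.r0 ((chi1 S.φ s : Kˣ) * a) := by
  rw [r0, B_ps C Ax', dc_up]; rfl
lemma B_r0m (s : Kˣ) (a : K) : cj (C.Bb s) (C.r0m a) = C.r0m (((chi1 S.φ s : Kˣ) : K)⁻¹ * a) := by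
  rw [r0m, B_ps C Ax', dc_lo]; rfl
omit Ax' in
lemma B_r1 (s : Kˣ) (a : K) : cj (C.Bb s) (C.r1 a) = C.r1 (((s * s : Kˣ) : K) * a) := by
  rw [r1, B_ps1, dc_up]; rfl
omit Ax' in
lemma B_r1m (s : Kˣ) (a : K) : cj (C.Bb s) (C.r1m a) = C.r1m (((s * s : Kˣ) : K)⁻¹ * a) := by
  rw [r1m, B_ps1, dc_lo]; rfl
lemma B_r2 (s : Kˣ) (a : K) : cj (C.Bb s) (C.r2 a) = C.r2 (((chi1 S.φ s)⁻¹ : Kˣ) * a) := by
  rw [r2, B_ps2 C Ax', dc_up]; rfl
lemma B_r2m (s : Kˣ) (a : K) : cj (C.Bb s) (C.r2m a) = C.r2m ((((chi1 S.φ s)⁻¹ : Kˣ) : K)⁻¹ * a) := by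
  rw [r2m, B_ps2 C Ax', dc_lo]; rfl

omit Ax' in
lemma chi1_of_N {c : Kˣ} (hc : Nu S.φ c = 1) : chi1 S.φ c = c * c := by
  simp [chi1, hc]

/-- A short root element commutes with a long root element. -/
lemma r1_comm {y : E} (hy : C.CA y) (hcomm : ∀ a, S.ψ₁ (upM a) * σ y = σ y * S.ψ₁ (upM a)) (a : K) :
    C.r1 a * y = y * C.r1 a := by
  obtain ⟨c, hNc, hcc⟩ := Ax'.h_c0
  refine short_long σ C.hc (r := C.r1) (l := ((c * c : Kˣ) : K)) (t := C.Aa c) C.r1_add ?_ ?_ (hy c hNc) ?_ a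
  · intro h
    exact hcc (Units.ext h)
  · intro a
    rw [A_r1 C Ax', chi1_of_N hNc]
  · intro a
    rw [r1, σ_ps1]
    exact hcomm a

lemma r2_comm {y : E} (hy : C.CA y) (hcomm : ∀ a, S.ψ₂ (upM a) * σ y = σ y * S.ψ₂ (upM a)) (a : K) :
    C.r2 a * y = y * C.r2 a := by
  obtain ⟨c, hNc, hcc⟩ := Ax'.h_c0
  refine short_long σ C.hc (r := C.r2) (l := (((c * c)⁻¹ : Kˣ) : K)) (t := C.Aa c) C.r2_add ?_ ?_ (hy c hNc) ?_ a
  · intro h
    apply hcc
    have : (c * c)⁻¹ = 1 := Units.ext h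
    exact inv_eq_one.mp this
  · intro a
    rw [A_r2 C Ax', chi1_of_N hNc]
  · intro a
    rw [r2, σ_ps2]
    exact hcomm a

lemma r0_comm {y : E} (hy : C.CA y) (hcomm : ∀ a, S.ψ (upM a) * σ y = σ y * S.ψ (upM a)) (a : K) :
    C.r0 a * y = y * C.r0 a := by
  obtain ⟨c, hNc, hcc⟩ := Ax'.h_c0
  refine short_long σ C.hc (r := C.r0) (l := ((c * c : Kˣ) : K)) (t := C.Aa c) C.r0_add ?_ ?_ (hy c hNc) ?_ a
  · intro h
    exact hcc (Units.ext h)
  · intro a
    rw [A_r0]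
  · intro a
    rw [r0, C.hps]
    exact hcomm a

/-- The first family commutes with the lifts of the highest root. -/
lemma ps_of_z {y : E} {u : K} (hy : σ y = S.xz u) (M : SL(2, K)) : C.ps M * y = y * C.ps M := by
  have := C.ext (f := cjH y C.ps) (g := C.ps) (by
    intro M
    rw [cjH_apply, map_cj, hy, C.hps, cj_eq_self_iff]
    exact (Ax'.h_ψ_z M u).symm) M
  rw [cjH_apply, cj_eq_self_iff] at this
  exact this.symm

lemma ps_of_f9 {y : E} {u : K} (hy : σ y = S.xf9 u) (M : SL(2, K)) : C.ps M * y = y * C.ps M := by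
  have := C.ext (f := cjH y C.ps) (g := C.ps) (by
    intro M
    rw [cjH_apply, map_cj, hy, C.hps, cj_eq_self_iff]
    exact (Ax'.h_ψ_f9 M u).symm) M
  rw [cjH_apply, cj_eq_self_iff] at this
  exact this.symm

lemma r1_of_z {y : E} {u : K} (hy : σ y = S.xz u) (a : K) : C.r1 a * y = y * C.r1 a :=
  r1_comm C Ax' (CA_of_z C Ax' hy) (fun a => by rw [hy]; exact Ax'.h_1_z a u) a

lemma r2_of_z {y : E} {u : K} (hy : σ y = S.xz u) (a : K) : C.r2 a * y = y * C.r2 a :=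
  r2_comm C Ax' (CA_of_z C Ax' hy) (fun a => by rw [hy]; exact Ax'.h_2_z a u) a

lemma r1_of_l {y : E} {u : K} (hy : σ y = S.xl u) (a : K) : C.r1 a * y = y * C.r1 a :=
  r1_comm C Ax' (CA_of_l C Ax' hy) (fun a => by rw [hy]; exact Ax'.h_1_l a u) a

lemma r2_of_l {y : E} {u : K} (hy : σ y = S.xl u) (a : K) : C.r2 a * y = y * C.r2 a :=
  r2_comm C Ax' (CA_of_l C Ax' hy) (fun a => by rw [hy]; exact Ax'.h_2_l a u) a

lemma r1_of_b {y : E} {u : K} (hy : σ y = S.xb u) (a : K) : C.r1 a * y = y * C.r1 a :=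
  r1_comm C Ax' (CA_of_b C Ax' hy) (fun a => by rw [hy]; exact Ax'.h_1_b a u) a

lemma r2_of_b {y : E} {u : K} (hy : σ y = S.xb u) (a : K) : C.r2 a * y = y * C.r2 a :=
  r2_comm C Ax' (CA_of_b C Ax' hy) (fun a => by rw [hy]; exact Ax'.h_c_b (upM a) u) a

lemma r0_of_l {y : E} {u : K} (hy : σ y = S.xl u) (a : K) : C.r0 a * y = y * C.r0 a :=
  r0_comm C Ax' (CA_of_l C Ax' hy) (fun a => by rw [hy]; exact Ax'.h_0_l a u) a

/-! ### The commutators -/

lemma r1_Fz (c a b : K) : C.r1 c * C.Fz a b = C.Fz a b * C.r1 c := r1_of_z C Ax' (C.σ_Fz Ax' a b) c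
lemma r2_Fz (c a b : K) : C.r2 c * C.Fz a b = C.Fz a b * C.r2 c := r2_of_z C Ax' (C.σ_Fz Ax' a b) c

omit Ax' in
/-- Elements commuting with the first two short families commute with the commutators. -/
lemma comm_Fz {y : E} (h1 : ∀ a, C.r1 a * y = y * C.r1 a) (h2 : ∀ a, C.r2 a * y = y * C.r2 a) (a b : K) :
    y * C.Fz a b = C.Fz a b * y := by
  have e := cj_cm y (C.r1 a) (C.r2 b)
  have e1 : cj y (C.r1 a) = C.r1 a := cj_eq_self_iff.mpr (h1 a).symm
  have e2 : cj y (C.r2 b) = C.r2 b := cj_eq_self_iff.mpr (h2 b).symm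
  rw [e1, e2] at e
  exact cj_eq_self_iff.mp e

lemma Fz_comm (a b a' b' : K) : C.Fz a b * C.Fz a' b' = C.Fz a' b' * C.Fz a b :=
  C.comm_Fz (fun c => C.r1_Fz Ax' c a b) (fun c => C.r2_Fz Ax' c a b) a' b'

lemma Fz_add_left (a a' b : K) : C.Fz (a + a') b = C.Fz a b * C.Fz a' b := by
  simp only [Fz, r1_add]
  have e : cm (C.r1 a * C.r1 a') (C.r2 b) = C.r1 a * cm (C.r1 a') (C.r2 b) * (C.r1 a)⁻¹ * cm (C.r1 a) (C.r2 b) := by
    simp only [cm]
    group
  rw [e]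
  have h := C.r1_Fz Ax' a a' b
  simp only [Fz] at h
  rw [h, mul_inv_cancel_right]
  exact C.Fz_comm Ax' a' b a b

lemma Fz_add_right (a b b' : K) : C.Fz a (b + b') = C.Fz a b * C.Fz a b' := by
  simp only [Fz, r2_add]
  have e : cm (C.r1 a) (C.r2 b * C.r2 b') = cm (C.r1 a) (C.r2 b) * (C.r2 b * cm (C.r1 a) (C.r2 b') * (C.r2 b)⁻¹) := by
    simp only [cm]
    group
  rw [e]
  have h := C.r2_Fz Ax' b a b'
  simp only [Fz] at h
  rw [h, mul_inv_cancel_right]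

lemma Fz_scale (c : Kˣ) (a b : K) : C.Fz ((c : K) * a) (((c⁻¹ : Kˣ) : K) * b) = C.Fz a b := by
  obtain ⟨s, rfl⟩ := Ax'.h_chi c
  have h1 := C.ps_of_z Ax' (C.σ_Fz Ax' a b) (dg s)
  have h2 : cj (C.Aa s) (C.Fz a b) = C.Fz a b := cj_eq_self_iff.mpr h1
  rw [← h2, Fz, Fz, ← A_r1 C Ax', ← A_r2 C Ax', ← cj_cm]

lemma Fz_eq (a b : K) : C.Fz a b = C.z (a * b) := by
  by_cases hb : b = 0
  · subst hb
    simp [Fz, z, cm, r2_zero, r1_zero]
  · have := C.Fz_scale Ax' (Units.mk0 b hb) a b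
    simp only [Units.val_mk0, Units.val_inv_eq_inv_val] at this
    rw [← this, inv_mul_cancel₀ hb, mul_comm b a]
    rfl

lemma z_add (a b : K) : C.z (a + b) = C.z a * C.z b := C.Fz_add_left Ax' a b 1

omit Ax' in
lemma z_zero : C.z 0 = 1 := by simp [z, Fz, cm, r1_zero]

lemma z_neg (a : K) : C.z (-a) = (C.z a)⁻¹ := by
  apply eq_inv_of_mul_eq_one_left
  rw [← C.z_add Ax', neg_add_cancel, z_zero]

lemma z_sub (a b : K) : C.z (a - b) = C.z a * (C.z b)⁻¹ := by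
  rw [sub_eq_add_neg, C.z_add Ax', C.z_neg Ax']

omit Ax' in
lemma comm_z {y : E} (h1 : ∀ a, C.r1 a * y = y * C.r1 a) (h2 : ∀ a, C.r2 a * y = y * C.r2 a) (u : K) :
    y * C.z u = C.z u * y := C.comm_Fz h1 h2 u 1

lemma r1_z (a u : K) : C.r1 a * C.z u = C.z u * C.r1 a := C.r1_Fz Ax' a u 1
lemma r2_z (a u : K) : C.r2 a * C.z u = C.z u * C.r2 a := C.r2_Fz Ax' a u 1
lemma r1_l (a u : K) : C.r1 a * C.l u = C.l u * C.r1 a := C.r1_of_l Ax' (C.σ_l Ax' u) a
lemma r2_l (a u : K) : C.r2 a * C.l u = C.l u * C.r2 a := C.r2_of_l Ax' (C.σ_l Ax' u) a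
lemma r1_b (a u : K) : C.r1 a * C.b u = C.b u * C.r1 a := C.r1_of_b Ax' (C.σ_b Ax' u) a
lemma r2_b (a u : K) : C.r2 a * C.b u = C.b u * C.r2 a := C.r2_of_b Ax' (C.σ_b Ax' u) a
lemma r0_l (a u : K) : C.r0 a * C.l u = C.l u * C.r0 a := C.r0_of_l Ax' (C.σ_l Ax' u) a
lemma r0_z (a u : K) : C.r0 a * C.z u = C.z u * C.r0 a := C.ps_of_z Ax' (C.σ_z Ax' u) _

lemma z_z (a u : K) : C.z a * C.z u = C.z u * C.z a :=
  C.comm_z (fun c => C.r1_z Ax' c a) (fun c => C.r2_z Ax' c a) u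

lemma l_z (a u : K) : C.l a * C.z u = C.z u * C.l a :=
  C.comm_z (fun c => C.r1_l Ax' c a) (fun c => C.r2_l Ax' c a) u

lemma b_z (a u : K) : C.b a * C.z u = C.z u * C.b a :=
  C.comm_z (fun c => C.r1_b Ax' c a) (fun c => C.r2_b Ax' c a) u

lemma l_l (a u : K) : C.l a * C.l u = C.l u * C.l a := by
  simp only [l, ← cj_mul, C.z_z Ax' a u]

lemma l_add (a b : K) : C.l (a + b) = C.l a * C.l b := by
  simp only [l, C.z_add Ax', cj_mul]

lemma b_add (x y : K) : C.b (x + y) = C.b x * C.b y := by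
  simp only [b, C.l_add Ax', cj_mul]

lemma bm_add (x y : K) : C.bm (x + y) = C.bm x * C.bm y := by
  simp only [bm, neg_add, C.b_add Ax', cj_mul]

lemma f7_add (x y : K) : C.f7 (x + y) = C.f7 x * C.f7 y := by
  simp only [f7, C.bm_add Ax', cj_mul]

lemma f9_add (x y : K) : C.f9 (x + y) = C.f9 x * C.f9 y := by
  simp only [f9, C.f7_add Ax', cj_mul]

omit Ax' in
lemma l_zero : C.l 0 = 1 := by simp [l, z_zero, cj_one]
omit Ax' in
lemma b_zero : C.b 0 = 1 := by simp [b, l_zero, cj_one]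
omit Ax' in
lemma bm_zero : C.bm 0 = 1 := by simp [bm, b_zero, cj_one]
omit Ax' in
lemma f7_zero : C.f7 0 = 1 := by simp [f7, bm_zero, cj_one]
omit Ax' in
lemma f9_zero : C.f9 0 = 1 := by simp [f9, f7_zero, cj_one]

/-! ### The vanishing of the highest root element on the kernel of the trace -/

/-- The quadratic term. -/
def fq (S : Sys K G) (s a : K) : K := S.eps * (S.φ s * S.φ (S.φ a) + S.φ (S.φ s) * S.φ a)

lemma R2_lift (s a : K) : ∃ r r', ∃ k ∈ Subgroup.center E,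
    cj (C.r0 s) (C.r1 a) = C.r1 a * C.r2 (fq S s a) * (C.l r * C.z r') * k := by
  obtain ⟨r, r', h⟩ := Ax'.h_R2 s a
  refine ⟨r, r', ?_⟩
  obtain ⟨k, hk, e⟩ := exists_central σ C.hc (x := C.r1 a * C.r2 (fq S s a) * (C.l r * C.z r')) (x' := cj (C.r0 s) (C.r1 a)) (by
    rw [map_cj, map_mul, map_mul, map_mul, r0, r1, r2, C.hps, σ_ps1, σ_ps2, C.σ_l Ax', C.σ_z Ax', h]
    rfl)
  exact ⟨k, hk, e⟩

/-- The vanishing. -/
lemma vanish0 (s a a' : K) : C.z (a * fq S s a' - a' * fq S s a) = 1 := by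
  obtain ⟨r, r', k, hk, e⟩ := C.R2_lift Ax' s a
  obtain ⟨q, q', k', hk', e'⟩ := C.R2_lift Ax' s a'
  have hcomm : cj (C.r0 s) (C.r1 a) * cj (C.r0 s) (C.r1 a') = cj (C.r0 s) (C.r1 a') * cj (C.r0 s) (C.r1 a) := by
    rw [← cj_mul, ← cj_mul, ← r1_add, ← r1_add, add_comm]
  rw [e, e'] at hcomm
  set R := C.r1 a
  set R' := C.r1 a'
  set T := C.r2 (fq S s a)
  set T' := C.r2 (fq S s a')
  set Y := C.l r * C.z r'
  set Y' := C.l q * C.z q'
  have hRR : R * R' = R' * R := by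
    simp only [R, R', ← r1_add, add_comm]
  have hTT : T * T' = T' * T := by
    simp only [T, T', ← r2_add, add_comm]
  have hY1 : ∀ x : K, C.r1 x * Y = Y * C.r1 x := by
    intro x
    simp only [Y]
    rw [← mul_assoc, C.r1_l Ax', mul_assoc, C.r1_z Ax', mul_assoc]
  have hY2 : ∀ x : K, C.r2 x * Y = Y * C.r2 x := by
    intro x
    simp only [Y]
    rw [← mul_assoc, C.r2_l Ax', mul_assoc, C.r2_z Ax', mul_assoc]
  have hY1' : ∀ x : K, C.r1 x * Y' = Y' * C.r1 x := by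
    intro x
    simp only [Y']
    rw [← mul_assoc, C.r1_l Ax', mul_assoc, C.r1_z Ax', mul_assoc]
  have hY2' : ∀ x : K, C.r2 x * Y' = Y' * C.r2 x := by
    intro x
    simp only [Y']
    rw [← mul_assoc, C.r2_l Ax', mul_assoc, C.r2_z Ax', mul_assoc]
  have hYY : Y * Y' = Y' * Y := by
    simp only [Y, Y']
    have a1 := C.l_l Ax' r q
    have a2 := C.l_z Ax' r q'
    have a3 := C.l_z Ax' q r'
    have a4 := C.z_z Ax' r' q'
    calc C.l r * C.z r' * (C.l q * C.z q') = C.l r * (C.z r' * C.l q) * C.z q' := by group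
      _ = (C.l r * C.l q) * (C.z r' * C.z q') := by rw [← a3]; group
      _ = (C.l q * C.l r) * (C.z q' * C.z r') := by rw [a1, a4]
      _ = C.l q * (C.l r * C.z q') * C.z r' := by group
      _ = _ := by rw [a2]; group
  -- remove the central factors
  have h1 : R * T * Y * k * (R' * T' * Y' * k') = (R * T * Y) * (R' * T' * Y') * (k * k') := by
    have := Subgroup.mem_center_iff.mp hk (R' * T' * Y')
    calc R * T * Y * k * (R' * T' * Y' * k') = R * T * Y * (k * (R' * T' * Y')) * k' := by group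
      _ = _ := by rw [← this]; group
  have h2 : R' * T' * Y' * k' * (R * T * Y * k) = (R' * T' * Y') * (R * T * Y) * (k' * k) := by
    have := Subgroup.mem_center_iff.mp hk' (R * T * Y)
    calc R' * T' * Y' * k' * (R * T * Y * k) = R' * T' * Y' * (k' * (R * T * Y)) * k := by group
      _ = _ := by rw [← this]; group
  have hkk : k * k' = k' * k := (Subgroup.mem_center_iff.mp hk k').symm
  rw [h1, h2, hkk] at hcomm
  have h3 := mul_right_cancel hcomm
  -- remove `Y`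
  have h4 : R * T * Y * (R' * T' * Y') = R * T * (R' * T') * (Y * Y') := by
    have b1 : Y * R' = R' * Y := (hY1 a').symm
    have b2 : Y * T' = T' * Y := (hY2 _).symm
    calc R * T * Y * (R' * T' * Y') = R * T * (Y * R') * T' * Y' := by group
      _ = R * T * R' * (Y * T') * Y' := by rw [b1]; group
      _ = _ := by rw [b2]; group
  have h5 : R' * T' * Y' * (R * T * Y) = R' * T' * (R * T) * (Y' * Y) := by
    have b1 : Y' * R = R * Y' := (hY1' a).symm
    have b2 : Y' * T = T * Y' := (hY2' _).symm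
    calc R' * T' * Y' * (R * T * Y) = R' * T' * (Y' * R) * T * Y := by group
      _ = R' * T' * R * (Y' * T) * Y := by rw [b1]; group
      _ = _ := by rw [b2]; group
  rw [h4, h5, hYY] at h3
  have h6 := mul_right_cancel h3
  -- the commutators
  have c1 : T * R' = (C.z (a' * fq S s a))⁻¹ * (R' * T) := by
    have := C.Fz_eq Ax' a' (fq S s a)
    rw [← this]
    simp only [Fz, cm, R', T]
    group
  have c2 : T' * R = (C.z (a * fq S s a'))⁻¹ * (R * T') := by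
    have := C.Fz_eq Ax' a (fq S s a')
    rw [← this]
    simp only [Fz, cm, R, T']
    group
  have z1 : ∀ x u, C.z u * C.r1 x = C.r1 x * C.z u := fun x u => (C.r1_z Ax' x u).symm
  have e1 : R * T * (R' * T') = (C.z (a' * fq S s a))⁻¹ * (R * R' * (T * T')) := by
    have hz : R * (C.z (a' * fq S s a))⁻¹ = (C.z (a' * fq S s a))⁻¹ * R := by
      rw [← C.z_neg Ax']
      exact C.r1_z Ax' _ _
    calc R * T * (R' * T') = R * (T * R') * T' := by group
      _ = R * (C.z (a' * fq S s a))⁻¹ * (R' * T) * T' := by rw [c1]; group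
      _ = _ := by rw [hz]; group
  have e2 : R' * T' * (R * T) = (C.z (a * fq S s a'))⁻¹ * (R' * R * (T' * T)) := by
    have hz : R' * (C.z (a * fq S s a'))⁻¹ = (C.z (a * fq S s a'))⁻¹ * R' := by
      rw [← C.z_neg Ax']
      exact C.r1_z Ax' _ _
    calc R' * T' * (R * T) = R' * (T' * R) * T := by group
      _ = R' * (C.z (a * fq S s a'))⁻¹ * (R * T') * T := by rw [c2]; group
      _ = _ := by rw [hz]; group
  rw [e1, e2, hRR, hTT] at h6
  have h7 := mul_right_cancel h6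
  rw [C.z_sub Ax', inv_inj.mp h7, mul_inv_cancel]

omit Ax' in
lemma Tr_φ (h3 : ∀ t, S.φ (S.φ (S.φ t)) = t) (x : K) : S.φ (Tr S.φ x) = Tr S.φ x := by
  simp only [Tr, map_add, h3]
  ring

/-- The additive Hilbert 90. -/
lemma hilbert {u : K} (hu : Tr S.φ u = 0) : ∃ y, u = S.φ y - y := by
  obtain ⟨θ₀, h0⟩ := Ax'.h_tr
  have h3 := S.φ3
  set e := Tr S.φ θ₀ with he
  have hφe : S.φ e = e := Tr_φ h3 θ₀
  set θ := θ₀ / e with hθ
  have hTθ : θ + S.φ θ + S.φ (S.φ θ) = 1 := by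
    have e1 : S.φ θ = S.φ θ₀ / e := by rw [hθ, map_div₀, hφe]
    have e2 : S.φ (S.φ θ) = S.φ (S.φ θ₀) / e := by rw [e1, map_div₀, hφe]
    rw [e2, e1, hθ]
    field_simp
    exact he.symm
  have hu' : S.φ (S.φ u) = -u - S.φ u := by
    have : u + S.φ u + S.φ (S.φ u) = 0 := hu
    linear_combination this
  refine ⟨-(u * S.φ θ + (u + S.φ u) * S.φ (S.φ θ)), ?_⟩
  simp only [map_neg, map_add, map_mul, h3, hu']
  linear_combination (-u) * hTθ

/-- The highest root element vanishes on the differences. -/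
lemma vanish1 (y : K) : C.z (S.φ y - y) = 1 := by
  obtain ⟨w, hw⟩ := Ax'.h_φ
  have h3 := S.φ3
  set a₀ := S.φ w - w with ha
  have ha0 : a₀ ≠ 0 := sub_ne_zero.mpr hw
  have ha2 : S.φ (S.φ a₀) ≠ 0 := by simpa using ha0
  set s' := y / S.φ (S.φ a₀) with hs'
  have key := C.vanish0 Ax' (S.φ (S.φ s')) 1 w
  have e : (1 : K) * fq S (S.φ (S.φ s')) w - w * fq S (S.φ (S.φ s')) 1 = S.eps * (S.φ y - y) := by
    simp only [fq, h3, map_one]
    have e1 : y = s' * S.φ (S.φ a₀) := by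
      rw [hs']
      field_simp
    have e2 : S.φ y = S.φ s' * a₀ := by
      rw [e1, map_mul, h3]
    have e3 : S.φ (S.φ a₀) = w - S.φ (S.φ w) := by
      simp only [ha, map_sub, h3]
    rw [e2, e1, e3, ha]
    ring
  rw [e] at key
  rcases Ax'.heps with h | h
  · rw [h, one_mul] at key
    exact key
  · rw [h, neg_one_mul, C.z_neg Ax'] at key
    exact inv_eq_one.mp key

/-- The highest root element factors through the trace. -/
theorem z_of_tr {u : K} (hu : Tr S.φ u = 0) : C.z u = 1 := by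
  obtain ⟨y, rfl⟩ := hilbert Ax' hu
  exact C.vanish1 Ax' y

lemma z_congr {u u' : K} (h : Tr S.φ u = Tr S.φ u') : C.z u = C.z u' := by
  have e : C.z (u - u') = 1 := by
    apply C.z_of_tr Ax'
    simp only [Tr, map_sub] at h ⊢
    linear_combination h
  rw [C.z_sub Ax'] at e
  exact mul_inv_eq_one.mp e

lemma l_congr {u u' : K} (h : Tr S.φ u = Tr S.φ u') : C.l u = C.l u' := by
  simp only [l, C.z_congr Ax' h]

lemma b_congr {u u' : K} (h : Tr S.φ u = Tr S.φ u') : C.b u = C.b u' := by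
  simp only [Ctx.b, C.l_congr Ax' h]

lemma Tr_neg (x : K) : Tr S.φ (-x) = -Tr S.φ x := by
  simp only [Tr, map_neg]
  ring

lemma bm_congr {u u' : K} (h : Tr S.φ u = Tr S.φ u') : C.bm u = C.bm u' := by
  have : Tr S.φ (-u) = Tr S.φ (-u') := by rw [Tr_neg Ax', Tr_neg Ax', h]
  simp only [bm, C.b_congr Ax' this]

end Ctx

end Cfsg.Agent.Lib.SchD4.E1
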