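import Cfsg.Agent.Lib.SchD4.E2

/-!
The action of the torus and of the Weyl elements on the root elements.
-/

set_option autoImplicit false
set_option linter.unusedSectionVars false
set_option linter.unusedVariables false
set_option linter.ambiguousOpen false
set_option linter.unusedSimpArgs false
set_option linter.unusedTactic false
set_option linter.unreachableTactic false
set_option linter.dupNamespace false

namespace Cfsg.Agent.Lib.SchD4.E1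

open scoped MatrixGroups Matrix
open Cfsg Cfsg.Agent.Lib.Chev.SL2 Cfsg.Agent.Lib.Steinberg.CExt Cfsg.Agent.Lib.SchD4.SL2 Cfsg.Agent.Lib.SchD4.Sys

universe u v

variable {K : Type u} [Field K] {G : Type v} [Group G] {E : Type u} [Group E]

lemma sq_chi (φ : K →+* K) (s : Kˣ) : s * s * (chi1 φ s)⁻¹ = Nu φ s := by
  rw [chi1, mul_inv_rev, inv_inv, mul_left_comm, mul_inv_cancel, mul_one]

lemma Nu_φ (φ : K →+* K) (h3 : ∀ t, φ (φ (φ t)) = t) (s : Kˣ) : Nu φ (Nu φ s) = Nu φ s * Nu φ s * Nu φ s := by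
  apply Units.ext
  simp only [Nu_val, Units.val_mul, Nm, map_mul, h3]
  ring

lemma Nu_chi (φ : K →+* K) (h3 : ∀ t, φ (φ (φ t)) = t) (s : Kˣ) : Nu φ (chi1 φ s)⁻¹ = Nu φ s := by
  rw [map_inv, chi1, map_mul, map_mul, map_inv, Nu_φ φ h3]
  generalize Nu φ s = n
  group

namespace Ctx

variable [Finite K] {S : Sys K G} {σ : E →* G} (C : Ctx S σ) (Ax' : Ax S)

omit Ax' in
lemma cj_A_V_inv (Ax' : Ax S) (s : Kˣ) (x : E) : cj (C.Aa s) (cj C.V⁻¹ x) = cj C.V⁻¹ (cj (C.Bb s) x) := by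
  rw [cj_cj, cj_cj, ← V_A]
  simp only [cj]
  group

omit Ax' in
lemma cj_B_V_inv (Ax' : Ax S) (s : Kˣ) (x : E) : cj (C.Bb s) (cj C.V⁻¹ x) = cj C.V⁻¹ (cj (C.Aa s) x) := by
  rw [cj_cj, cj_cj, ← V_B C Ax']
  simp only [cj]
  group

omit Ax' in
lemma cj_A_W (s : Kˣ) (x : E) : cj (C.Aa s) (cj C.W x) = cj C.W (cj (C.Aa s⁻¹) x) := by
  rw [cj_cj, cj_cj]
  congr 1
  have := C.W_Aa s⁻¹
  rw [inv_inv] at this
  rw [← this]
  simp [cj]

omit Ax' in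
lemma cj_B_W (Ax' : Ax S) (s : Kˣ) (x : E) : cj (C.Bb s) (cj C.W x) = cj C.W (cj (C.Dd s) x) := by
  rw [cj_cj, cj_cj, ← W_D C Ax']
  simp only [cj]
  group

omit Ax' in
lemma cj_A_V (Ax' : Ax S) (s : Kˣ) (x : E) : cj (C.Aa s) (cj C.V x) = cj C.V (cj (C.Bb s) x) := by
  rw [cj_cj, cj_cj, ← V_B C Ax']
  simp only [cj]
  group

include Ax'

lemma A_z (s : Kˣ) (u : K) : cj (C.Aa s) (C.z u) = C.z u :=
  cj_eq_self_iff.mpr (C.ps_of_z Ax' (C.σ_z Ax' u) _)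

lemma B_z (s : Kˣ) (u : K) : cj (C.Bb s) (C.z u) = C.z ((Nu S.φ s : Kˣ) * u) := by
  have e : (Nu S.φ s : K) * u = (((s * s : Kˣ) : K) * u) * (((chi1 S.φ s)⁻¹ : Kˣ) * 1) := by
    rw [← sq_chi]
    simp only [Units.val_mul, mul_one]
    ring
  rw [e, ← C.Fz_eq Ax', z, Fz, Fz, cj_cm, B_r1, B_r2 C Ax']

lemma A_l (s : Kˣ) (u : K) : cj (C.Aa s) (C.l u) = C.l ((Nu S.φ s : Kˣ) * u) := by
  rw [l, cj_A_V_inv C Ax', B_z C Ax']
  rfl

lemma B_l (s : Kˣ) (u : K) : cj (C.Bb s) (C.l u) = C.l u := by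
  rw [l, cj_B_V_inv C Ax', A_z C Ax']

lemma A_b (s : Kˣ) (u : K) : cj (C.Aa s) (C.b u) = C.b (((Nu S.φ s)⁻¹ : Kˣ) * u) := by
  rw [Ctx.b, cj_A_W, A_l C Ax', map_inv]
  rfl

lemma D_acts {s : Kˣ} : ∃ t : Kˣ, C.Dd s = C.Aa t * C.Bb t ∧ Nu S.φ t = Nu S.φ s := by
  obtain ⟨t, ht⟩ := Ax'.h_chi s⁻¹
  refine ⟨t, ?_, ?_⟩
  · rw [← D_eq C Ax', ht, inv_inv]
  · have := Nu_chi S.φ S.φ3 t
    rw [ht, inv_inv] at this
    exact this.symm

lemma D_l (s : Kˣ) (u : K) : cj (C.Dd s) (C.l u) = C.l ((Nu S.φ s : Kˣ) * u) := by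
  obtain ⟨t, h1, h2⟩ := C.D_acts Ax' (s := s)
  rw [h1, ← cj_cj, B_l C Ax', A_l C Ax', h2]

lemma B_b (s : Kˣ) (u : K) : cj (C.Bb s) (C.b u) = C.b ((Nu S.φ s : Kˣ) * u) := by
  rw [Ctx.b, cj_B_W C Ax', D_l C Ax']
  rfl

lemma A_bm (s : Kˣ) (u : K) : cj (C.Aa s) (C.bm u) = C.bm ((Nu S.φ s : Kˣ) * u) := by
  rw [bm, cj_A_V C Ax', B_b C Ax', bm, mul_neg]

lemma B_bm (s : Kˣ) (u : K) : cj (C.Bb s) (C.bm u) = C.bm (((Nu S.φ s)⁻¹ : Kˣ) * u) := by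
  rw [bm, cj_B_V, A_b C Ax', bm, mul_neg]

lemma D_bm (s : Kˣ) (u : K) : cj (C.Dd s) (C.bm u) = C.bm u := by
  obtain ⟨t, h1, h2⟩ := C.D_acts Ax' (s := s)
  rw [h1, ← cj_cj, B_bm C Ax', A_bm C Ax', ← mul_assoc, ← Units.val_mul, mul_inv_cancel]
  simp

lemma A_f7 (s : Kˣ) (u : K) : cj (C.Aa s) (C.f7 u) = C.f7 (((Nu S.φ s)⁻¹ : Kˣ) * u) := by
  rw [f7, cj_A_W, A_bm C Ax', map_inv]
  rfl

lemma B_f7 (s : Kˣ) (u : K) : cj (C.Bb s) (C.f7 u) = C.f7 u := by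
  rw [f7, cj_B_W C Ax', D_bm C Ax']

lemma A_f9 (s : Kˣ) (u : K) : cj (C.Aa s) (C.f9 u) = C.f9 u := by
  rw [f9, cj_A_V C Ax', B_f7 C Ax']

lemma B_f9 (s : Kˣ) (u : K) : cj (C.Bb s) (C.f9 u) = C.f9 (((Nu S.φ s)⁻¹ : Kˣ) * u) := by
  rw [f9, cj_B_V, A_f7 C Ax']
  rfl

/-! ### The good lift of `v` -/

/-- The lift of `v` given by the root elements. -/
noncomputable def V1 : E := C.b S.u0 * C.bm (-S.u0) * C.b S.u0

omit Ax' in
lemma σ_V1 (Ax' : Ax S) : σ C.V1 = S.v := C.σ_V' Ax'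

/-- The context with the good lift. -/
noncomputable def good (Ax' : Ax S) : Ctx S σ where
  hc := C.hc
  hK := C.hK
  ps := C.ps
  hps := C.hps
  V := C.V1
  hV := C.σ_V1 Ax'

omit Ax' in
lemma cj_V1 (Ax' : Ax S) (x : E) : cj C.V1 x = cj C.V x :=
  conj_lift σ C.hc ((C.σ_V1 Ax').trans C.hV.symm) x

omit Ax' in
lemma cj_V1_inv (Ax' : Ax S) (x : E) : cj C.V1⁻¹ x = cj C.V⁻¹ x :=
  conj_lift σ C.hc (by rw [map_inv, map_inv, C.σ_V1 Ax', C.hV]) x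

omit Ax' in
lemma good_V (Ax' : Ax S) : (C.good Ax').V = C.V1 := rfl
omit Ax' in
lemma good_ps (Ax' : Ax S) : (C.good Ax').ps = C.ps := rfl
omit Ax' in
lemma good_W (Ax' : Ax S) : (C.good Ax').W = C.W := rfl

omit Ax' in
lemma good_ps1 (Ax' : Ax S) (M : SL(2, K)) : (C.good Ax').ps1 M = C.ps1 M := by
  rw [ps1_apply, ps1_apply, good_V, cj_V1 C Ax']
  rfl

omit Ax' in
lemma good_ps2 (Ax' : Ax S) (M : SL(2, K)) : (C.good Ax').ps2 M = C.ps2 M := by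
  rw [ps2_apply, ps2_apply, good_ps1 C Ax']
  rfl

omit Ax' in
lemma good_z (Ax' : Ax S) (u : K) : (C.good Ax').z u = C.z u := by
  simp only [z, Fz, r1, r2, good_ps1 C Ax', good_ps2 C Ax']

omit Ax' in
lemma good_l (Ax' : Ax S) (u : K) : (C.good Ax').l u = C.l u := by
  rw [l, l, good_z C Ax', good_V, cj_V1_inv C Ax']

omit Ax' in
lemma good_b (Ax' : Ax S) (u : K) : (C.good Ax').b u = C.b u := by
  rw [Ctx.b, Ctx.b, good_l C Ax']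
  rfl

omit Ax' in
lemma good_bm (Ax' : Ax S) (u : K) : (C.good Ax').bm u = C.bm u := by
  rw [bm, bm, good_b C Ax', good_V, cj_V1 C Ax']

omit Ax' in
/-- The good lift is given by the root elements. -/
theorem good_spec (Ax' : Ax S) : (C.good Ax').V =
    (C.good Ax').b S.u0 * (C.good Ax').bm (-S.u0) * (C.good Ax').b S.u0 := by
  rw [good_b C Ax', good_bm C Ax']
  rfl

end Ctx

end Cfsg.Agent.Lib.SchD4.E1
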