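import Cfsg.Agent.Lib.SchD4.E3

/-!
The Weyl elements on the root elements.
-/

set_option autoImplicit false
set_option linter.unusedSectionVars false
set_option linter.unusedVariables false
set_option linter.ambiguousOpen false
set_option linter.unusedSimpArgs false
set_option linter.unusedTactic false
set_option linter.unreachableTactic false
set_option linter.dupNamespace false

namespace Cfsg.Agent.Lib.SchD4.E1

open scoped MatrixGroups Matrix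
open Cfsg Cfsg.Agent.Lib.Chev.SL2 Cfsg.Agent.Lib.Steinberg.CExt Cfsg.Agent.Lib.SchD4.SL2 Cfsg.Agent.Lib.SchD4.Sys

universe u v

variable {K : Type u} [Field K] {G : Type v} [Group G] {E : Type u} [Group E]

lemma Nu_neg_one (φ : K →+* K) : Nu φ (-1) = -1 := by
  apply Units.ext
  simp [Nm]

namespace Ctx

variable [Finite K] {S : Sys K G} {σ : E →* G} (C : Ctx S σ)

/-! ### `W` -/

lemma W_r0 (a : K) : cj C.W (C.r0 a) = C.r0m (-a) := by
  simp only [W, r0, r0m, ← map_cj]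
  congr 1
  exact n0_conj_up a

lemma W_r0m (a : K) : cj C.W (C.r0m a) = C.r0 (-a) := by
  simp only [W, r0, r0m, ← map_cj]
  congr 1
  exact n0_conj_lo a

lemma W_r1 (a : K) : cj C.W (C.r1 a) = C.r2 a := rfl

lemma W_r1m (a : K) : cj C.W (C.r1m a) = C.r2m a := rfl

variable (Ax' : Ax S)
include Ax'

lemma W_r2 (a : K) : cj C.W (C.r2 a) = C.r1 (-a) := by
  rw [r2, W_ps2 C Ax', dc_up, r1]
  simp

lemma W_r2m (a : K) : cj C.W (C.r2m a) = C.r1m (-a) := by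
  rw [r2m, W_ps2 C Ax', dc_lo, r1m]
  simp

omit Ax' in
lemma W_l (a : K) : cj C.W (C.l a) = C.b a := rfl

omit Ax' in
lemma W_sq_conj (x : E) : cj C.W (cj C.W x) = cj (C.Aa (-1)) x := by
  rw [cj_cj, W_sq]

lemma W_b (a : K) : cj C.W (C.b a) = C.l (-a) := by
  rw [Ctx.b, W_sq_conj C, A_l C Ax', Nu_neg_one]
  simp

lemma W_z (a : K) : cj C.W (C.z a) = C.z a :=
  cj_eq_self_iff.mpr (C.ps_of_z Ax' (C.σ_z Ax' a) _)

omit Ax' in
lemma W_bm (a : K) : cj C.W (C.bm a) = C.f7 a := rfl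

lemma W_f7 (a : K) : cj C.W (C.f7 a) = C.bm (-a) := by
  rw [f7, W_sq_conj C, A_bm C Ax', Nu_neg_one]
  simp

lemma W_f9 (a : K) : cj C.W (C.f9 a) = C.f9 a :=
  cj_eq_self_iff.mpr (C.ps_of_f9 Ax' (C.σ_f9 Ax' a) _)

/-! ### `V` -/

omit Ax' in
lemma V_r0 (a : K) : cj C.V (C.r0 a) = C.r1 a := rfl
omit Ax' in
lemma V_r0m (a : K) : cj C.V (C.r0m a) = C.r1m a := rfl

lemma V_r1 (a : K) : cj C.V (C.r1 a) = C.r0 (-a) := by
  rw [r1, V_ps1 C Ax', dc_up, r0]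
  simp

lemma V_r1m (a : K) : cj C.V (C.r1m a) = C.r0m (-a) := by
  rw [r1m, V_ps1 C Ax', dc_lo, r0m]
  simp

lemma V_r2 (a : K) : cj C.V (C.r2 a) = C.r2 a := V_ps2 C Ax' _
lemma V_r2m (a : K) : cj C.V (C.r2m a) = C.r2m a := V_ps2 C Ax' _

omit Ax' in
lemma V_l (a : K) : cj C.V (C.l a) = C.z a := by
  rw [l, cj_cj_inv]

omit Ax' in
lemma V_b (a : K) : cj C.V (C.b a) = C.bm (-a) := by
  rw [bm, neg_neg]

omit Ax' in
lemma V_f7 (a : K) : cj C.V (C.f7 a) = C.f9 a := rfl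

lemma b_neg (a : K) : C.b (-a) = (C.b a)⁻¹ := by
  apply eq_inv_of_mul_eq_one_left
  rw [← C.b_add Ax', neg_add_cancel, b_zero]

lemma bm_neg (a : K) : C.bm (-a) = (C.bm a)⁻¹ := by
  apply eq_inv_of_mul_eq_one_left
  rw [← C.bm_add Ax', neg_add_cancel, bm_zero]

-- A chosen lift of `v` with good properties.
variable (hg : C.V = C.b S.u0 * C.bm (-S.u0) * C.b S.u0)
include hg

lemma V_inv : C.V⁻¹ = cj (C.Aa (-1)) C.V := by
  rw [hg]
  simp only [cj_mul, A_b C Ax', A_bm C Ax', Nu_neg_one]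
  simp only [mul_inv_rev, ← b_neg C Ax', ← bm_neg C Ax', neg_neg]
  simp [mul_assoc]

lemma V_sq : C.V * C.V = (C.Bb (-1))⁻¹ * C.Aa (-1) := by
  have h := C.V_inv Ax' hg
  have h1 : C.Aa (-1) * C.V * (C.Aa (-1))⁻¹ * C.V = 1 := by
    have := inv_mul_cancel C.V
    rwa [h] at this
  have h2 : (C.Aa (-1))⁻¹ = C.Aa (-1) := by
    rw [← Aa_inv]
    simp
  have hB : C.Bb (-1) = C.V * C.Aa (-1) * C.V⁻¹ := rfl
  rw [eq_inv_mul_iff_mul_eq, hB]
  -- `V τ V⁻¹ V V = V τ V`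
  have h3 : C.V * C.Aa (-1) * C.V = (C.Aa (-1))⁻¹ := by
    rw [h2] at h1
    have e : (C.Aa (-1)) * (C.V * C.Aa (-1) * C.V) = 1 := by
      rw [← h1]
      group
    exact eq_inv_of_mul_eq_one_right e
  calc C.V * C.Aa (-1) * C.V⁻¹ * (C.V * C.V) = C.V * C.Aa (-1) * C.V := by group
    _ = (C.Aa (-1))⁻¹ := h3
    _ = _ := h2

lemma V_sq_conj (x : E) : cj C.V (cj C.V x) = cj (C.Bb (-1)) (cj (C.Aa (-1)) x) := by
  rw [cj_cj, V_sq C Ax' hg, ← cj_cj, ← Bb_inv]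
  simp

lemma V_z (a : K) : cj C.V (C.z a) = C.l (-a) := by
  conv_lhs => rw [← V_l C a]
  rw [V_sq_conj C Ax' hg, A_l C Ax', B_l C Ax', Nu_neg_one]
  simp

lemma V_bm (a : K) : cj C.V (C.bm a) = C.b (-a) := by
  rw [bm, V_sq_conj C Ax' hg, A_b C Ax', B_b C Ax', Nu_neg_one]
  simp

lemma V_f9 (a : K) : cj C.V (C.f9 a) = C.f7 (-a) := by
  rw [f9, V_sq_conj C Ax' hg, A_f7 C Ax', B_f7 C Ax', Nu_neg_one]
  simp

/-- The element `w₅`. -/
lemma w5_b (a : K) : cj (C.W * C.V * C.W * C.V * C.W) (C.b a) = C.b a := by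
  simp only [← cj_cj]
  rw [W_b C Ax', V_l, W_z C Ax', V_z C Ax' hg, W_l, neg_neg]

lemma w5_bm (a : K) : cj (C.W * C.V * C.W * C.V * C.W) (C.bm a) = C.bm a := by
  simp only [← cj_cj]
  rw [W_bm C, V_f7, W_f9 C Ax', V_f9 C Ax' hg, W_f7 C Ax', neg_neg]

/-- The braid relation. -/
lemma braid : (C.W * C.V * C.W * C.V * C.W) * C.V = C.V * (C.W * C.V * C.W * C.V * C.W) := by
  rw [← cj_eq_self_iff]
  conv_lhs => arg 2; rw [hg]
  rw [cj_mul, cj_mul, w5_b C Ax' hg, w5_bm C Ax' hg, ← hg]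

end Ctx

end Cfsg.Agent.Lib.SchD4.E1
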