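import Cfsg.Agent.Lib.SchD4.E4

/-!
Balanced central defects, and a closure principle.
-/

set_option autoImplicit false
set_option linter.unusedSectionVars false
set_option linter.unusedVariables false
set_option linter.ambiguousOpen false
set_option linter.unusedSimpArgs false
set_option linter.unusedTactic false
set_option linter.unreachableTactic false
set_option linter.dupNamespace false

namespace Cfsg.Agent.Lib.SchD4.E1

open scoped MatrixGroups Matrix
open Cfsg Cfsg.Agent.Lib.Chev.SL2 Cfsg.Agent.Lib.Steinberg.CExt Cfsg.Agent.Lib.SchD4.SL2 Cfsg.Agent.Lib.SchD4.Sys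

universe u v

variable {K : Type u} [Field K] {G : Type v} [Group G] {E : Type u} [Group E]

lemma cj_cj' (t x y : E) : cj t (cj x y) = cj (cj t x) (cj t y) := by
  simp [cj, mul_assoc]

/-- The closure principle. -/
lemma closure_form (X P : Set E) (h1 : (1 : E) ∈ P) (hl : ∀ x ∈ X, ∀ g ∈ P, x * g ∈ P) (hinv : ∀ x ∈ X, x⁻¹ ∈ X) :
    ∀ g ∈ Subgroup.closure X, g ∈ P := by
  intro g hg
  induction hg using Subgroup.closure_induction_left with
  | one => exact h1
  | mul_left x hx y hy ih => exact hl x hx y ih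
  | inv_mul_cancel x hx y hy ih => exact hl x⁻¹ (hinv x hx) y ih

/-- Normalization can be checked on generators. -/
lemma closure_cj (X : Set E) (t : E) (h : ∀ x ∈ X, cj t x ∈ Subgroup.closure X) :
    ∀ g ∈ Subgroup.closure X, cj t g ∈ Subgroup.closure X := by
  intro g hg
  induction hg using Subgroup.closure_induction with
  | mem x hx => exact h x hx
  | one => rw [cj_one]; exact Subgroup.one_mem _
  | mul a b _ _ ha hb => rw [cj_mul]; exact Subgroup.mul_mem _ ha hb
  | inv a _ ha => rw [cj_inv]; exact Subgroup.inv_mem _ ha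

section bal

variable (σ : E →* G) (hc : σ.ker ≤ Subgroup.center E)
include hc

/-- Two variables. -/
theorem bal_two (T : Subgroup E) (hinj : ∀ g ∈ T, σ g = 1 → g = 1) (x y : K → E)
    (hxadd : ∀ a b, x (a + b) = x a * x b) (hyadd : ∀ a b, y (a + b) = y a * y b)
    (hxT : ∀ s, ∀ g ∈ T, cj (x s) g ∈ T) (hyT : ∀ a, ∀ g ∈ T, cj (y a)⁻¹ g ∈ T)
    (hex : ∀ s a, ∃ h ∈ T, σ (cj (x s) (y a)) = σ (y a * h))
    (hbal : ∀ c : K, c ≠ 0 → ∃ t : E, (∀ s, cj t (x s) = x (c * s)) ∧ (∀ a, cj t (y a) = y (c * a)) ∧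
      ∀ g ∈ T, cj t g ∈ T)
    {d : K} (hd0 : d ≠ 0) (hd1 : 1 + d ≠ 0) (hd2 : d ^ 2 + d + 1 ≠ 0) (s a : K) :
    ∃ h ∈ T, cj (x s) (y a) = y a * h := by
  choose h hhT hh using hex
  set k : K → K → E := fun s a => (y a * h s a)⁻¹ * cj (x s) (y a) with hkdef
  have hkk : ∀ s a, σ (k s a) = 1 := by
    intro s a
    simp only [hkdef, map_mul, map_inv] at hh ⊢
    rw [hh, inv_mul_cancel]
  have hk : ∀ s a, k s a ∈ Subgroup.center E := fun s a => hc ((MonoidHom.mem_ker).mpr (hkk s a))
  have hspec : ∀ s a, cj (x s) (y a) = y a * h s a * k s a := by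
    intro s a
    show _ = y a * h s a * ((y a * h s a)⁻¹ * cj (x s) (y a))
    group
  have hcent : ∀ s a g, k s a * g = g * k s a := fun s a g => (Subgroup.mem_center_iff.mp (hk s a) g).symm
  have huniq : ∀ (h₁ h₂ k₁ k₂ : E), h₁ ∈ T → h₂ ∈ T → σ k₁ = 1 → σ k₂ = 1 → h₁ * k₁ = h₂ * k₂ → k₁ = k₂ := by
    intro h₁ h₂ k₁ k₂ e1 e2 e3 e4 e5
    have e6 := congrArg σ e5
    simp only [map_mul, e3, e4, mul_one] at e6
    have e7 : h₁⁻¹ * h₂ = 1 := by
      apply hinj _ (T.mul_mem (T.inv_mem e1) e2)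
      rw [map_mul, map_inv, e6, inv_mul_cancel]
    have e8 : h₂ = h₁ := by
      rw [inv_mul_eq_iff_eq_mul, mul_one] at e7
      exact e7
    rw [e8] at e5
    exact (mul_left_cancel e5)
  letI : CommGroup (Subgroup.center E) := { (inferInstance : Group (Subgroup.center E)) with
    mul_comm := fun a b => Subtype.ext (Subgroup.mem_center_iff.mp b.2 a.1) }
  let f : K → K → Subgroup.center E := fun s a => ⟨k s a, hk s a⟩
  have hf1 : ∀ s s' a, f (s + s') a = f s a * f s' a := by
    intro s s' a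
    apply Subtype.ext
    show k (s + s') a = k s a * k s' a
    have e1 := hspec (s + s') a
    have e2 : cj (x (s + s')) (y a) = cj (x s) (cj (x s') (y a)) := by
      rw [hxadd, cj_cj]
    rw [e2, hspec s' a, cj_mul, cj_mul, hspec s a, cj_eq_self_iff.mpr (hcent s' a (x s)).symm] at e1
    have e3 : y a * h s a * k s a * cj (x s) (h s' a) * k s' a = y a * (h s a * cj (x s) (h s' a) * (k s a * k s' a)) := by
      calc y a * h s a * k s a * cj (x s) (h s' a) * k s' a
          = y a * h s a * (k s a * cj (x s) (h s' a)) * k s' a := by group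
        _ = y a * h s a * (cj (x s) (h s' a) * k s a) * k s' a := by rw [hcent]
        _ = _ := by group
    rw [e3, mul_assoc (y a) (h (s + s') a)] at e1
    have e4 := mul_left_cancel e1
    exact (huniq _ _ _ _ (hhT _ _) (T.mul_mem (hhT _ _) (hxT _ _ (hhT _ _))) (hkk _ _) (by
      rw [map_mul, hkk, hkk, one_mul]) e4.symm)
  have hf2 : ∀ s a a', f s (a + a') = f s a * f s a' := by
    intro s a a'
    apply Subtype.ext
    show k s (a + a') = k s a * k s a'
    have e1 := hspec s (a + a')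
    rw [hyadd, cj_mul, hspec s a, hspec s a'] at e1
    have e3 : y a * h s a * k s a * (y a' * h s a' * k s a') =
        y a * y a' * (cj (y a')⁻¹ (h s a) * h s a' * (k s a * k s a')) := by
      calc y a * h s a * k s a * (y a' * h s a' * k s a') = y a * h s a * (k s a * (y a' * h s a')) * k s a' := by group
        _ = y a * h s a * ((y a' * h s a') * k s a) * k s a' := by rw [hcent]
        _ = _ := by simp only [cj]; group
    rw [e3, mul_assoc (y a * y a')] at e1
    have e4 := mul_left_cancel e1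
    exact (huniq _ _ _ _ (hhT _ _) (T.mul_mem (hyT _ _ (hhT _ _)) (hhT _ _)) (hkk _ _) (by
      rw [map_mul, hkk, hkk, one_mul]) e4.symm)
  have hf3 : ∀ c : K, c ≠ 0 → ∀ s a, f (c * s) (c * a) = f s a := by
    intro c hc0 s a
    apply Subtype.ext
    show k (c * s) (c * a) = k s a
    obtain ⟨t, ht1, ht2, ht3⟩ := hbal c hc0
    have e1 := hspec (c * s) (c * a)
    have e2 : cj (x (c * s)) (y (c * a)) = cj t (cj (x s) (y a)) := by
      rw [cj_cj', ht1, ht2]
    rw [e2, hspec s a, cj_mul, cj_mul, ht2, cj_eq_self_iff.mpr (hcent s a t).symm, mul_assoc, mul_assoc] at e1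
    have e4 := mul_left_cancel e1
    exact (huniq _ _ _ _ (ht3 _ (hhT _ _)) (hhT _ _) (hkk _ _) (hkk _ _) e4).symm
  have key := biadd_balanced (f := f) hf1 hf2 hf3 hd0 hd1 hd2 s a
  have key' : k s a = 1 := congrArg Subtype.val key
  exact ⟨h s a, hhT _ _, by rw [hspec, key', mul_one]⟩

/-- One variable. -/
theorem bal_one (T : Subgroup E) (hinj : ∀ g ∈ T, σ g = 1 → g = 1) (x : K → E) (y : E)
    (hxadd : ∀ a b, x (a + b) = x a * x b) (hxT : ∀ s, ∀ g ∈ T, cj (x s) g ∈ T)
    (hex : ∀ s, ∃ h ∈ T, σ (cj (x s) y) = σ (y * h))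
    {c : K} (hc1 : c ≠ 1) {t : E} (ht1 : ∀ s, cj t (x s) = x (c * s)) (ht2 : cj t y = y)
    (ht3 : ∀ g ∈ T, cj t g ∈ T) (s : K) :
    ∃ h ∈ T, cj (x s) y = y * h := by
  choose h hhT hh using hex
  set k : K → E := fun s => (y * h s)⁻¹ * cj (x s) y with hkdef
  have hkk : ∀ s, σ (k s) = 1 := by
    intro s
    simp only [hkdef, map_mul, map_inv] at hh ⊢
    rw [hh, inv_mul_cancel]
  have hk : ∀ s, k s ∈ Subgroup.center E := fun s => hc ((MonoidHom.mem_ker).mpr (hkk s))
  have hspec : ∀ s, cj (x s) y = y * h s * k s := by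
    intro s
    show _ = y * h s * ((y * h s)⁻¹ * cj (x s) y)
    group
  have hcent : ∀ s g, k s * g = g * k s := fun s g => (Subgroup.mem_center_iff.mp (hk s) g).symm
  have huniq : ∀ (h₁ h₂ k₁ k₂ : E), h₁ ∈ T → h₂ ∈ T → σ k₁ = 1 → σ k₂ = 1 → h₁ * k₁ = h₂ * k₂ → k₁ = k₂ := by
    intro h₁ h₂ k₁ k₂ e1 e2 e3 e4 e5
    have e6 := congrArg σ e5
    simp only [map_mul, e3, e4, mul_one] at e6
    have e7 : h₁⁻¹ * h₂ = 1 := by
      apply hinj _ (T.mul_mem (T.inv_mem e1) e2)
      rw [map_mul, map_inv, e6, inv_mul_cancel]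
    have e8 : h₂ = h₁ := by
      rw [inv_mul_eq_iff_eq_mul, mul_one] at e7
      exact e7
    rw [e8] at e5
    exact (mul_left_cancel e5)
  letI : CommGroup (Subgroup.center E) := { (inferInstance : Group (Subgroup.center E)) with
    mul_comm := fun a b => Subtype.ext (Subgroup.mem_center_iff.mp b.2 a.1) }
  let f : K → Subgroup.center E := fun s => ⟨k s, hk s⟩
  have hf1 : ∀ s s', f (s + s') = f s * f s' := by
    intro s s'
    apply Subtype.ext
    show k (s + s') = k s * k s'
    have e1 := hspec (s + s')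
    have e2 : cj (x (s + s')) y = cj (x s) (cj (x s') y) := by
      rw [hxadd, cj_cj]
    rw [e2, hspec s', cj_mul, cj_mul, hspec s, cj_eq_self_iff.mpr (hcent s' (x s)).symm] at e1
    have e3 : y * h s * k s * cj (x s) (h s') * k s' = y * (h s * cj (x s) (h s') * (k s * k s')) := by
      calc y * h s * k s * cj (x s) (h s') * k s'
          = y * h s * (k s * cj (x s) (h s')) * k s' := by group
        _ = y * h s * (cj (x s) (h s') * k s) * k s' := by rw [hcent]
        _ = _ := by group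
    rw [e3, mul_assoc y (h (s + s'))] at e1
    have e4 := mul_left_cancel e1
    exact (huniq _ _ _ _ (hhT _) (T.mul_mem (hhT _) (hxT _ _ (hhT _))) (hkk _) (by
      rw [map_mul, hkk, hkk, one_mul]) e4.symm)
  have hf3 : ∀ s, f (c * s) = f s := by
    intro s
    apply Subtype.ext
    show k (c * s) = k s
    have e1 := hspec (c * s)
    have e2 : cj (x (c * s)) y = cj t (cj (x s) y) := by
      rw [cj_cj', ht1, ht2]
    rw [e2, hspec s, cj_mul, cj_mul, ht2, cj_eq_self_iff.mpr (hcent s t).symm, mul_assoc, mul_assoc] at e1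
    have e4 := mul_left_cancel e1
    exact (huniq _ _ _ _ (ht3 _ (hhT _)) (hhT _) (hkk _) (hkk _) e4).symm
  have key := add_fun_trivial (f := f) hf1 hc1 hf3 s
  have key' : k s = 1 := congrArg Subtype.val key
  exact ⟨h s, hhT _, by rw [hspec, key', mul_one]⟩

end bal

end Cfsg.Agent.Lib.SchD4.E1
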