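import Cfsg.Agent.Lib.SchD4.E5

/-!
The unipotent subgroups in a central extension.
-/

set_option autoImplicit false
set_option linter.unusedSectionVars false
set_option linter.unusedVariables false
set_option linter.ambiguousOpen false
set_option linter.unusedSimpArgs false
set_option linter.unusedTactic false
set_option linter.unreachableTactic false
set_option linter.dupNamespace false

namespace Cfsg.Agent.Lib.SchD4.E1

open scoped MatrixGroups Matrix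
open Cfsg Cfsg.Agent.Lib.Chev.SL2 Cfsg.Agent.Lib.Steinberg.CExt Cfsg.Agent.Lib.SchD4.SL2 Cfsg.Agent.Lib.SchD4.Sys

universe u v

variable {K : Type u} [Field K] {G : Type v} [Group G] {E : Type u} [Group E]

lemma lc {a b : E} (h : a * b = b * a) (g : E) : a * (b * g) = b * (a * g) := by
  rw [← mul_assoc, h, mul_assoc]

lemma range_inv (f : K → E) (hf : ∀ a b, f (a + b) = f a * f b) : ∀ x ∈ Set.range f, x⁻¹ ∈ Set.range f := by
  rintro x ⟨a, rfl⟩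
  refine ⟨-a, ?_⟩
  apply eq_inv_of_mul_eq_one_left
  rw [← hf, neg_add_cancel]
  have := hf 0 0
  rw [add_zero] at this
  exact mul_eq_left.mp this.symm

namespace Ctx

variable [Finite K] {S : Sys K G} {σ : E →* G} (C : Ctx S σ) (Ax' : Ax S)

include Ax'

lemma cj_V_inv_r1 (a : K) : cj C.V⁻¹ (C.r1 a) = C.r0 a := by
  rw [← V_r0, cj_inv_cj]

lemma cj_V_inv_r2 (a : K) : cj C.V⁻¹ (C.r2 a) = C.r2 a := by
  conv_lhs => rw [← V_r2 C Ax' a]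
  rw [cj_inv_cj]

lemma cm_r1_r2 (a b : K) : cm (C.r1 a) (C.r2 b) = C.z (a * b) := C.Fz_eq Ax' a b

/-- The commutator of the first short root with the third. -/
lemma cm_r0_r2 (s w : K) : cm (C.r0 s) (C.r2 w) = C.l (s * w) := by
  rw [Ctx.l, ← cm_r1_r2 C Ax', cj_cm, cj_V_inv_r1 C Ax', cj_V_inv_r2 C Ax']

lemma r0_r2 (s w : K) : cj (C.r0 s) (C.r2 w) = C.l (s * w) * C.r2 w := by
  rw [← cm_r0_r2 C Ax']
  simp only [cj, cm]
  group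

/-- Lifting the fourth relation. -/
lemma R4_lift (s u : K) : ∃ c r r', ∃ k ∈ Subgroup.center E, cj (C.r0 s) (C.b u) =
    C.b u * (C.r1 (S.kap * Tr S.φ u * s) * C.r2 c * (C.l r * C.z r')) * k := by
  obtain ⟨c, r, r', h⟩ := Ax'.h_R4 s u
  refine ⟨c, r, r', ?_⟩
  obtain ⟨k, hk, e⟩ := exists_central σ C.hc (x := C.b u * (C.r1 (S.kap * Tr S.φ u * s) * C.r2 c * (C.l r * C.z r'))) (x' := cj (C.r0 s) (C.b u)) (by
    rw [map_cj, map_mul, map_mul, map_mul, map_mul, r0, r1, r2, C.hps, σ_ps1, σ_ps2, C.σ_l Ax', C.σ_z Ax', C.σ_b Ax', h])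
  exact ⟨k, hk, e⟩

/-- The commutator of the long roots `β` and `3α + β`. -/
lemma cm_b_l (u s : K) : cm (C.b u) (C.l s) = C.z (-(S.kap * Tr S.φ u * s)) := by
  obtain ⟨c, r, r', k, hk, e⟩ := C.R4_lift Ax' s u
  set lam := S.kap * Tr S.φ u * s with hlam
  have hT := C.r0_r2 Ax' s 1
  rw [mul_one] at hT
  have hcomm : cj (C.r0 s) (C.b u) * cj (C.r0 s) (C.r2 1) = cj (C.r0 s) (C.r2 1) * cj (C.r0 s) (C.b u) := by
    rw [← cj_mul, ← cj_mul, C.r2_b Ax']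
  rw [e, hT] at hcomm
  set P := C.b u
  set L := C.l s
  set T := C.r2 1
  set R := C.r1 lam * C.r2 c * (C.l r * C.z r') with hR
  have hkc := Subgroup.mem_center_iff.mp hk
  have h1 : P * R * k * (L * T) = P * R * (L * T) * k := by
    have := hkc (L * T)
    calc P * R * k * (L * T) = P * R * (k * (L * T)) := by group
      _ = P * R * ((L * T) * k) := by rw [this]
      _ = _ := by group
  have h2 : L * T * (P * R * k) = L * T * (P * R) * k := by group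
  rw [h1, h2] at hcomm
  have h3 := mul_right_cancel hcomm
  -- `R` commutes with `L`
  have hRL : R * L = L * R := by
    simp only [hR, L]
    have a1 := C.r1_l Ax' lam s
    have a2 := C.r2_l Ax' c s
    have a3 := C.l_l Ax' r s
    have a4 := C.l_z Ax' s r'
    calc C.r1 lam * C.r2 c * (C.l r * C.z r') * C.l s
        = C.r1 lam * C.r2 c * (C.l r * (C.z r' * C.l s)) := by group
      _ = C.r1 lam * C.r2 c * ((C.l r * C.l s) * C.z r') := by rw [← a4]; group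
      _ = C.r1 lam * (C.r2 c * C.l s) * C.l r * C.z r' := by rw [a3]; group
      _ = (C.r1 lam * C.l s) * C.r2 c * C.l r * C.z r' := by rw [a2]; group
      _ = _ := by rw [a1]; group
  have hTP : T * P = P * T := C.r2_b Ax' 1 u
  -- `R T = z T R`
  have hRT : R * T = C.z lam * (T * R) := by
    have a0 := C.cm_r1_r2 Ax' lam 1
    rw [mul_one] at a0
    have a1 : C.r1 lam * T = C.z lam * (T * C.r1 lam) := by
      rw [← a0]
      simp only [cm, T]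
      group
    have a2 : C.r2 c * T = T * C.r2 c := by
      simp only [T, ← r2_add, add_comm]
    have a3 : C.l r * T = T * C.l r := (C.r2_l Ax' 1 r).symm
    have a4 : C.z r' * T = T * C.z r' := (C.r2_z Ax' 1 r').symm
    simp only [hR]
    calc C.r1 lam * C.r2 c * (C.l r * C.z r') * T
        = C.r1 lam * C.r2 c * C.l r * (C.z r' * T) := by group
      _ = C.r1 lam * C.r2 c * (C.l r * T) * C.z r' := by rw [a4]; group
      _ = C.r1 lam * (C.r2 c * T) * C.l r * C.z r' := by rw [a3]; group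
      _ = (C.r1 lam * T) * C.r2 c * C.l r * C.z r' := by rw [a2]; group
      _ = _ := by rw [a1]; group
  have hzL : C.z lam * L = L * C.z lam := (C.l_z Ax' s lam).symm
  have hzP : C.z lam * P = P * C.z lam := (C.b_z Ax' u lam).symm
  have h4 : P * L * C.z lam * (T * R) = L * P * (T * R) := by
    calc P * L * C.z lam * (T * R) = P * L * (C.z lam * (T * R)) := by group
      _ = P * (L * R) * T := by rw [← hRT]; group
      _ = P * (R * L) * T := by rw [hRL]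
      _ = P * R * (L * T) := by group
      _ = L * T * (P * R) := h3
      _ = L * (T * P) * R := by group
      _ = _ := by rw [hTP]; group
  have h5 := mul_right_cancel h4
  rw [C.z_neg Ax']
  simp only [cm]
  have h6 : P * L * P⁻¹ * L⁻¹ * C.z lam = 1 := by
    have e1 : P * L * P⁻¹ * L⁻¹ * C.z lam = P * L * C.z lam * P⁻¹ * L⁻¹ := by
      have e2 : C.z lam * (P⁻¹ * L⁻¹) = (P⁻¹ * L⁻¹) * C.z lam := by
        have b1 : C.z lam * P⁻¹ = P⁻¹ * C.z lam := by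
          rw [eq_inv_mul_iff_mul_eq, ← mul_assoc, ← hzP, mul_assoc, mul_inv_cancel, mul_one]
        have b2 : C.z lam * L⁻¹ = L⁻¹ * C.z lam := by
          rw [eq_inv_mul_iff_mul_eq, ← mul_assoc, ← hzL, mul_assoc, mul_inv_cancel, mul_one]
        rw [← mul_assoc, b1, mul_assoc, b2, mul_assoc]
      calc P * L * P⁻¹ * L⁻¹ * C.z lam = P * L * ((P⁻¹ * L⁻¹) * C.z lam) := by group
        _ = _ := by rw [← e2]; group
    rw [e1, h5]
    group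
  exact eq_inv_of_mul_eq_one_left h6

lemma b_l_conj (u s : K) : cj (C.b u) (C.l s) = C.z (-(S.kap * Tr S.φ u * s)) * C.l s := by
  rw [← cm_b_l C Ax']
  simp only [cj, cm]
  group

/-- Moving `l` across `b`. -/
lemma l_b (x u : K) : C.l x * C.b u = C.b u * (C.l x * C.z (S.kap * Tr S.φ u * x)) := by
  have h := C.b_l_conj Ax' u x
  simp only [cj] at h
  have e : C.b u * C.l x = C.z (-(S.kap * Tr S.φ u * x)) * C.l x * C.b u := by
    rw [← h]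
    group
  have e2 : C.l x * C.b u = C.z (S.kap * Tr S.φ u * x) * (C.b u * C.l x) := by
    rw [e, ← mul_assoc, ← mul_assoc, ← C.z_add Ax', add_neg_cancel, z_zero, one_mul]
  rw [e2, ← mul_assoc, ← C.b_z Ax', mul_assoc, C.l_z Ax']

/-- Moving `r2` across `r1`. -/
lemma r2_r1 (x a : K) : C.r2 x * C.r1 a = C.r1 a * (C.r2 x * C.z (-(a * x))) := by
  have h := C.cm_r1_r2 Ax' a x
  have e : C.r1 a * C.r2 x = C.z (a * x) * (C.r2 x * C.r1 a) := by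
    rw [← h]
    simp only [cm]
    group
  have e2 : C.r2 x * C.r1 a = C.z (-(a * x)) * (C.r1 a * C.r2 x) := by
    rw [e, ← mul_assoc, ← C.z_add Ax', neg_add_cancel, z_zero, one_mul]
  rw [e2, ← mul_assoc, ← C.r1_z Ax', mul_assoc, ← C.r2_z Ax']

/-! ### Forms -/

/-- The form in `Q₂`. -/
noncomputable def F2 (c p p' : K) : E := C.r2 c * (C.l p * C.z p')

/-- The form in `Q₀`. -/
noncomputable def F0 (a c p p' : K) : E := C.r1 a * C.F2 c p p'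

/-- The form in `Q`. -/
noncomputable def FQ (u a c p p' : K) : E := C.b u * C.F0 a c p p'

lemma z_F2 (x c p p' : K) : C.z x * C.F2 c p p' = C.F2 c p (x + p') := by
  simp only [F2]
  rw [lc (C.r2_z Ax' c x).symm, lc (C.l_z Ax' p x).symm, C.z_add Ax']

lemma l_F2 (x c p p' : K) : C.l x * C.F2 c p p' = C.F2 c (x + p) p' := by
  simp only [F2]
  rw [lc (C.r2_l Ax' c x).symm, ← mul_assoc (C.l x), C.l_add Ax']

omit Ax' in
lemma r2_F2 (x c p p' : K) : C.r2 x * C.F2 c p p' = C.F2 (x + c) p p' := by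
  simp only [F2]
  rw [← mul_assoc, r2_add]

lemma z_F0 (x a c p p' : K) : C.z x * C.F0 a c p p' = C.F0 a c p (x + p') := by
  simp only [F0]
  rw [lc (C.r1_z Ax' a x).symm, z_F2 C Ax']

lemma l_F0 (x a c p p' : K) : C.l x * C.F0 a c p p' = C.F0 a c (x + p) p' := by
  simp only [F0]
  rw [lc (C.r1_l Ax' a x).symm, l_F2 C Ax']

lemma r2_F0 (x a c p p' : K) : C.r2 x * C.F0 a c p p' = C.F0 a (x + c) p (-(a * x) + p') := by
  simp only [F0]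
  rw [← mul_assoc, C.r2_r1 Ax', mul_assoc, mul_assoc, z_F2 C Ax', r2_F2]

omit Ax' in
lemma r1_F0 (x a c p p' : K) : C.r1 x * C.F0 a c p p' = C.F0 (x + a) c p p' := by
  simp only [F0]
  rw [← mul_assoc, r1_add]

lemma b_FQ (x u a c p p' : K) : C.b x * C.FQ u a c p p' = C.FQ (x + u) a c p p' := by
  simp only [FQ]
  rw [← mul_assoc, C.b_add Ax']

lemma r1_FQ (x u a c p p' : K) : C.r1 x * C.FQ u a c p p' = C.FQ u (x + a) c p p' := by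
  simp only [FQ]
  rw [lc (C.r1_b Ax' x u), r1_F0]

lemma r2_FQ (x u a c p p' : K) : C.r2 x * C.FQ u a c p p' = C.FQ u a (x + c) p (-(a * x) + p') := by
  simp only [FQ]
  rw [lc (C.r2_b Ax' x u), r2_F0 C Ax']

lemma z_FQ (x u a c p p' : K) : C.z x * C.FQ u a c p p' = C.FQ u a c p (x + p') := by
  simp only [FQ]
  rw [lc (C.b_z Ax' u x).symm, z_F0 C Ax']

lemma l_FQ (x u a c p p' : K) :
    C.l x * C.FQ u a c p p' = C.FQ u a c (x + p) (S.kap * Tr S.φ u * x + p') := by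
  simp only [FQ]
  rw [← mul_assoc, C.l_b Ax', mul_assoc, mul_assoc, z_F0 C Ax', l_F0 C Ax']

/-! ### Generators -/

/-- The generators of `Q₂`. -/
noncomputable def gQ2 : Set E := Set.range C.r2 ∪ Set.range C.l ∪ Set.range C.z

/-- The generators of `Q₀`. -/
noncomputable def gQ0 : Set E := Set.range C.r1 ∪ C.gQ2

/-- The generators of `Q`. -/
noncomputable def gQ : Set E := Set.range C.b ∪ C.gQ0

/-- The generators of `M`. -/
noncomputable def gM : Set E := Set.range C.r0 ∪ C.gQ0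

/-- The generators of `U`. -/
noncomputable def gU : Set E := Set.range C.r0 ∪ C.gQ

noncomputable def Q2 : Subgroup E := Subgroup.closure C.gQ2
noncomputable def Q0 : Subgroup E := Subgroup.closure C.gQ0
noncomputable def Q : Subgroup E := Subgroup.closure C.gQ
noncomputable def Mh : Subgroup E := Subgroup.closure C.gM
noncomputable def Uh : Subgroup E := Subgroup.closure C.gU

omit Ax' in
lemma r2_mem_Q2 (a : K) : C.r2 a ∈ C.Q2 := Subgroup.subset_closure (Or.inl (Or.inl ⟨a, rfl⟩))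
omit Ax' in
lemma l_mem_Q2 (a : K) : C.l a ∈ C.Q2 := Subgroup.subset_closure (Or.inl (Or.inr ⟨a, rfl⟩))
omit Ax' in
lemma z_mem_Q2 (a : K) : C.z a ∈ C.Q2 := Subgroup.subset_closure (Or.inr ⟨a, rfl⟩)
omit Ax' in
lemma r1_mem_Q0 (a : K) : C.r1 a ∈ C.Q0 := Subgroup.subset_closure (Or.inl ⟨a, rfl⟩)
omit Ax' in
lemma Q2_le_Q0 : C.Q2 ≤ C.Q0 := Subgroup.closure_mono Set.subset_union_right
omit Ax' in
lemma b_mem_Q (a : K) : C.b a ∈ C.Q := Subgroup.subset_closure (Or.inl ⟨a, rfl⟩)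
omit Ax' in
lemma Q0_le_Q : C.Q0 ≤ C.Q := Subgroup.closure_mono Set.subset_union_right
omit Ax' in
lemma r0_mem_Mh (a : K) : C.r0 a ∈ C.Mh := Subgroup.subset_closure (Or.inl ⟨a, rfl⟩)
omit Ax' in
lemma Q0_le_Mh : C.Q0 ≤ C.Mh := Subgroup.closure_mono Set.subset_union_right
omit Ax' in
lemma r0_mem_Uh (a : K) : C.r0 a ∈ C.Uh := Subgroup.subset_closure (Or.inl ⟨a, rfl⟩)
omit Ax' in
lemma Q_le_Uh : C.Q ≤ C.Uh := Subgroup.closure_mono Set.subset_union_right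
omit Ax' in
lemma Mh_le_Uh : C.Mh ≤ C.Uh := by
  apply Subgroup.closure_mono
  rintro x (h | h)
  · exact Or.inl h
  · exact Or.inr (Or.inr h)

lemma gQ2_inv : ∀ x ∈ C.gQ2, x⁻¹ ∈ C.gQ2 := by
  rintro x ((h | h) | h)
  · exact Or.inl (Or.inl (range_inv _ C.r2_add x h))
  · exact Or.inl (Or.inr (range_inv _ (C.l_add Ax') x h))
  · exact Or.inr (range_inv _ (C.z_add Ax') x h)

lemma gQ0_inv : ∀ x ∈ C.gQ0, x⁻¹ ∈ C.gQ0 := by
  rintro x (h | h)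
  · exact Or.inl (range_inv _ C.r1_add x h)
  · exact Or.inr (gQ2_inv C Ax' x h)

lemma gQ_inv : ∀ x ∈ C.gQ, x⁻¹ ∈ C.gQ := by
  rintro x (h | h)
  · exact Or.inl (range_inv _ (C.b_add Ax') x h)
  · exact Or.inr (gQ0_inv C Ax' x h)

lemma gM_inv : ∀ x ∈ C.gM, x⁻¹ ∈ C.gM := by
  rintro x (h | h)
  · exact Or.inl (range_inv _ C.r0_add x h)
  · exact Or.inr (gQ0_inv C Ax' x h)

lemma gU_inv : ∀ x ∈ C.gU, x⁻¹ ∈ C.gU := by
  rintro x (h | h)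
  · exact Or.inl (range_inv _ C.r0_add x h)
  · exact Or.inr (gQ_inv C Ax' x h)

omit Ax' in
lemma FQ_zero : C.FQ 0 0 0 0 0 = 1 := by
  simp [FQ, F0, F2, r1_zero, r2_zero, l_zero, z_zero, b_zero]

/-- The form of the elements of `Q`. -/
theorem Q_form : ∀ g ∈ C.Q, ∃ u a c p p', g = C.FQ u a c p p' := by
  refine closure_form C.gQ {g | ∃ u a c p p', g = C.FQ u a c p p'} ⟨0, 0, 0, 0, 0, (C.FQ_zero).symm⟩ ?_ (gQ_inv C Ax')
  rintro x hx g ⟨u, a, c, p, p', rfl⟩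
  rcases hx with ⟨t, rfl⟩ | ⟨t, rfl⟩ | ((⟨t, rfl⟩ | ⟨t, rfl⟩) | ⟨t, rfl⟩)
  · exact ⟨_, _, _, _, _, b_FQ C Ax' t u a c p p'⟩
  · exact ⟨_, _, _, _, _, r1_FQ C Ax' t u a c p p'⟩
  · exact ⟨_, _, _, _, _, r2_FQ C Ax' t u a c p p'⟩
  · exact ⟨_, _, _, _, _, l_FQ C Ax' t u a c p p'⟩
  · exact ⟨_, _, _, _, _, z_FQ C Ax' t u a c p p'⟩

omit Ax' in
lemma F0_mem (a c p p' : K) : C.F0 a c p p' ∈ C.Q0 :=
  Subgroup.mul_mem _ (C.r1_mem_Q0 a) (C.Q2_le_Q0 (Subgroup.mul_mem _ (C.r2_mem_Q2 c)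
    (Subgroup.mul_mem _ (C.l_mem_Q2 p) (C.z_mem_Q2 p'))))

omit Ax' in
lemma FQ_mem (u a c p p' : K) : C.FQ u a c p p' ∈ C.Q :=
  Subgroup.mul_mem _ (C.b_mem_Q u) (C.Q0_le_Q (C.F0_mem a c p p'))

/-- Injectivity on the normal forms. -/
theorem form_one (s u a c p p' : K) (h : σ (C.r0 s * C.FQ u a c p p') = 1) : C.r0 s * C.FQ u a c p p' = 1 := by
  have e : σ (C.r0 s * C.FQ u a c p p') =
      S.ψ (upM s) * S.xb u * (S.ψ₁ (upM a) * S.ψ₂ (upM c) * (S.xl p * S.xz p')) := by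
    simp only [FQ, F0, F2, map_mul, r0, r1, r2, C.hps, σ_ps1, σ_ps2, C.σ_l Ax', C.σ_z Ax', C.σ_b Ax']
    group
  rw [e] at h
  obtain ⟨h1, h2, h3, h4, h5, h6⟩ := Ax'.h_uniq _ _ _ _ _ _ h
  have e2 := C.b_congr Ax' (u := u) (u' := 0) (by rw [h2]; simp [Tr])
  have e5 := C.l_congr Ax' (u := p) (u' := 0) (by rw [h5]; simp [Tr])
  have e6 := C.z_congr Ax' (u := p') (u' := 0) (by rw [h6]; simp [Tr])
  simp only [FQ, F0, F2]
  rw [h1, e2, h3, h4, e5, e6]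
  simp [r0_zero, r1_zero, r2_zero, l_zero, z_zero, b_zero]

theorem Q_inj : ∀ g ∈ C.Q, σ g = 1 → g = 1 := by
  intro g hg h
  obtain ⟨u, a, c, p, p', rfl⟩ := C.Q_form Ax' g hg
  have := C.form_one Ax' 0 u a c p p' (by rw [r0_zero, one_mul]; exact h)
  rwa [r0_zero, one_mul] at this

/-! ### Conjugation on `Q₂` and `Q₀` -/

lemma r0_Q2 (s : K) : ∀ g ∈ C.Q2, cj (C.r0 s) g ∈ C.Q2 := by
  apply closure_cj
  rintro x ((⟨t, rfl⟩ | ⟨t, rfl⟩) | ⟨t, rfl⟩)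
  · rw [r0_r2 C Ax']
    exact Subgroup.mul_mem _ (C.l_mem_Q2 _) (C.r2_mem_Q2 _)
  · rw [cj_eq_self_iff.mpr (C.r0_l Ax' s t)]
    exact C.l_mem_Q2 _
  · rw [cj_eq_self_iff.mpr (C.r0_z Ax' s t)]
    exact C.z_mem_Q2 _

lemma r1_conj_r2 (a w : K) : cj (C.r1 a) (C.r2 w) = C.z (a * w) * C.r2 w := by
  rw [← cm_r1_r2 C Ax']
  simp only [cj, cm]
  group

lemma r1_Q2 (a : K) : ∀ g ∈ C.Q2, cj (C.r1 a) g ∈ C.Q2 := by
  apply closure_cj
  rintro x ((⟨t, rfl⟩ | ⟨t, rfl⟩) | ⟨t, rfl⟩)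
  · rw [r1_conj_r2 C Ax']
    exact Subgroup.mul_mem _ (C.z_mem_Q2 _) (C.r2_mem_Q2 _)
  · rw [cj_eq_self_iff.mpr (C.r1_l Ax' a t)]
    exact C.l_mem_Q2 _
  · rw [cj_eq_self_iff.mpr (C.r1_z Ax' a t)]
    exact C.z_mem_Q2 _

lemma A_Q2 (s : Kˣ) : ∀ g ∈ C.Q2, cj (C.Aa s) g ∈ C.Q2 := by
  apply closure_cj
  rintro x ((⟨t, rfl⟩ | ⟨t, rfl⟩) | ⟨t, rfl⟩)
  · rw [A_r2 C Ax']
    exact C.r2_mem_Q2 _
  · rw [A_l C Ax']
    exact C.l_mem_Q2 _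
  · rw [A_z C Ax']
    exact C.z_mem_Q2 _

lemma B_Q2 (s : Kˣ) : ∀ g ∈ C.Q2, cj (C.Bb s) g ∈ C.Q2 := by
  apply closure_cj
  rintro x ((⟨t, rfl⟩ | ⟨t, rfl⟩) | ⟨t, rfl⟩)
  · rw [B_r2 C Ax']
    exact C.r2_mem_Q2 _
  · rw [B_l C Ax']
    exact C.l_mem_Q2 _
  · rw [B_z C Ax']
    exact C.z_mem_Q2 _

lemma A_Q0 (s : Kˣ) : ∀ g ∈ C.Q0, cj (C.Aa s) g ∈ C.Q0 := by
  apply closure_cj
  rintro x (⟨t, rfl⟩ | hx)
  · rw [A_r1 C Ax']
    exact C.r1_mem_Q0 _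
  · exact C.Q2_le_Q0 (A_Q2 C Ax' s x (Subgroup.subset_closure hx))

lemma B_Q0 (s : Kˣ) : ∀ g ∈ C.Q0, cj (C.Bb s) g ∈ C.Q0 := by
  apply closure_cj
  rintro x (⟨t, rfl⟩ | hx)
  · rw [B_r1]
    exact C.r1_mem_Q0 _
  · exact C.Q2_le_Q0 (B_Q2 C Ax' s x (Subgroup.subset_closure hx))

lemma AB_r0 (s : Kˣ) (x : K) : cj (C.Aa s * C.Bb s) (C.r0 x) = C.r0 (((s * s * chi1 S.φ s : Kˣ) : K) * x) := by
  rw [← cj_cj, B_r0 C Ax', A_r0]
  congr 1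
  simp only [Units.val_mul]
  ring

lemma AB_r1 (s : Kˣ) (x : K) : cj (C.Aa s * C.Bb s) (C.r1 x) = C.r1 (((s * s * chi1 S.φ s : Kˣ) : K) * x) := by
  rw [← cj_cj, B_r1, A_r1 C Ax']
  congr 1
  simp only [Units.val_mul]
  ring

lemma AB_b (s : Kˣ) (u : K) : cj (C.Aa s * C.Bb s) (C.b u) = C.b u := by
  rw [← cj_cj, B_b C Ax', A_b C Ax', ← mul_assoc, ← Units.val_mul, inv_mul_cancel]
  simp

lemma r1_inv (a : K) : (C.r1 a)⁻¹ = C.r1 (-a) := by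
  apply inv_eq_of_mul_eq_one_right
  rw [← r1_add, add_neg_cancel, r1_zero]

lemma r0_inv (a : K) : (C.r0 a)⁻¹ = C.r0 (-a) := by
  apply inv_eq_of_mul_eq_one_right
  rw [← r0_add, add_neg_cancel, r0_zero]

variable (hK5 : 4 < Nat.card K)
include hK5

/-- The first balance. -/
theorem bal1 (s a : K) : ∃ h ∈ C.Q2, cj (C.r0 s) (C.r1 a) = C.r1 a * h := by
  classical
  haveI := Fintype.ofFinite K
  obtain ⟨d, hd0, hd1, hd2⟩ := exists_balanced (F := K) ⟨Finset.univ, by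
    rw [Finset.card_univ, ← Nat.card_eq_fintype_card]
    exact hK5⟩
  refine bal_two σ C.hc C.Q2 (fun g hg => C.Q_inj Ax' g (C.Q0_le_Q (C.Q2_le_Q0 hg))) C.r0 C.r1 C.r0_add C.r1_add
    (C.r0_Q2 Ax') ?_ ?_ ?_ hd0 hd1 hd2 s a
  · intro a
    rw [r1_inv C Ax']
    exact C.r1_Q2 Ax' _
  · intro s a
    obtain ⟨r, r', h⟩ := Ax'.h_R2 s a
    refine ⟨C.r2 (S.eps * (S.φ s * S.φ (S.φ a) + S.φ (S.φ s) * S.φ a)) * (C.l r * C.z r'), Subgroup.mul_mem _ (C.r2_mem_Q2 _)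
      (Subgroup.mul_mem _ (C.l_mem_Q2 _) (C.z_mem_Q2 _)), ?_⟩
    rw [map_cj, map_mul, map_mul, map_mul, r0, r1, r2, C.hps, σ_ps1, σ_ps2, C.σ_l Ax', C.σ_z Ax', h]
    group
  · intro c hc0
    obtain ⟨s₁, hs₁⟩ := Ax'.h_bal (Units.mk0 c hc0)
    have hs₂ : ((s₁ * s₁ * chi1 S.φ s₁ : Kˣ) : K) = c := by rw [hs₁]; rfl
    refine ⟨C.Aa s₁ * C.Bb s₁, ?_, ?_, ?_⟩
    · intro x
      rw [AB_r0 C Ax', hs₂]
    · intro x
      rw [AB_r1 C Ax', hs₂]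
    · intro g hg
      rw [← cj_cj]
      exact C.A_Q2 Ax' _ _ (C.B_Q2 Ax' _ _ hg)

lemma r0_Q0 (s : K) : ∀ g ∈ C.Q0, cj (C.r0 s) g ∈ C.Q0 := by
  apply closure_cj
  rintro x (⟨t, rfl⟩ | hx)
  · obtain ⟨h, hh, e⟩ := C.bal1 Ax' hK5 s t
    rw [e]
    exact Subgroup.mul_mem _ (C.r1_mem_Q0 _) (C.Q2_le_Q0 hh)
  · exact C.Q2_le_Q0 (C.r0_Q2 Ax' s x (Subgroup.subset_closure hx))

/-- The second balance. -/
theorem bal2 (s u : K) : ∃ h ∈ C.Q0, cj (C.r0 s) (C.b u) = C.b u * h := by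
  classical
  obtain ⟨c₀, hc₀⟩ : ∃ c₀ : Kˣ, c₀ ≠ 1 := by
    by_contra hcon
    push Not at hcon
    have h1 : Nat.card Kˣ ≤ 1 := by
      haveI : Subsingleton Kˣ := ⟨fun a b => by rw [hcon a, hcon b]⟩
      exact Finite.card_le_one_iff_subsingleton.mpr this
    haveI := Fintype.ofFinite K
    have h2 : Nat.card Kˣ = Nat.card K - 1 := by
      rw [Nat.card_eq_fintype_card, Nat.card_eq_fintype_card, Fintype.card_units]
    omega
  obtain ⟨s₁, hs₁⟩ := Ax'.h_bal c₀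
  have hc1 : ((s₁ * s₁ * chi1 S.φ s₁ : Kˣ) : K) ≠ 1 := by
    rw [hs₁]
    intro h
    exact hc₀ (Units.ext h)
  refine bal_one σ C.hc C.Q0 (fun g hg => C.Q_inj Ax' g (C.Q0_le_Q hg)) C.r0 (C.b u) C.r0_add (C.r0_Q0 Ax' hK5) ?_ hc1
    (t := C.Aa s₁ * C.Bb s₁) (AB_r0 C Ax' s₁) (AB_b C Ax' s₁ u) ?_ s
  · intro s
    obtain ⟨c, r, r', h⟩ := Ax'.h_R4 s u
    refine ⟨C.r1 (S.kap * Tr S.φ u * s) * C.r2 c * (C.l r * C.z r'), ?_, ?_⟩
    · exact Subgroup.mul_mem _ (Subgroup.mul_mem _ (C.r1_mem_Q0 _) (C.Q2_le_Q0 (C.r2_mem_Q2 _)))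
        (C.Q2_le_Q0 (Subgroup.mul_mem _ (C.l_mem_Q2 _) (C.z_mem_Q2 _)))
    · rw [map_cj, map_mul, map_mul, map_mul, map_mul, r0, r1, r2, C.hps, σ_ps1, σ_ps2, C.σ_l Ax', C.σ_z Ax', C.σ_b Ax', h]
  · intro g hg
    rw [← cj_cj]
    exact C.A_Q0 Ax' _ _ (C.B_Q0 Ax' _ _ hg)

lemma r0_Q (s : K) : ∀ g ∈ C.Q, cj (C.r0 s) g ∈ C.Q := by
  apply closure_cj
  rintro x (⟨t, rfl⟩ | hx)
  · obtain ⟨h, hh, e⟩ := C.bal2 Ax' hK5 s t
    rw [e]
    exact Subgroup.mul_mem _ (C.b_mem_Q _) (C.Q0_le_Q hh)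
  · exact C.Q0_le_Q (C.r0_Q0 Ax' hK5 s x (Subgroup.subset_closure hx))

/-- The form of `U`. -/
theorem U_form : ∀ g ∈ C.Uh, ∃ s, ∃ q ∈ C.Q, g = C.r0 s * q := by
  refine closure_form C.gU {g | ∃ s, ∃ q ∈ C.Q, g = C.r0 s * q} ⟨0, 1, C.Q.one_mem, by simp [r0_zero]⟩ ?_ (gU_inv C Ax')
  rintro x hx g ⟨s, q, hq, rfl⟩
  rcases hx with ⟨t, rfl⟩ | hx
  · exact ⟨t + s, q, hq, by rw [r0_add]; group⟩
  · refine ⟨s, cj (C.r0 (-s)) x * q, C.Q.mul_mem (C.r0_Q Ax' hK5 _ _ (Subgroup.subset_closure hx)) hq, ?_⟩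
    rw [← r0_inv C Ax']
    simp only [cj]
    group

/-- The form of `M`. -/
theorem M_form : ∀ g ∈ C.Mh, ∃ s, ∃ q ∈ C.Q0, g = C.r0 s * q := by
  refine closure_form C.gM {g | ∃ s, ∃ q ∈ C.Q0, g = C.r0 s * q} ⟨0, 1, C.Q0.one_mem, by simp [r0_zero]⟩ ?_ (gM_inv C Ax')
  rintro x hx g ⟨s, q, hq, rfl⟩
  rcases hx with ⟨t, rfl⟩ | hx
  · exact ⟨t + s, q, hq, by rw [r0_add]; group⟩
  · refine ⟨s, cj (C.r0 (-s)) x * q, C.Q0.mul_mem (C.r0_Q0 Ax' hK5 _ _ (Subgroup.subset_closure hx)) hq, ?_⟩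
    rw [← r0_inv C Ax']
    simp only [cj]
    group

/-- Injectivity on `U`. -/
theorem U_inj : ∀ g ∈ C.Uh, σ g = 1 → g = 1 := by
  intro g hg h
  obtain ⟨s, q, hq, rfl⟩ := C.U_form Ax' hK5 g hg
  obtain ⟨u, a, c, p, p', rfl⟩ := C.Q_form Ax' q hq
  exact C.form_one Ax' s u a c p p' h

omit hK5 in
/-- `b` on `Q₀`. -/
lemma b_Q0 (u : K) : ∀ g ∈ C.Q0, cj (C.b u) g ∈ C.Q0 := by
  apply closure_cj
  rintro x (⟨t, rfl⟩ | (⟨t, rfl⟩ | ⟨t, rfl⟩) | ⟨t, rfl⟩)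
  · rw [cj_eq_self_iff.mpr (C.r1_b Ax' t u).symm]
    exact C.r1_mem_Q0 _
  · rw [cj_eq_self_iff.mpr (C.r2_b Ax' t u).symm]
    exact C.Q2_le_Q0 (C.r2_mem_Q2 _)
  · rw [b_l_conj C Ax']
    exact C.Q2_le_Q0 (Subgroup.mul_mem _ (C.z_mem_Q2 _) (C.l_mem_Q2 _))
  · rw [cj_eq_self_iff.mpr (C.b_z Ax' u t)]
    exact C.Q2_le_Q0 (C.z_mem_Q2 _)

/-- `b` on `M`. -/
lemma b_Mh (u : K) : ∀ g ∈ C.Mh, cj (C.b u) g ∈ C.Mh := by
  apply closure_cj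
  rintro x (⟨s, rfl⟩ | hx)
  · obtain ⟨h, hh, e⟩ := C.bal2 Ax' hK5 (-s) u
    have e2 : cj (C.b u) (C.r0 s) = C.r0 s * cj (C.b u) h := by
      have e3 : C.r0 (-s) * C.b u * (C.r0 s) = C.b u * h := by
        rw [← e, cj, ← r0_inv C Ax', inv_inv]
      have e4 : C.b u * C.r0 s = C.r0 s * (C.b u * h) := by
        rw [← e3, ← r0_inv C Ax']
        group
      simp only [cj]
      rw [e4]
      group
    rw [e2]
    exact Subgroup.mul_mem _ (C.r0_mem_Mh _) (C.Q0_le_Mh (C.b_Q0 Ax' u h hh))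
  · exact C.Q0_le_Mh (C.b_Q0 Ax' u x (Subgroup.subset_closure hx))

/-- `U = b M`. -/
theorem U_form' : ∀ g ∈ C.Uh, ∃ v, ∃ m ∈ C.Mh, g = C.b v * m := by
  intro g hg
  obtain ⟨s, q, hq, rfl⟩ := C.U_form Ax' hK5 g hg
  obtain ⟨u, a, c, p, p', rfl⟩ := C.Q_form Ax' q hq
  have hb : (C.b u)⁻¹ = C.b (-u) := by
    apply inv_eq_of_mul_eq_one_right
    rw [← C.b_add Ax', add_neg_cancel, b_zero]
  refine ⟨u, cj (C.b (-u)) (C.r0 s) * C.F0 a c p p', C.Mh.mul_mem (C.b_Mh Ax' hK5 _ _ (C.r0_mem_Mh _)) (C.Q0_le_Mh (C.F0_mem a c p p')), ?_⟩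
  simp only [FQ, cj]
  rw [← hb]
  group

/-! ### Conjugation by `W`, and `r0m` -/

omit hK5 in
lemma W_Q : ∀ g ∈ C.Q, cj C.W g ∈ C.Q := by
  apply closure_cj
  rintro x (⟨t, rfl⟩ | ⟨t, rfl⟩ | (⟨t, rfl⟩ | ⟨t, rfl⟩) | ⟨t, rfl⟩)
  · rw [W_b C Ax']
    exact C.Q0_le_Q (C.Q2_le_Q0 (C.l_mem_Q2 _))
  · rw [W_r1]
    exact C.Q0_le_Q (C.Q2_le_Q0 (C.r2_mem_Q2 _))
  · rw [W_r2 C Ax']
    exact C.Q0_le_Q (C.r1_mem_Q0 _)
  · rw [W_l]
    exact C.b_mem_Q _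
  · rw [W_z C Ax']
    exact C.Q0_le_Q (C.Q2_le_Q0 (C.z_mem_Q2 _))

omit hK5 in
lemma r0m_eq (t : K) : C.r0m t = cj C.W (C.r0 (-t)) := by
  rw [W_r0, neg_neg]

/-- `r0m` normalizes `Q`. -/
lemma r0m_Q [Finite E] (t : K) : ∀ g ∈ C.Q, cj (C.r0m t) g ∈ C.Q := by
  intro g hg
  have h1 : cj C.W⁻¹ g ∈ C.Q := by
    have := Abs.conj_inv_mem C.Q C.W (C.W_Q Ax') g hg
    simpa [cj] using this
  have e : cj (C.r0m t) g = cj C.W (cj (C.r0 (-t)) (cj C.W⁻¹ g)) := by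
    rw [r0m_eq C Ax']
    simp only [cj, mul_inv_rev, inv_inv, mul_assoc]
  rw [e]
  exact C.W_Q Ax' _ (C.r0_Q Ax' hK5 _ _ h1)

/-! ### Conjugation by `V`, and `bm` -/

variable (hg : C.V = C.b S.u0 * C.bm (-S.u0) * C.b S.u0)
include hg

omit hK5 in
lemma V_Mh : ∀ g ∈ C.Mh, cj C.V g ∈ C.Mh := by
  apply closure_cj
  rintro x (⟨t, rfl⟩ | ⟨t, rfl⟩ | (⟨t, rfl⟩ | ⟨t, rfl⟩) | ⟨t, rfl⟩)
  · rw [V_r0]
    exact C.Q0_le_Mh (C.r1_mem_Q0 _)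
  · rw [V_r1 C Ax']
    exact C.r0_mem_Mh _
  · rw [V_r2 C Ax']
    exact C.Q0_le_Mh (C.Q2_le_Q0 (C.r2_mem_Q2 _))
  · rw [V_l]
    exact C.Q0_le_Mh (C.Q2_le_Q0 (C.z_mem_Q2 _))
  · rw [V_z C Ax' hg]
    exact C.Q0_le_Mh (C.Q2_le_Q0 (C.l_mem_Q2 _))

/-- `bm` normalizes `M`. -/
lemma bm_Mh [Finite E] (t : K) : ∀ g ∈ C.Mh, cj (C.bm t) g ∈ C.Mh := by
  intro g hg'
  have h1 : cj C.V⁻¹ g ∈ C.Mh := by
    have := Abs.conj_inv_mem C.Mh C.V (C.V_Mh Ax' hg) g hg'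
    simpa [cj] using this
  have e : cj (C.bm t) g = cj C.V (cj (C.b (-t)) (cj C.V⁻¹ g)) := by
    rw [bm]
    simp only [cj, mul_inv_rev, inv_inv, mul_assoc]
  rw [e]
  exact C.V_Mh Ax' hg _ (C.b_Mh Ax' hK5 _ _ h1)

end Ctx

end Cfsg.Agent.Lib.SchD4.E1
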