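import Cfsg.Agent.Lib.SchD4.E6

/-!
The monomial part in a central extension.
-/

set_option autoImplicit false
set_option linter.unusedSectionVars false
set_option linter.unusedVariables false
set_option linter.ambiguousOpen false
set_option linter.unusedSimpArgs false
set_option linter.unusedTactic false
set_option linter.unreachableTactic false
set_option linter.dupNamespace false

namespace Cfsg.Agent.Lib.SchD4.E1

open scoped MatrixGroups Matrix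
open Cfsg Cfsg.Agent.Lib.Chev.SL2 Cfsg.Agent.Lib.Steinberg.CExt Cfsg.Agent.Lib.SchD4.SL2 Cfsg.Agent.Lib.SchD4.Sys

universe u v

variable {K : Type u} [Field K] {G : Type v} [Group G] {E : Type u} [Group E]

section dihedral

variable (X : Subgroup E) (a b : E)

lemma fold_mem {c t : E} (h : ∀ x ∈ X, cj c x ∈ X) (hcc : c * c ∈ X) (ht : t ∈ X) : c * t * c ∈ X := by
  have e : c * t * c = cj c t * (c * c) := by
    simp only [cj]
    group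
  rw [e]
  exact X.mul_mem (h _ ht) hcc

lemma pow_cj {g : E} (h : ∀ x ∈ X, cj g x ∈ X) (n : ℕ) : ∀ x ∈ X, cj (g ^ n) x ∈ X := by
  induction n with
  | zero =>
    intro x hx
    simpa [one_cj] using hx
  | succ n ih =>
    intro x hx
    rw [pow_succ, ← cj_cj]
    exact ih _ (h _ hx)

variable {X a b}

/-- The braid relation gives the sixth power. -/
lemma g6_mem (ha : ∀ x ∈ X, cj a x ∈ X) (hb : ∀ x ∈ X, cj b x ∈ X) (haa : a * a ∈ X) (hbb : b * b ∈ X)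
    (hbr : a * b * a * b * a * b = b * a * b * a * b * a) : (a * b) ^ 6 ∈ X := by
  have e : (a * b) ^ 6 = (a * b * a * b * a * b) * (a * b * a * b * a * b) := by
    simp only [pow_succ, pow_zero, one_mul, mul_assoc]
  have e2 : (a * b * a * b * a * b) * (b * a * b * a * b * a) =
      a * (b * (a * (b * (a * (b * b) * a) * b) * a) * b) * a := by
    simp only [mul_assoc]
  have h1 := fold_mem X ha haa hbb
  have h2 := fold_mem X hb hbb h1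
  have h3 := fold_mem X ha haa h2
  have h4 := fold_mem X hb hbb h3
  have h5 := fold_mem X ha haa h4
  rw [e]
  nth_rw 2 [hbr]
  rw [e2]
  exact h5

/-- The dihedral normal form. -/
theorem dihedral_nf (ha : ∀ x ∈ X, cj a x ∈ X) (ha' : ∀ x ∈ X, cj a⁻¹ x ∈ X) (hb : ∀ x ∈ X, cj b x ∈ X)
    (hb' : ∀ x ∈ X, cj b⁻¹ x ∈ X) (haa : a * a ∈ X) (hbb : b * b ∈ X) (hg6 : (a * b) ^ 6 ∈ X) :
    ∀ ν ∈ Subgroup.closure ((X : Set E) ∪ {a, a⁻¹, b, b⁻¹}), ∃ τ ∈ X, ∃ k < 6, ∃ δ < 2, ν = τ * (a * b) ^ k * a ^ δ := by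
  set g := a * b with hg
  have hgN : ∀ x ∈ X, cj g x ∈ X := by
    intro x hx
    rw [hg, ← cj_cj]
    exact ha _ (hb _ hx)
  have hpowN := pow_cj X hgN
  have hgag : cj a (cj b (a * a)) * cj a (b * b) * a = g * a * g := by
    simp only [cj, hg]
    group
  have hτ₂ : cj a (cj b (a * a)) * cj a (b * b) ∈ X := X.mul_mem (ha _ (hb _ haa)) (ha _ hbb)
  -- the main identity
  have hA : ∀ k, k ≤ 6 → ∃ τ ∈ X, a * g ^ k = τ * g ^ (6 - k) * a := by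
    intro k
    induction k with
    | zero =>
      intro _
      refine ⟨(g ^ 6)⁻¹, X.inv_mem hg6, ?_⟩
      simp
    | succ k ih =>
      intro hk
      obtain ⟨τ, hτ, e⟩ := ih (by omega)
      refine ⟨τ * cj (g ^ (5 - k)) (cj a (cj b (a * a)) * cj a (b * b)), X.mul_mem hτ (hpowN _ _ hτ₂), ?_⟩
      have e1 : 6 - k = (5 - k) + 1 := by omega
      have e2 : 6 - (k + 1) = 5 - k := by omega
      rw [e2, pow_succ, ← mul_assoc, e, e1, pow_succ]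
      simp only [cj] at hgag ⊢
      calc τ * (g ^ (5 - k) * g) * a * g = τ * g ^ (5 - k) * (g * a * g) := by group
        _ = τ * g ^ (5 - k) * (a * (b * (a * a) * b⁻¹) * a⁻¹ * (a * (b * b) * a⁻¹) * a) := by rw [← hgag]
        _ = _ := by group
  -- reductions of powers
  have hpow : ∀ n, n ≤ 6 → ∃ τ ∈ X, ∃ k < 6, g ^ n = τ * g ^ k := by
    intro n hn
    rcases Nat.lt_or_ge n 6 with h | h
    · exact ⟨1, X.one_mem, n, h, by simp⟩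
    · have : n = 6 := by omega
      subst this
      exact ⟨g ^ 6, hg6, 0, by omega, by simp⟩
  -- the set
  set P : Set E := {ν | ∃ τ ∈ X, ∃ k < 6, ∃ δ < 2, ν = τ * g ^ k * a ^ δ} with hP
  have hX : ∀ x ∈ X, ∀ ν ∈ P, x * ν ∈ P := by
    rintro x hx ν ⟨τ, hτ, k, hk, δ, hδ, rfl⟩
    exact ⟨x * τ, X.mul_mem hx hτ, k, hk, δ, hδ, by group⟩
  have hG : ∀ ν ∈ P, g * ν ∈ P := by
    rintro ν ⟨τ, hτ, k, hk, δ, hδ, rfl⟩
    have e : g * (τ * g ^ k * a ^ δ) = cj g τ * g ^ (k + 1) * a ^ δ := by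
      simp only [cj, pow_succ']
      group
    rw [e]
    obtain ⟨τ', hτ', k', hk', e'⟩ := hpow (k + 1) (by omega)
    rw [e']
    exact ⟨cj g τ * τ', X.mul_mem (hgN _ hτ) hτ', k', hk', δ, hδ, by group⟩
  have hAa : ∀ ν ∈ P, a * ν ∈ P := by
    rintro ν ⟨τ, hτ, k, hk, δ, hδ, rfl⟩
    obtain ⟨τ₁, hτ₁, e₁⟩ := hA k (by omega)
    obtain ⟨τ₂, hτ₂', k', hk', e₂⟩ := hpow (6 - k) (by omega)
    have e : a * (τ * g ^ k * a ^ δ) = cj a τ * (τ₁ * τ₂) * g ^ k' * (a * a ^ δ) := by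
      calc a * (τ * g ^ k * a ^ δ) = cj a τ * (a * g ^ k) * a ^ δ := by simp only [cj]; group
        _ = cj a τ * (τ₁ * (τ₂ * g ^ k') * a) * a ^ δ := by rw [e₁, e₂]
        _ = _ := by group
    rw [e]
    interval_cases δ
    · exact ⟨cj a τ * (τ₁ * τ₂), X.mul_mem (ha _ hτ) (X.mul_mem hτ₁ hτ₂'), k', hk', 1, by omega, by simp⟩
    · refine ⟨cj a τ * (τ₁ * τ₂) * cj (g ^ k') (a * a), X.mul_mem (X.mul_mem (ha _ hτ) (X.mul_mem hτ₁ hτ₂')) (hpowN _ _ haa), k', hk', 0, by omega, ?_⟩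
      simp only [cj, pow_one, pow_zero, mul_one]
      group
  have hAi : ∀ ν ∈ P, a⁻¹ * ν ∈ P := by
    intro ν hν
    have e : a⁻¹ * ν = (a * a)⁻¹ * (a * ν) := by group
    rw [e]
    exact hX _ (X.inv_mem haa) _ (hAa _ hν)
  have hB : ∀ ν ∈ P, b * ν ∈ P := by
    intro ν hν
    have e : b * ν = a⁻¹ * (g * ν) := by
      rw [hg]
      group
    rw [e]
    exact hAi _ (hG _ hν)
  have hBi : ∀ ν ∈ P, b⁻¹ * ν ∈ P := by
    intro ν hν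
    have e : b⁻¹ * ν = (b * b)⁻¹ * (b * ν) := by group
    rw [e]
    exact hX _ (X.inv_mem hbb) _ (hB _ hν)
  refine closure_form _ P ⟨1, X.one_mem, 0, by omega, 0, by omega, by simp⟩ ?_ ?_
  · rintro x (hx | hx | hx | hx | hx) ν hν
    · exact hX x hx ν hν
    · rw [hx]; exact hAa ν hν
    · rw [hx]; exact hAi ν hν
    · rw [hx]; exact hB ν hν
    · rw [Set.mem_singleton_iff.mp hx]; exact hBi ν hν
  · rintro x (hx | hx | hx | hx | hx)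
    · exact Or.inl (X.inv_mem hx)
    · rw [hx]; exact Or.inr (Or.inr (Or.inl rfl))
    · rw [hx, inv_inv]; exact Or.inr (Or.inl rfl)
    · rw [hx]; exact Or.inr (Or.inr (Or.inr (Or.inr rfl)))
    · rw [Set.mem_singleton_iff.mp hx, inv_inv]; exact Or.inr (Or.inr (Or.inr (Or.inl rfl)))

end dihedral

namespace Ctx

variable [Finite K] {S : Sys K G} {σ : E →* G} (C : Ctx S σ) (Ax' : Ax S)

/-- The torus subgroup. -/
noncomputable def XX (Ax' : Ax S) : Subgroup E where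
  carrier := {g | ∃ s t, g = C.Aa s * C.Bb t}
  one_mem' := ⟨1, 1, by simp [Aa_one, Bb_one]⟩
  mul_mem' := by
    rintro _ _ ⟨s, t, rfl⟩ ⟨s', t', rfl⟩
    refine ⟨s * s', t * t', ?_⟩
    rw [Aa_mul, Bb_mul]
    have := AB_comm C Ax' s' t
    calc C.Aa s * C.Bb t * (C.Aa s' * C.Bb t') = C.Aa s * (C.Bb t * C.Aa s') * C.Bb t' := by group
      _ = _ := by rw [← this]; group
  inv_mem' := by
    rintro _ ⟨s, t, rfl⟩
    refine ⟨s⁻¹, t⁻¹, ?_⟩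
    rw [Aa_inv, Bb_inv, mul_inv_rev]
    have := AB_comm C Ax' s⁻¹ t⁻¹
    rw [Aa_inv, Bb_inv] at this
    exact this.symm

lemma mem_XX {g : E} : g ∈ C.XX Ax' ↔ ∃ s t, g = C.Aa s * C.Bb t := Iff.rfl

lemma Aa_mem (s : Kˣ) : C.Aa s ∈ C.XX Ax' := ⟨s, 1, by simp [Bb_one]⟩
lemma Bb_mem (s : Kˣ) : C.Bb s ∈ C.XX Ax' := ⟨1, s, by simp [Aa_one]⟩

lemma Dd_mem (s : Kˣ) : C.Dd s ∈ C.XX Ax' := by
  obtain ⟨t, h1, h2⟩ := C.D_acts Ax' (s := s)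
  exact ⟨t, t, h1⟩

lemma W_XX : ∀ x ∈ C.XX Ax', cj C.W x ∈ C.XX Ax' := by
  rintro _ ⟨s, t, rfl⟩
  rw [cj_mul, W_Aa, W_B]
  exact Subgroup.mul_mem _ (C.Aa_mem Ax' _) (C.Dd_mem Ax' _)

include Ax' in
lemma W_inv_B (s : Kˣ) : cj C.W⁻¹ (C.Bb s) = C.Dd s := by
  rw [← W_D C Ax', cj_inv_cj]

lemma W_inv_XX : ∀ x ∈ C.XX Ax', cj C.W⁻¹ x ∈ C.XX Ax' := by
  rintro _ ⟨s, t, rfl⟩
  rw [cj_mul, W_Aa_inv, W_inv_B C Ax']
  exact Subgroup.mul_mem _ (C.Aa_mem Ax' _) (C.Dd_mem Ax' _)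

lemma V_XX : ∀ x ∈ C.XX Ax', cj C.V x ∈ C.XX Ax' := by
  rintro _ ⟨s, t, rfl⟩
  rw [cj_mul, V_A, V_B C Ax']
  exact Subgroup.mul_mem _ (C.Bb_mem Ax' _) (C.Aa_mem Ax' _)

lemma V_inv_XX : ∀ x ∈ C.XX Ax', cj C.V⁻¹ x ∈ C.XX Ax' := by
  rintro _ ⟨s, t, rfl⟩
  rw [cj_mul, V_inv_A C Ax', V_inv_B]
  exact Subgroup.mul_mem _ (C.Bb_mem Ax' _) (C.Aa_mem Ax' _)

/-- The monomial group. -/
noncomputable def Nh (Ax' : Ax S) : Subgroup E :=
  Subgroup.closure ((C.XX Ax' : Set E) ∪ {C.W, C.W⁻¹, C.V, C.V⁻¹})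

lemma XX_le_Nh : C.XX Ax' ≤ C.Nh Ax' := fun _ h => Subgroup.subset_closure (Or.inl h)
lemma W_mem_Nh : C.W ∈ C.Nh Ax' := Subgroup.subset_closure (Or.inr (Or.inl rfl))
lemma V_mem_Nh : C.V ∈ C.Nh Ax' := Subgroup.subset_closure (Or.inr (Or.inr (Or.inr (Or.inl rfl))))

lemma WW_mem : C.W * C.W ∈ C.XX Ax' := by
  rw [W_sq]
  exact C.Aa_mem Ax' _

variable (hg : C.V = C.b S.u0 * C.bm (-S.u0) * C.b S.u0)

include hg in
lemma VV_mem : C.V * C.V ∈ C.XX Ax' := by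
  rw [V_sq C Ax' hg]
  exact Subgroup.mul_mem _ (Subgroup.inv_mem _ (C.Bb_mem Ax' _)) (C.Aa_mem Ax' _)

include hg in
lemma WV6_mem : (C.W * C.V) ^ 6 ∈ C.XX Ax' :=
  g6_mem (C.W_XX Ax') (C.V_XX Ax') (C.WW_mem Ax') (C.VV_mem Ax' hg) (by
    have := C.braid Ax' hg
    simpa only [mul_assoc] using this)

include hg in
/-- The normal form of the elements of the monomial group. -/
theorem N_form : ∀ ν ∈ C.Nh Ax', ∃ τ ∈ C.XX Ax', ∃ k < 6, ∃ δ < 2, ν = τ * (C.W * C.V) ^ k * C.W ^ δ :=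
  dihedral_nf (C.W_XX Ax') (C.W_inv_XX Ax') (C.V_XX Ax') (C.V_inv_XX Ax') (C.WW_mem Ax') (C.VV_mem Ax' hg) (C.WV6_mem Ax' hg)

/-! ### Root families -/

/-- The twelve root families. -/
noncomputable def Rf : Fin 12 → K → E :=
  ![C.r0, C.l, C.r2, C.z, C.r1, C.b, C.r0m, C.f7, C.r2m, C.f9, C.r1m, C.bm]

/-- The action on the root families. -/
def FamAct (g : E) : Prop :=
  ∃ f : Fin 12 → Fin 12, (∀ i, f (i + 6) = f i + 6) ∧ ∀ i a, ∃ a', cj g (C.Rf i a) = C.Rf (f i) a'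

lemma FamAct.mul {g h : E} (hg : C.FamAct g) (hh : C.FamAct h) : C.FamAct (g * h) := by
  obtain ⟨f, hf, hf'⟩ := hg
  obtain ⟨f', hp, hp'⟩ := hh
  refine ⟨f ∘ f', ?_, ?_⟩
  · intro i
    simp only [Function.comp, hp, hf]
  · intro i a
    obtain ⟨a', e⟩ := hp' i a
    obtain ⟨a'', e'⟩ := hf' (f' i) a'
    exact ⟨a'', by rw [← cj_cj, e, e']; rfl⟩

include Ax' in
lemma FamAct_A (s : Kˣ) : C.FamAct (C.Aa s) := by
  refine ⟨id, fun _ => rfl, ?_⟩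
  intro i a
  fin_cases i
  · exact ⟨_, A_r0 C s a⟩
  · exact ⟨_, A_l C Ax' s a⟩
  · exact ⟨_, A_r2 C Ax' s a⟩
  · exact ⟨_, A_z C Ax' s a⟩
  · exact ⟨_, A_r1 C Ax' s a⟩
  · exact ⟨_, A_b C Ax' s a⟩
  · exact ⟨_, A_r0m C s a⟩
  · exact ⟨_, A_f7 C Ax' s a⟩
  · exact ⟨_, A_r2m C Ax' s a⟩
  · exact ⟨_, A_f9 C Ax' s a⟩
  · exact ⟨_, A_r1m C Ax' s a⟩
  · exact ⟨_, A_bm C Ax' s a⟩

include Ax' in
lemma FamAct_B (s : Kˣ) : C.FamAct (C.Bb s) := by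
  refine ⟨id, fun _ => rfl, ?_⟩
  intro i a
  fin_cases i
  · exact ⟨_, B_r0 C Ax' s a⟩
  · exact ⟨_, B_l C Ax' s a⟩
  · exact ⟨_, B_r2 C Ax' s a⟩
  · exact ⟨_, B_z C Ax' s a⟩
  · exact ⟨_, B_r1 C s a⟩
  · exact ⟨_, B_b C Ax' s a⟩
  · exact ⟨_, B_r0m C Ax' s a⟩
  · exact ⟨_, B_f7 C Ax' s a⟩
  · exact ⟨_, B_r2m C Ax' s a⟩
  · exact ⟨_, B_f9 C Ax' s a⟩
  · exact ⟨_, B_r1m C s a⟩
  · exact ⟨_, B_bm C Ax' s a⟩

lemma FamAct_X {x : E} (hx : x ∈ C.XX Ax') : C.FamAct x := by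
  obtain ⟨s, t, rfl⟩ := hx
  exact FamAct.mul C (C.FamAct_A Ax' s) (C.FamAct_B Ax' t)

include Ax' in
lemma FamAct_W : C.FamAct C.W := by
  refine ⟨fun i => 6 - i, by decide, ?_⟩
  intro i a
  fin_cases i
  · exact ⟨_, W_r0 C a⟩
  · exact ⟨_, W_l C a⟩
  · exact ⟨_, W_r2 C Ax' a⟩
  · exact ⟨_, W_z C Ax' a⟩
  · exact ⟨_, W_r1 C a⟩
  · exact ⟨_, W_b C Ax' a⟩
  · exact ⟨_, W_r0m C a⟩
  · exact ⟨_, W_f7 C Ax' a⟩
  · exact ⟨_, W_r2m C Ax' a⟩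
  · exact ⟨_, W_f9 C Ax' a⟩
  · exact ⟨_, W_r1m C a⟩
  · exact ⟨_, W_bm C a⟩

include Ax' hg in
lemma FamAct_V : C.FamAct C.V := by
  refine ⟨fun i => 4 - i, by decide, ?_⟩
  intro i a
  fin_cases i
  · exact ⟨_, V_r0 C a⟩
  · exact ⟨_, V_l C a⟩
  · exact ⟨_, V_r2 C Ax' a⟩
  · exact ⟨_, V_z C Ax' hg a⟩
  · exact ⟨_, V_r1 C Ax' a⟩
  · exact ⟨_, V_b C a⟩
  · exact ⟨_, V_r0m C a⟩
  · exact ⟨_, V_f7 C a⟩
  · exact ⟨_, V_r2m C Ax' a⟩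
  · exact ⟨_, V_f9 C Ax' hg a⟩
  · exact ⟨_, V_r1m C Ax' a⟩
  · exact ⟨_, V_bm C Ax' hg a⟩

include Ax' hg in
lemma FamAct_N : ∀ ν ∈ C.Nh Ax', C.FamAct ν := by
  have hW : C.FamAct C.W := C.FamAct_W Ax'
  have hV : C.FamAct C.V := C.FamAct_V Ax' hg
  have hWi : C.FamAct C.W⁻¹ := by
    have e : C.W⁻¹ = (C.W * C.W)⁻¹ * C.W := by group
    rw [e]
    exact FamAct.mul C (C.FamAct_X Ax' (Subgroup.inv_mem _ (C.WW_mem Ax'))) hW
  have hVi : C.FamAct C.V⁻¹ := by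
    have e : C.V⁻¹ = (C.V * C.V)⁻¹ * C.V := by group
    rw [e]
    exact FamAct.mul C (C.FamAct_X Ax' (Subgroup.inv_mem _ (C.VV_mem Ax' hg))) hV
  refine closure_form _ {g | C.FamAct g} (C.FamAct_X Ax' (Subgroup.one_mem _)) ?_ ?_
  · rintro x (hx | hx | hx | hx | hx) g hg'
    · exact FamAct.mul C (C.FamAct_X Ax' hx) hg'
    · rw [hx]; exact FamAct.mul C hW hg'
    · rw [hx]; exact FamAct.mul C hWi hg'
    · rw [hx]; exact FamAct.mul C hV hg'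
    · rw [Set.mem_singleton_iff.mp hx]; exact FamAct.mul C hVi hg'
  · rintro x (hx | hx | hx | hx | hx)
    · exact Or.inl (Subgroup.inv_mem _ hx)
    · rw [hx]; exact Or.inr (Or.inr (Or.inl rfl))
    · rw [hx, inv_inv]; exact Or.inr (Or.inl rfl)
    · rw [hx]; exact Or.inr (Or.inr (Or.inr (Or.inr rfl)))
    · rw [Set.mem_singleton_iff.mp hx, inv_inv]; exact Or.inr (Or.inr (Or.inr (Or.inl rfl)))

lemma Rf_mem (i : Fin 12) (hi : i.val < 6) (a : K) : C.Rf i a ∈ C.Uh := by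
  have hQ2 : C.Q2 ≤ C.Uh := (C.Q2_le_Q0).trans ((C.Q0_le_Q).trans C.Q_le_Uh)
  fin_cases i
  · exact C.r0_mem_Uh a
  · exact hQ2 (C.l_mem_Q2 a)
  · exact hQ2 (C.r2_mem_Q2 a)
  · exact hQ2 (C.z_mem_Q2 a)
  · exact C.Q_le_Uh (C.Q0_le_Q (C.r1_mem_Q0 a))
  · exact C.Q_le_Uh (C.b_mem_Q a)
  · exact absurd hi (by decide)
  · exact absurd hi (by decide)
  · exact absurd hi (by decide)
  · exact absurd hi (by decide)
  · exact absurd hi (by decide)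
  · exact absurd hi (by decide)

include Ax' hg in
/-- The dichotomy. -/
theorem dich (i : Fin 12) (ν : E) (hν : ν ∈ C.Nh Ax') :
    (∀ c, ν⁻¹ * C.Rf i c * ν ∈ C.Uh) ∨ (∀ c, ν⁻¹ * C.Rf (i + 6) c * ν ∈ C.Uh) := by
  obtain ⟨f, hf, hf'⟩ := C.FamAct_N Ax' hg _ (Subgroup.inv_mem _ hν)
  have key : ∀ (j : Fin 12), (f j).val < 6 → ∀ c, ν⁻¹ * C.Rf j c * ν ∈ C.Uh := by
    intro j hj c
    obtain ⟨a', e⟩ := hf' j c
    have e2 : ν⁻¹ * C.Rf j c * ν = cj ν⁻¹ (C.Rf j c) := by simp [cj]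
    rw [e2, e]
    exact C.Rf_mem _ hj _
  by_cases h : (f i).val < 6
  · exact Or.inl (key i h)
  · right
    apply key
    rw [hf]
    have : ∀ j : Fin 12, ¬ j.val < 6 → (j + 6).val < 6 := by decide
    exact this _ h

end Ctx

end Cfsg.Agent.Lib.SchD4.E1
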