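import Cfsg.Agent.Lib.SchD4.E7

/-!
The Bruhat decomposition in a central extension, and the triviality of the kernel.
-/

set_option autoImplicit false
set_option linter.unusedSectionVars false
set_option linter.unusedVariables false
set_option linter.ambiguousOpen false
set_option linter.unusedSimpArgs false
set_option linter.unusedTactic false
set_option linter.unreachableTactic false
set_option linter.dupNamespace false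

namespace Cfsg.Agent.Lib.SchD4.E1

open scoped MatrixGroups Matrix
open Cfsg Cfsg.Agent.Lib.Chev.SL2 Cfsg.Agent.Lib.Steinberg.CExt Cfsg.Agent.Lib.SchD4.SL2 Cfsg.Agent.Lib.SchD4.Sys
open Cfsg.Agent.Lib.SchD4.Abs

universe u v

variable {K : Type u} [Field K] {G : Type v} [Group G] {E : Type u} [Group E]

namespace Ctx

variable [Finite K] {S : Sys K G} {σ : E →* G} (C : Ctx S σ) (Ax' : Ax S)

omit Ax' in
lemma ps_nn (s : Kˣ) : C.ps (nn s) = C.Aa s * C.W := by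
  rw [nn, map_mul]
  rfl

lemma nn_mem (s : Kˣ) : C.ps (nn s) ∈ C.Nh Ax' := by
  rw [ps_nn]
  exact Subgroup.mul_mem _ (C.XX_le_Nh Ax' (C.Aa_mem Ax' s)) (C.W_mem_Nh Ax')

lemma alpha_y (t : K) : C.r0m t = 1 ∨ ∃ a b, ∃ n ∈ C.Nh Ax', C.r0m t = C.r0 a * n * C.r0 b := by
  by_cases ht : t = 0
  · left
    rw [ht, r0m_zero]
  · right
    let s : Kˣ := Units.mk0 (-t⁻¹) (by simp [ht])
    have hs : (-(s : K)⁻¹) = t := by simp [s]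
    have e := lo_decomp s
    rw [hs] at e
    refine ⟨-(s : K), -(s : K), C.ps (nn s), C.nn_mem Ax' s, ?_⟩
    simp only [r0m, r0, ← map_mul]
    rw [e]

lemma alpha_x (t : K) : C.r0 t = 1 ∨ ∃ a b, ∃ n ∈ C.Nh Ax', C.r0 t = C.r0m a * n * C.r0m b ∧
    ∀ c, ∃ d, n⁻¹ * C.r0 c * n = C.r0m d := by
  by_cases ht : t = 0
  · left
    rw [ht, r0_zero]
  · right
    let s : Kˣ := Units.mk0 t ht
    have e := up_decomp s
    have hs : (s : K) = t := rfl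
    rw [hs] at e
    refine ⟨t⁻¹, t⁻¹, C.ps (nn s), C.nn_mem Ax' s, ?_, ?_⟩
    · simp only [r0m, r0, ← map_mul]
      rw [← e]
    · intro c
      refine ⟨-(s : K)⁻¹ * (s : K)⁻¹ * c, ?_⟩
      simp only [r0m, r0, ← map_mul, ← map_inv]
      rw [nn_conj_up]

variable (hK5 : 4 < Nat.card K) (hg : C.V = C.b S.u0 * C.bm (-S.u0) * C.b S.u0)
include Ax' hK5 hg

/-- Left multiplication by `r0m`. -/
theorem closed_alpha [Finite E] (t : K) {g : E} (hg' : g ∈ UNU C.Uh (C.Nh Ax')) : C.r0m t * g ∈ UNU C.Uh (C.Nh Ax') := by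
  refine left_closed C.Uh (C.Nh Ax') C.Q C.r0 C.r0m C.r0_mem_Uh C.Q_le_Uh (C.U_form Ax' hK5)
    (C.r0_Q Ax' hK5) (C.r0m_Q Ax' hK5) (fun a b => (C.r0_add a b).symm) (fun a b => (C.r0m_add a b).symm)
    (C.alpha_y Ax') (C.alpha_x Ax') ?_ t hg'
  intro ν hν
  exact C.dich Ax' hg 0 ν hν

omit Ax' hK5 hg in
lemma Tr_smul (h3 : ∀ t, S.φ (S.φ (S.φ t)) = t) {e : K} (he : S.φ e = e) (w : K) : Tr S.φ (e * w) = e * Tr S.φ w := by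
  simp only [Tr, map_mul, he]
  ring

/-- The conjugate of `V`. -/
noncomputable def Ve (s : Kˣ) : E := cj (C.Aa s) C.V

omit hK5 hg in
lemma Ve_mem (s : Kˣ) : C.Ve s ∈ C.Nh Ax' :=
  Subgroup.mul_mem _ (Subgroup.mul_mem _ (C.XX_le_Nh Ax' (C.Aa_mem Ax' s)) (C.V_mem_Nh Ax'))
    (Subgroup.inv_mem _ (C.XX_le_Nh Ax' (C.Aa_mem Ax' s)))

omit hK5 in
lemma Ve_form (s : Kˣ) : C.Ve s = C.b (((Nu S.φ s)⁻¹ : Kˣ) * S.u0) * C.bm ((Nu S.φ s : Kˣ) * (-S.u0)) *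
    C.b (((Nu S.φ s)⁻¹ : Kˣ) * S.u0) := by
  rw [Ve]
  conv_lhs => arg 2; rw [hg]
  rw [cj_mul, cj_mul, A_b C Ax', A_bm C Ax']

omit hK5 hg in
lemma A_inv_b (s : Kˣ) (c : K) : cj (C.Aa s)⁻¹ (C.b c) = C.b ((Nu S.φ s : Kˣ) * c) := by
  rw [← Aa_inv, A_b C Ax', map_inv, inv_inv]

omit hK5 in
lemma Ve_conj_x (s : Kˣ) : cj (C.Ve s) (C.b (((Nu S.φ s)⁻¹ : Kˣ) * S.u0)) = C.bm ((Nu S.φ s : Kˣ) * (-S.u0)) := by
  have e : cj (C.Ve s) (C.b (((Nu S.φ s)⁻¹ : Kˣ) * S.u0)) =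
      cj (C.Aa s) (cj C.V (cj (C.Aa s)⁻¹ (C.b (((Nu S.φ s)⁻¹ : Kˣ) * S.u0)))) := by
    simp only [Ve, cj, mul_inv_rev, inv_inv, mul_assoc]
  rw [e, A_inv_b C Ax', ← mul_assoc, ← Units.val_mul, mul_inv_cancel, Units.val_one, one_mul, V_b, A_bm C Ax']

omit hK5 in
lemma Ve_yxy (s : Kˣ) : C.Ve s = C.bm ((Nu S.φ s : Kˣ) * (-S.u0)) * C.b (((Nu S.φ s)⁻¹ : Kˣ) * S.u0) *
    C.bm ((Nu S.φ s : Kˣ) * (-S.u0)) := by
  have h1 := C.Ve_conj_x Ax' hg s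
  have h2 := C.Ve_form Ax' hg s
  set x := C.b (((Nu S.φ s)⁻¹ : Kˣ) * S.u0)
  set y := C.bm ((Nu S.φ s : Kˣ) * (-S.u0))
  set n := C.Ve s
  have h3 : n = y * n * x⁻¹ := by
    rw [← h1]
    simp only [cj]
    group
  rw [h3]
  nth_rw 1 [h2]
  group

omit hK5 in
lemma V_inv_b (w : K) : cj C.V⁻¹ (C.b w) = C.bm (-w) := by
  have := V_bm C Ax' hg (-w)
  rw [neg_neg] at this
  rw [← this, cj_inv_cj]

omit hK5 in
lemma beta_y (hNs : ∀ e : K, S.φ e = e → e ≠ 0 → ∃ s : Kˣ, Nm S.φ s = e) (hu0 : Tr S.φ S.u0 ≠ 0) (t : K) :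
    C.bm t = 1 ∨ ∃ a b', ∃ n ∈ C.Nh Ax', C.bm t = C.b a * n * C.b b' := by
  by_cases hT : Tr S.φ t = 0
  · left
    have : C.bm t = C.bm 0 := C.bm_congr Ax' (by rw [hT]; simp [Tr])
    rw [this, bm_zero]
  · right
    have h3 := S.φ3
    have hφ : S.φ (-(Tr S.φ t / Tr S.φ S.u0)) = -(Tr S.φ t / Tr S.φ S.u0) := by
      rw [map_neg, map_div₀, Tr_φ h3, Tr_φ h3]
    obtain ⟨s, hs⟩ := hNs _ hφ (neg_ne_zero.mpr (div_ne_zero hT hu0))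
    have hN : ((Nu S.φ s : Kˣ) : K) = -(Tr S.φ t / Tr S.φ S.u0) := hs
    have e1 : C.bm t = C.bm ((Nu S.φ s : Kˣ) * (-S.u0)) := by
      apply C.bm_congr Ax'
      rw [hN, Tr_smul h3 hφ, Tr_neg Ax']
      field_simp
    have h2 := C.Ve_form Ax' hg s
    have hinv : (C.b (((Nu S.φ s)⁻¹ : Kˣ) * S.u0))⁻¹ = C.b (-(((Nu S.φ s)⁻¹ : Kˣ) * S.u0)) := by
      rw [b_neg C Ax']
    refine ⟨-(((Nu S.φ s)⁻¹ : Kˣ) * S.u0), -(((Nu S.φ s)⁻¹ : Kˣ) * S.u0), C.Ve s, C.Ve_mem Ax' s, ?_⟩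
    rw [e1, b_neg C Ax', h2]
    group

omit hK5 in
lemma beta_x (hNs : ∀ e : K, S.φ e = e → e ≠ 0 → ∃ s : Kˣ, Nm S.φ s = e) (hu0 : Tr S.φ S.u0 ≠ 0) (t : K) :
    C.b t = 1 ∨ ∃ a b', ∃ n ∈ C.Nh Ax', C.b t = C.bm a * n * C.bm b' ∧ ∀ c, ∃ d, n⁻¹ * C.b c * n = C.bm d := by
  by_cases hT : Tr S.φ t = 0
  · left
    have : C.b t = C.b 0 := C.b_congr Ax' (by rw [hT]; simp [Tr])
    rw [this, b_zero]
  · right
    have h3 := S.φ3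
    have hφ : S.φ (Tr S.φ S.u0 / Tr S.φ t) = Tr S.φ S.u0 / Tr S.φ t := by
      rw [map_div₀, Tr_φ h3, Tr_φ h3]
    obtain ⟨s, hs⟩ := hNs _ hφ (div_ne_zero hu0 hT)
    have hN : ((Nu S.φ s : Kˣ) : K) = Tr S.φ S.u0 / Tr S.φ t := hs
    have hN' : (((Nu S.φ s)⁻¹ : Kˣ) : K) = Tr S.φ t / Tr S.φ S.u0 := by
      rw [Units.val_inv_eq_inv_val, hN, inv_div]
    have hφ' : S.φ (Tr S.φ t / Tr S.φ S.u0) = Tr S.φ t / Tr S.φ S.u0 := by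
      rw [map_div₀, Tr_φ h3, Tr_φ h3]
    have e1 : C.b t = C.b (((Nu S.φ s)⁻¹ : Kˣ) * S.u0) := by
      apply C.b_congr Ax'
      rw [hN', Tr_smul h3 hφ']
      field_simp
    have h2 := C.Ve_yxy Ax' hg s
    refine ⟨-((Nu S.φ s : Kˣ) * (-S.u0)), -((Nu S.φ s : Kˣ) * (-S.u0)), C.Ve s, C.Ve_mem Ax' s, ?_, ?_⟩
    · rw [e1, bm_neg C Ax', h2]
      group
    · intro c
      have e : (C.Ve s)⁻¹ * C.b c * C.Ve s = cj (C.Aa s) (cj C.V⁻¹ (cj (C.Aa s)⁻¹ (C.b c))) := by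
        simp only [Ve, cj, mul_inv_rev, inv_inv, mul_assoc]
      rw [e, A_inv_b C Ax', V_inv_b C Ax' hg, A_bm C Ax']
      exact ⟨_, rfl⟩

/-- Left multiplication by `bm`. -/
theorem closed_beta [Finite E] (hNs : ∀ e : K, S.φ e = e → e ≠ 0 → ∃ s : Kˣ, Nm S.φ s = e) (hu0 : Tr S.φ S.u0 ≠ 0) (t : K) {g : E}
    (hg' : g ∈ UNU C.Uh (C.Nh Ax')) : C.bm t * g ∈ UNU C.Uh (C.Nh Ax') := by
  refine left_closed C.Uh (C.Nh Ax') C.Mh C.b C.bm (fun a => C.Q_le_Uh (C.b_mem_Q a)) C.Mh_le_Uh (C.U_form' Ax' hK5)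
    (C.b_Mh Ax' hK5) (C.bm_Mh Ax' hK5 hg) (fun a b => (C.b_add Ax' a b).symm) (fun a b => (C.bm_add Ax' a b).symm)
    (C.beta_y Ax' hg hNs hu0) (C.beta_x Ax' hg hNs hu0) ?_ t hg'
  intro ν hν
  exact C.dich Ax' hg 5 ν hν

end Ctx

/-- The further data. -/
structure Ax2 (S : Sys K G) (UG NG : Subgroup G) : Prop where
  h_N : ∀ e : K, S.φ e = e → e ≠ 0 → ∃ s : Kˣ, Nm S.φ s = e
  h_u0 : Tr S.φ S.u0 ≠ 0
  h_UN : UG ⊓ NG = ⊥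
  h_U0 : ∀ s, S.ψ (upM s) ∈ UG
  h_U1 : ∀ a, S.ψ₁ (upM a) ∈ UG
  h_U2 : ∀ a, S.ψ₂ (upM a) ∈ UG
  h_Ub : ∀ u, S.xb u ∈ UG
  h_Ul : ∀ u, S.xl u ∈ UG
  h_Uz : ∀ u, S.xz u ∈ UG
  h_N0 : ∀ s : Kˣ, S.ψ (dg s) ∈ NG
  h_N1 : ∀ s : Kˣ, S.ψ₁ (dg s) ∈ NG
  h_Nw : S.w ∈ NG
  h_Nv : S.v ∈ NG
  h_tor_inj : ∀ s t : Kˣ, S.ψ (dg s) * S.ψ₁ (dg t) = 1 → Nu S.φ s = 1 ∧ t = s⁻¹
  h_word : ∀ (s t : Kˣ) (k δ : ℕ), k < 6 → δ < 2 →
    S.ψ (dg s) * S.ψ₁ (dg t) * (S.w * S.v) ^ k * S.w ^ δ = 1 → k = 0 ∧ δ = 0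

namespace Ctx

variable [Finite K] {S : Sys K G} {σ : E →* G} (C : Ctx S σ) (Ax' : Ax S)
variable (hK5 : 4 < Nat.card K) (hg : C.V = C.b S.u0 * C.bm (-S.u0) * C.b S.u0)

include Ax' hK5 hg

/-- The main theorem. -/
theorem ker_main [Finite E] {UG NG : Subgroup G} (A2 : Ax2 S UG NG) (hcomm : σ.ker ≤ commutator E)
    (hgen : ∀ e : E, σ e ∈ Subgroup.closure (Set.range (fun s => S.ψ (upM s)) ∪ Set.range (fun s => S.ψ (loM s)) ∪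
      Set.range S.xb ∪ Set.range S.xm)) : σ.ker = ⊥ := by
  set Y : Set E := (C.Uh : Set E) ∪ Set.range C.r0m ∪ Set.range C.bm with hY
  set S₀ := Subgroup.closure Y with hS₀
  have hS : ∀ g ∈ S₀, g ∈ Abs.UNU C.Uh (C.Nh Ax') := by
    refine closure_form Y _ (Abs.one_mem_UNU _ _) ?_ ?_
    · rintro x ((hx | ⟨t, rfl⟩) | ⟨t, rfl⟩) g hg'
      · exact Abs.left_mem_UNU hx hg'
      · exact C.closed_alpha Ax' hK5 hg t hg'
      · exact C.closed_beta Ax' hK5 hg A2.h_N A2.h_u0 t hg'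
    · rintro x ((hx | hx) | hx)
      · exact Or.inl (Or.inl (Subgroup.inv_mem _ hx))
      · exact Or.inl (Or.inr (range_inv _ C.r0m_add x hx))
      · exact Or.inr (range_inv _ (C.bm_add Ax') x hx)
  -- the lifts
  have hlift : ∀ e : E, ∃ s ∈ S₀, σ s = σ e := by
    intro e
    have hle : Subgroup.closure (Set.range (fun s => S.ψ (upM s)) ∪ Set.range (fun s => S.ψ (loM s)) ∪
        Set.range S.xb ∪ Set.range S.xm) ≤ S₀.map σ := by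
      rw [Subgroup.closure_le]
      rintro x (((⟨t, rfl⟩ | ⟨t, rfl⟩) | ⟨t, rfl⟩) | ⟨t, rfl⟩)
      · exact ⟨C.r0 t, Subgroup.subset_closure (Or.inl (Or.inl (C.r0_mem_Uh t))), C.hps _⟩
      · exact ⟨C.r0m t, Subgroup.subset_closure (Or.inl (Or.inr ⟨t, rfl⟩)), C.hps _⟩
      · exact ⟨C.b t, Subgroup.subset_closure (Or.inl (Or.inl (C.Q_le_Uh (C.b_mem_Q t)))), C.σ_b Ax' t⟩
      · exact ⟨C.bm t, Subgroup.subset_closure (Or.inr ⟨t, rfl⟩), C.σ_bm Ax' t⟩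
    obtain ⟨s, hs, e'⟩ := hle (hgen e)
    exact ⟨s, hs, e'⟩
  have hcom : commutator E ≤ S₀ := by
    rw [commutator_def, Subgroup.commutator_le]
    intro a _ b _
    obtain ⟨s, hs, e1⟩ := hlift a
    obtain ⟨s', hs', e2⟩ := hlift b
    have := cm_lift σ C.hc e1.symm e2.symm
    rw [commutatorElement_def]
    have e3 : a * b * a⁻¹ * b⁻¹ = cm a b := rfl
    rw [e3, this]
    exact Subgroup.mul_mem _ (Subgroup.mul_mem _ (Subgroup.mul_mem _ hs hs') (Subgroup.inv_mem _ hs)) (Subgroup.inv_mem _ hs')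
  have hall : ∀ e : E, e ∈ S₀ := by
    intro e
    obtain ⟨s, hs, e1⟩ := hlift e
    have h1 : s⁻¹ * e ∈ σ.ker := by
      rw [MonoidHom.mem_ker, map_mul, map_inv, e1, inv_mul_cancel]
    have : e = s * (s⁻¹ * e) := by group
    rw [this]
    exact Subgroup.mul_mem _ hs (hcom (hcomm h1))
  -- images
  have hUG : ∀ g ∈ C.Uh, σ g ∈ UG := by
    intro g hg'
    have hle : C.Uh ≤ UG.comap σ := by
      rw [Ctx.Uh, Subgroup.closure_le]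
      rintro x (⟨t, rfl⟩ | ⟨t, rfl⟩ | ⟨t, rfl⟩ | (⟨t, rfl⟩ | ⟨t, rfl⟩) | ⟨t, rfl⟩)
      · show σ (C.r0 t) ∈ UG
        rw [r0, C.hps]
        exact A2.h_U0 t
      · show σ (C.b t) ∈ UG
        rw [C.σ_b Ax']
        exact A2.h_Ub t
      · show σ (C.r1 t) ∈ UG
        rw [r1, σ_ps1]
        exact A2.h_U1 t
      · show σ (C.r2 t) ∈ UG
        rw [r2, σ_ps2]
        exact A2.h_U2 t
      · show σ (C.l t) ∈ UG
        rw [C.σ_l Ax']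
        exact A2.h_Ul t
      · show σ (C.z t) ∈ UG
        rw [C.σ_z Ax']
        exact A2.h_Uz t
    exact hle hg'
  have hXG : ∀ x ∈ C.XX Ax', σ x ∈ NG := by
    rintro _ ⟨s, t, rfl⟩
    rw [map_mul, Aa, Bb, C.hps, σ_ps1]
    exact Subgroup.mul_mem _ (A2.h_N0 s) (A2.h_N1 t)
  have hNG : ∀ g ∈ C.Nh Ax', σ g ∈ NG := by
    intro g hg'
    have hle : C.Nh Ax' ≤ NG.comap σ := by
      rw [Ctx.Nh, Subgroup.closure_le]
      rintro x (hx | hx | hx | hx | hx)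
      · exact hXG x hx
      · rw [hx]
        show σ C.W ∈ NG
        rw [σ_W]
        exact A2.h_Nw
      · rw [hx]
        show σ C.W⁻¹ ∈ NG
        rw [map_inv, σ_W]
        exact Subgroup.inv_mem _ A2.h_Nw
      · rw [hx]
        show σ C.V ∈ NG
        rw [C.hV]
        exact A2.h_Nv
      · rw [Set.mem_singleton_iff.mp hx]
        show σ C.V⁻¹ ∈ NG
        rw [map_inv, C.hV]
        exact Subgroup.inv_mem _ A2.h_Nv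
    exact hle hg'
  rw [eq_bot_iff]
  intro k hk
  rw [Subgroup.mem_bot]
  have hk1 : σ k = 1 := hk
  obtain ⟨û, hû, ν, hν, û', hû', rfl⟩ := hS k (hall k)
  have h1 : σ ν = (σ û)⁻¹ * (σ û')⁻¹ := by
    simp only [map_mul] at hk1
    have : σ ν = (σ û)⁻¹ * (σ û * σ ν * σ û') * (σ û')⁻¹ := by group
    rw [this, hk1]
    group
  have h2 : σ ν ∈ UG ⊓ NG := ⟨by
    rw [h1]
    exact Subgroup.mul_mem _ (Subgroup.inv_mem _ (hUG _ hû)) (Subgroup.inv_mem _ (hUG _ hû')), hNG _ hν⟩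
  rw [A2.h_UN, Subgroup.mem_bot] at h2
  obtain ⟨τ, ⟨s, t, rfl⟩, j, hj, δ, hδ, e⟩ := C.N_form Ax' hg ν hν
  have h3 : S.ψ (dg s) * S.ψ₁ (dg t) * (S.w * S.v) ^ j * S.w ^ δ = 1 := by
    rw [e] at h2
    simp only [map_mul, map_pow, Aa, Bb, C.hps, σ_ps1, σ_W, C.hV] at h2
    exact h2
  obtain ⟨rfl, rfl⟩ := A2.h_word s t j δ hj hδ h3
  simp only [pow_zero, mul_one] at e h3
  obtain ⟨h4, rfl⟩ := A2.h_tor_inj s t h3
  have h5 : C.Bb s⁻¹ = C.Aa s⁻¹ := C.A_eq_B Ax' (by rw [map_inv, h4, inv_one])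
  have h6 : ν = 1 := by
    rw [e, h5, ← Aa_mul, mul_inv_cancel, Aa_one]
  rw [h6, mul_one] at hk1 ⊢
  exact C.U_inj Ax' hK5 _ (Subgroup.mul_mem _ hû hû') hk1

end Ctx

end Cfsg.Agent.Lib.SchD4.E1
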