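import Cfsg.Agent.Lib.SchD4.E8
import Cfsg.Agent.Lib.SchD4.Col
import Cfsg.Agent.Lib.TorD4.Root
import Cfsg.Agent.Lib.Twisted.D4H
import Cfsg.Agent.Lib.Steinberg.Levi
import Cfsg.Agent.Lib.Lie.AxOf

/-!
The root elements of `³D₄`: the system, in terms of the root elements of `D₄`.
-/

set_option autoImplicit false
set_option linter.unusedSectionVars false
set_option linter.unusedVariables false
set_option linter.ambiguousOpen false
set_option linter.unusedSimpArgs false
set_option linter.unusedTactic false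
set_option linter.unreachableTactic false
set_option linter.dupNamespace false

namespace Cfsg.Agent.Lib.SchD4.G

open scoped MatrixGroups Matrix
open Cfsg Lie ChevalleyDatum
open Cfsg.Agent.Lib.Chev
open Tables Tables2 Tables3 Raise Basic AxBasic Torus Products Products2 Mono1 Mono2 Mono3 Bn Diag SL2 SL2Chev
open Cfsg.Agent.Lib.Twisted.Bruhat Cfsg.Agent.Lib.Twisted.D4H Cfsg.Agent.Lib.Twisted.TorusFix
open Cfsg.Agent.Lib.TorD4.Root Cfsg.Agent.Lib.Twisted.Ortho
open Cfsg.Agent.Lib.SchD4.Col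
open Cfsg.Agent.Lib.SchD4.Sys (cj cj_mul cj_one cj_inv cj_cj one_cj cj_inv_cj cj_cj_inv map_cj cj_eq_self_iff cj_cm cj_inj cjH Tr Nm Nu chi1)
open Cfsg.Agent.Lib.SchD4.SL2 (dg n0 dc nn sl_induction sl_hom_ext ext_sl up_add lo_add up_zero lo_zero dg_mul dg_one)

universe u

variable {K : Type u} [Field K] (ax : Ax chevD4 K)

/-- The key moving `± p` to the right. -/
def keyP (p : ℕ) (r : ℕ) : ℤ := if r = p ∨ r = chevD4.neg p then 1 else 0

/-- The word for the conjugate by `n_p(1)`. -/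
def WP (p r : ℕ) : List Ltr :=
  [(p, 1, [0]), (chevD4.neg p, -1, [0]), (p, 1, [0]), (r, 1, [1]), (p, -1, [0]), (chevD4.neg p, 1, [0]), (p, -1, [0])]

/-- The conjugation tables of `n_p(1)`. -/
theorem nG_conj {p r r' : ℕ} {c : ℤ}
    (h : collect chevD4 (keyP p) 50 (WP p r) = collect chevD4 (keyP p) 50 [(r', c, [1])]) (t : K) :
    nG ax p 1 * xG ax r t * (nG ax p 1)⁻¹ = xG ax r' ((c : K) * t) := by
  have key := ev_of_collect (Cfsg.Agent.Lib.Steinberg.Levi.stRel_xG ax) [t] h
  simp only [ev, val, WP, evM, List.map, List.prod_cons, List.prod_nil] at key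
  simp only [nG, mul_inv_rev, xG_inv, inv_one]
  simp at key
  simpa [mul_assoc] using key


/-- The monomial element of `α`. -/
noncomputable def nW : GL chevD4.Idx K := nG ax 18 1 * nG ax 13 1 * nG ax 12 1

theorem w_conj3 {r r1 r2 r3 : ℕ} {c1 c2 c3 : ℤ}
    (h1 : collect chevD4 (keyP 12) 50 (WP 12 r) = collect chevD4 (keyP 12) 50 [(r1, c1, [1])])
    (h2 : collect chevD4 (keyP 13) 50 (WP 13 r1) = collect chevD4 (keyP 13) 50 [(r2, c2, [1])])
    (h3 : collect chevD4 (keyP 18) 50 (WP 18 r2) = collect chevD4 (keyP 18) 50 [(r3, c3, [1])]) (t : K) :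
    cj (nW ax) (xG ax r t) = xG ax r3 ((c3 : K) * ((c2 : K) * ((c1 : K) * t))) := by
  have e : cj (nW ax) (xG ax r t) = cj (nG ax 18 1) (cj (nG ax 13 1) (cj (nG ax 12 1) (xG ax r t))) := by
    simp only [nW, cj_cj, mul_assoc]
  rw [e]
  have e1 : cj (nG ax 12 1) (xG ax r t) = xG ax r1 ((c1 : K) * t) := nG_conj ax h1 t
  have e2 : cj (nG ax 13 1) (xG ax r1 ((c1 : K) * t)) = xG ax r2 ((c2 : K) * ((c1 : K) * t)) := nG_conj ax h2 _
  have e3 : cj (nG ax 18 1) (xG ax r2 ((c2 : K) * ((c1 : K) * t))) = xG ax r3 ((c3 : K) * ((c2 : K) * ((c1 : K) * t))) :=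
    nG_conj ax h3 _

  rw [e1, e2, e3]

lemma v18 (t : K) : cj (nG ax 14 1) (xG ax 18 t) = xG ax 19 t := by
  simpa [cj] using nG_conj ax (p := 14) (r := 18) (r' := 19) (c := 1) (by decide +kernel) t

lemma v13 (t : K) : cj (nG ax 14 1) (xG ax 13 t) = xG ax 16 (-t) := by
  simpa [cj] using nG_conj ax (p := 14) (r := 13) (r' := 16) (c := -1) (by decide +kernel) t

lemma v12 (t : K) : cj (nG ax 14 1) (xG ax 12 t) = xG ax 15 (-t) := by
  simpa [cj] using nG_conj ax (p := 14) (r := 12) (r' := 15) (c := -1) (by decide +kernel) t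

lemma v5 (t : K) : cj (nG ax 14 1) (xG ax 5 t) = xG ax 4 t := by
  simpa [cj] using nG_conj ax (p := 14) (r := 5) (r' := 4) (c := 1) (by decide +kernel) t

lemma v10 (t : K) : cj (nG ax 14 1) (xG ax 10 t) = xG ax 7 (-t) := by
  simpa [cj] using nG_conj ax (p := 14) (r := 10) (r' := 7) (c := -1) (by decide +kernel) t

lemma v11 (t : K) : cj (nG ax 14 1) (xG ax 11 t) = xG ax 8 (-t) := by
  simpa [cj] using nG_conj ax (p := 14) (r := 11) (r' := 8) (c := -1) (by decide +kernel) t

lemma v19 (t : K) : cj (nG ax 14 1) (xG ax 19 t) = xG ax 18 (-t) := by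
  simpa [cj] using nG_conj ax (p := 14) (r := 19) (r' := 18) (c := -1) (by decide +kernel) t

lemma v16 (t : K) : cj (nG ax 14 1) (xG ax 16 t) = xG ax 13 t := by
  simpa [cj] using nG_conj ax (p := 14) (r := 16) (r' := 13) (c := 1) (by decide +kernel) t

lemma v15 (t : K) : cj (nG ax 14 1) (xG ax 15 t) = xG ax 12 t := by
  simpa [cj] using nG_conj ax (p := 14) (r := 15) (r' := 12) (c := 1) (by decide +kernel) t

lemma v4 (t : K) : cj (nG ax 14 1) (xG ax 4 t) = xG ax 5 (-t) := by
  simpa [cj] using nG_conj ax (p := 14) (r := 4) (r' := 5) (c := -1) (by decide +kernel) t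

lemma v7 (t : K) : cj (nG ax 14 1) (xG ax 7 t) = xG ax 10 t := by
  simpa [cj] using nG_conj ax (p := 14) (r := 7) (r' := 10) (c := 1) (by decide +kernel) t

lemma v8 (t : K) : cj (nG ax 14 1) (xG ax 8 t) = xG ax 11 t := by
  simpa [cj] using nG_conj ax (p := 14) (r := 8) (r' := 11) (c := 1) (by decide +kernel) t

lemma v22 (t : K) : cj (nG ax 14 1) (xG ax 22 t) = xG ax 23 t := by
  simpa [cj] using nG_conj ax (p := 14) (r := 22) (r' := 23) (c := 1) (by decide +kernel) t

lemma v1 (t : K) : cj (nG ax 14 1) (xG ax 1 t) = xG ax 0 t := by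
  simpa [cj] using nG_conj ax (p := 14) (r := 1) (r' := 0) (c := 1) (by decide +kernel) t

lemma w19 (t : K) : cj (nW ax) (xG ax 19 t) = xG ax 17 t := by
  simpa using w_conj3 ax (r1 := 20) (r2 := 22) (r3 := 17) (c1 := 1) (c2 := 1) (c3 := 1) (by decide +kernel) (by decide +kernel) (by decide +kernel) t

lemma w16 (t : K) : cj (nW ax) (xG ax 16 t) = xG ax 20 t := by
  simpa using w_conj3 ax (r1 := 17) (r2 := 15) (r3 := 20) (c1 := 1) (c2 := -1) (c3 := -1) (by decide +kernel) (by decide +kernel) (by decide +kernel) t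

lemma w15 (t : K) : cj (nW ax) (xG ax 15 t) = xG ax 21 t := by
  simpa using w_conj3 ax (r1 := 14) (r2 := 16) (r3 := 21) (c1 := -1) (c2 := 1) (c3 := -1) (by decide +kernel) (by decide +kernel) (by decide +kernel) t

lemma w4 (t : K) : cj (nW ax) (xG ax 4 t) = xG ax 6 t := by
  simpa using w_conj3 ax (r1 := 3) (r2 := 1) (r3 := 6) (c1 := 1) (c2 := 1) (c3 := 1) (by decide +kernel) (by decide +kernel) (by decide +kernel) t

lemma w7 (t : K) : cj (nW ax) (xG ax 7 t) = xG ax 3 t := by
  simpa using w_conj3 ax (r1 := 6) (r2 := 8) (r3 := 3) (c1 := 1) (c2 := -1) (c3 := -1) (by decide +kernel) (by decide +kernel) (by decide +kernel) t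

lemma w8 (t : K) : cj (nW ax) (xG ax 8 t) = xG ax 2 t := by
  simpa using w_conj3 ax (r1 := 9) (r2 := 7) (r3 := 2) (c1 := -1) (c2 := 1) (c3 := -1) (by decide +kernel) (by decide +kernel) (by decide +kernel) t

lemma w22 (t : K) : cj (nW ax) (xG ax 22 t) = xG ax 14 t := by
  simpa using w_conj3 ax (r1 := 21) (r2 := 19) (r3 := 14) (c1 := -1) (c2 := -1) (c3 := 1) (by decide +kernel) (by decide +kernel) (by decide +kernel) t

lemma w9 (t : K) : cj (nW ax) (xG ax 9 t) = xG ax 1 (-t) := by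
  simpa using w_conj3 ax (r1 := 8) (r2 := 6) (r3 := 1) (c1 := 1) (c2 := 1) (c3 := -1) (by decide +kernel) (by decide +kernel) (by decide +kernel) t


/-- `n_p` on `x_p`. -/
lemma v14 (t : K) : cj (nG ax 14 1) (xG ax 14 t) = xG ax 9 (-t) := by
  have := (rel_all hD hD2 ax (r := 14) (by decide)).1 1 t one_ne_zero
  have hn : chevD4.neg 14 = 9 := by decide +kernel
  rw [hn] at this
  simpa [cj] using this

lemma v9 (t : K) : cj (nG ax 14 1) (xG ax 9 t) = xG ax 14 (-t) := by
  have := (rel_all hD hD2 ax (r := 14) (by decide)).2 1 t one_ne_zero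
  have hn : chevD4.neg 14 = 9 := by decide +kernel
  rw [hn] at this
  simpa [cj] using this

/-! ### The homomorphism -/

variable (φ : K →+* K)

/-- Product of three commuting homomorphisms. -/
def prod3 {L H : Type*} [Group L] [Group H] (f g k : L →* H) (h1 : ∀ x y, f x * g y = g y * f x)
    (h2 : ∀ x y, f x * k y = k y * f x) (h3 : ∀ x y, g x * k y = k y * g x) : L →* H :=
  MonoidHom.mk' (fun x => f x * g x * k x) (by
    intro a b
    simp only [map_mul]
    calc f a * f b * (g a * g b) * (k a * k b) = f a * (f b * g a) * g b * (k a * k b) := by group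
      _ = f a * (g a * f b) * g b * (k a * k b) := by rw [h1]
      _ = f a * g a * (f b * g b) * (k a * k b) := by group
      _ = f a * g a * (f b * (g b * k a)) * k b := by group
      _ = f a * g a * (f b * (k a * g b)) * k b := by rw [h3]
      _ = f a * g a * (f b * k a) * g b * k b := by group
      _ = f a * g a * (k a * f b) * g b * k b := by rw [h2]
      _ = _ := by group)

@[simp] lemma prod3_apply {L H : Type*} [Group L] [Group H] (f g k : L →* H) (h1 h2 h3) (x : L) :
    prod3 f g k h1 h2 h3 x = f x * g x * k x := rfl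

/-- Commuting on generators. -/
lemma comm_gens {H : Type*} [Group H] (f g : SL(2, K) →* H)
    (h1 : ∀ s t, f (upM s) * g (upM t) = g (upM t) * f (upM s)) (h2 : ∀ s t, f (upM s) * g (loM t) = g (loM t) * f (upM s))
    (h3 : ∀ s t, f (loM s) * g (upM t) = g (upM t) * f (loM s)) (h4 : ∀ s t, f (loM s) * g (loM t) = g (loM t) * f (loM s))
    (M N : SL(2, K)) : f M * g N = g N * f M := by
  refine sl_induction (P := fun M => ∀ N, f M * g N = g N * f M) (by simp) ?_ ?_ ?_ M N
  · intro s N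
    refine sl_induction (P := fun N => f (upM s) * g N = g N * f (upM s)) (by simp) (h1 s) (h2 s) ?_ N
    intro a b ha hb
    simp only [map_mul]
    calc f (upM s) * (g a * g b) = (f (upM s) * g a) * g b := by group
      _ = g a * (f (upM s) * g b) := by rw [ha]; group
      _ = _ := by rw [hb]; group
  · intro s N
    refine sl_induction (P := fun N => f (loM s) * g N = g N * f (loM s)) (by simp) (h3 s) (h4 s) ?_ N
    intro a b ha hb
    simp only [map_mul]
    calc f (loM s) * (g a * g b) = (f (loM s) * g a) * g b := by group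
      _ = g a * (f (loM s) * g b) := by rw [ha]; group
      _ = _ := by rw [hb]; group
  · intro a b ha hb N
    simp only [map_mul]
    calc f a * f b * g N = f a * (f b * g N) := by group
      _ = (f a * g N) * f b := by rw [hb]; group
      _ = _ := by rw [ha]; group

/-- The homomorphism of a root. -/
noncomputable def fr (r : ℕ) (hr : r < chevD4.nroots) : SL(2, K) →* GL chevD4.Idx K := fH hD hD2 ax hr

lemma fr_up (r : ℕ) (hr : r < chevD4.nroots) (t : K) : fr ax r hr (upM t) = xG ax r t :=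
  phiHom_up (rankOneRel hD hD2 ax hr) t

lemma fr_lo (r : ℕ) (hr : r < chevD4.nroots) (t : K) : fr ax r hr (loM t) = xG ax (chevD4.neg r) t :=
  phiHom_lo (rankOneRel hD hD2 ax hr) t

/-- The map on `SL₂`. -/
def mapK : SL(2, K) →* SL(2, K) := Matrix.SpecialLinearGroup.map φ

@[simp] lemma mapK_up (t : K) : mapK φ (upM t) = upM (φ t) := by
  apply ext_sl <;> simp [mapK]

@[simp] lemma mapK_lo (t : K) : mapK φ (loM t) = loM (φ t) := by
  apply ext_sl <;> simp [mapK]

@[simp] lemma mapK_dg (s : Kˣ) : mapK φ (dg s) = dg (Units.map (φ : K →* K) s) := by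
  apply ext_sl <;> simp [mapK]

theorem n5 : chevD4.neg 18 = 5 := by decide +kernel
theorem n10 : chevD4.neg 13 = 10 := by decide +kernel
theorem n11 : chevD4.neg 12 = 11 := by decide +kernel

lemma cp {r s : ℕ} (H : CommPair chevD4 s r) (a b : K) : xG ax r a * xG ax s b = xG ax s b * xG ax r a :=
  H.comm ax b a

/-- The homomorphism `ψ`. -/
noncomputable def psi : SL(2, K) →* GL chevD4.Idx K :=
  prod3 (fr ax 18 (by decide)) ((fr ax 13 (by decide)).comp (mapK φ)) ((fr ax 12 (by decide)).comp ((mapK φ).comp (mapK φ)))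
    (comm_gens _ _
      (fun s t => by simp only [MonoidHom.comp_apply, mapK_up, mapK_lo, fr_up, fr_lo, n5, n10, n11]; exact cp ax (by decide +kernel) _ _)
      (fun s t => by simp only [MonoidHom.comp_apply, mapK_up, mapK_lo, fr_up, fr_lo, n5, n10, n11]; exact cp ax (by decide +kernel) _ _)
      (fun s t => by simp only [MonoidHom.comp_apply, mapK_up, mapK_lo, fr_up, fr_lo, n5, n10, n11]; exact cp ax (by decide +kernel) _ _)
      (fun s t => by simp only [MonoidHom.comp_apply, mapK_up, mapK_lo, fr_up, fr_lo, n5, n10, n11]; exact cp ax (by decide +kernel) _ _))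
    (comm_gens _ _
      (fun s t => by simp only [MonoidHom.comp_apply, mapK_up, mapK_lo, fr_up, fr_lo, n5, n10, n11]; exact cp ax (by decide +kernel) _ _)
      (fun s t => by simp only [MonoidHom.comp_apply, mapK_up, mapK_lo, fr_up, fr_lo, n5, n10, n11]; exact cp ax (by decide +kernel) _ _)
      (fun s t => by simp only [MonoidHom.comp_apply, mapK_up, mapK_lo, fr_up, fr_lo, n5, n10, n11]; exact cp ax (by decide +kernel) _ _)
      (fun s t => by simp only [MonoidHom.comp_apply, mapK_up, mapK_lo, fr_up, fr_lo, n5, n10, n11]; exact cp ax (by decide +kernel) _ _))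
    (comm_gens _ _
      (fun s t => by simp only [MonoidHom.comp_apply, mapK_up, mapK_lo, fr_up, fr_lo, n5, n10, n11]; exact cp ax (by decide +kernel) _ _)
      (fun s t => by simp only [MonoidHom.comp_apply, mapK_up, mapK_lo, fr_up, fr_lo, n5, n10, n11]; exact cp ax (by decide +kernel) _ _)
      (fun s t => by simp only [MonoidHom.comp_apply, mapK_up, mapK_lo, fr_up, fr_lo, n5, n10, n11]; exact cp ax (by decide +kernel) _ _)
      (fun s t => by simp only [MonoidHom.comp_apply, mapK_up, mapK_lo, fr_up, fr_lo, n5, n10, n11]; exact cp ax (by decide +kernel) _ _))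

lemma psi_up (s : K) : psi ax φ (upM s) = xG ax 18 s * xG ax 13 (φ s) * xG ax 12 (φ (φ s)) := by
  simp [psi, fr_up]

lemma psi_lo (s : K) : psi ax φ (loM s) = xG ax 5 s * xG ax 10 (φ s) * xG ax 11 (φ (φ s)) := by
  simp [psi, fr_lo, n5, n10, n11]

lemma n0_eq : (n0 : SL(2, K)) = upM 1 * loM (-1) * upM 1 := by
  apply ext_sl <;> simp [Cfsg.Agent.Lib.SchD4.SL2.mul00, Cfsg.Agent.Lib.SchD4.SL2.mul01, Cfsg.Agent.Lib.SchD4.SL2.mul10, Cfsg.Agent.Lib.SchD4.SL2.mul11]

/-- A key grouping the roots in pairs. -/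
def keyW (r : ℕ) : ℤ := if r = 18 ∨ r = 5 then 0 else if r = 13 ∨ r = 10 then 1 else 2

lemma psi_n0 : psi ax φ n0 = nW ax := by
  rw [n0_eq, map_mul, map_mul, psi_up, psi_lo]
  simp only [map_one, map_neg, nW]
  have hn : ∀ r, nG ax r 1 = xG ax r 1 * xG ax (chevD4.neg r) (-1) * xG ax r 1 := by
    intro r
    simp [nG]
  rw [hn 18, hn 13, hn 12, n5, n10, n11]
  have key := ev_of_collect (Cfsg.Agent.Lib.Steinberg.Levi.stRel_xG ax) ([] : List K) (key := keyW) (f := 50)
    (L := [(18, 1, []), (13, 1, []), (12, 1, []), (5, -1, []), (10, -1, []), (11, -1, []), (18, 1, []), (13, 1, []), (12, 1, [])])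
    (L' := [(18, 1, []), (5, -1, []), (18, 1, []), (13, 1, []), (10, -1, []), (13, 1, []), (12, 1, []), (11, -1, []), (12, 1, [])])
    (by decide +kernel)
  simp [ev, val, evM] at key
  simpa [mul_assoc] using key

/-! ### The system -/

section system

variable (u0 : K) (hφ3 : ∀ t, φ (φ (φ t)) = t) (p m : ℕ)

/-- The system of `³D₄`. -/
noncomputable def Sy : Cfsg.Agent.Lib.SchD4.Sys.Sys K (GL chevD4.Idx K) where
  φ := φ
  φ3 := hφ3
  ψ := psi ax φ
  v := nG ax 14 1
  xz := fun u => xG ax 23 (-(Tr φ u))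
  u0 := u0
  eps := -1
  kap := 1
  p := p
  m := m

local notation "S" => Sy ax φ u0 hφ3 p m

lemma S_w : (S).w = nW ax := psi_n0 ax φ

lemma Tr_add (a b : K) : Tr φ (a + b) = Tr φ a + Tr φ b := by
  simp only [Tr, map_add]
  ring

lemma Tr_neg (a : K) : Tr φ (-a) = -Tr φ a := by
  simp only [Tr, map_neg]
  ring

lemma psi1_up (a : K) : (S).ψ₁ (upM a) = xG ax 19 a * xG ax 16 (-φ a) * xG ax 15 (-φ (φ a)) := by
  show cj (nG ax 14 1) (psi ax φ (upM a)) = _
  rw [psi_up, cj_mul, cj_mul, v18, v13, v12]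

lemma psi1_lo (a : K) : (S).ψ₁ (loM a) = xG ax 4 a * xG ax 7 (-φ a) * xG ax 8 (-φ (φ a)) := by
  show cj (nG ax 14 1) (psi ax φ (loM a)) = _
  rw [psi_lo, cj_mul, cj_mul, v5, v10, v11]

lemma psi2_up (a : K) : (S).ψ₂ (upM a) = xG ax 17 a * xG ax 20 (-φ a) * xG ax 21 (-φ (φ a)) := by
  show cj (S).w ((S).ψ₁ (upM a)) = _
  rw [S_w, psi1_up, cj_mul, cj_mul, w19, w16, w15]

lemma psi2_lo (a : K) : (S).ψ₂ (loM a) = xG ax 6 a * xG ax 3 (-φ a) * xG ax 2 (-φ (φ a)) := by
  show cj (S).w ((S).ψ₁ (loM a)) = _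
  rw [S_w, psi1_lo, cj_mul, cj_mul, w4, w7, w8]

lemma xz_eq (u : K) : (S).xz u = xG ax 23 (-(Tr φ u)) := rfl

lemma xl_eq (u : K) : (S).xl u = xG ax 22 (-(Tr φ u)) := by
  show cj (nG ax 14 1)⁻¹ (xG ax 23 (-(Tr φ u))) = _
  rw [← v22, cj_inv_cj]

lemma xb_eq (u : K) : (S).xb u = xG ax 14 (-(Tr φ u)) := by
  show cj (S).w ((S).xl u) = _
  rw [S_w, xl_eq, w22]

lemma xm_eq (t : K) : (S).xm t = xG ax 9 (-(Tr φ t)) := by
  show cj (nG ax 14 1) ((S).xb (-t)) = _
  rw [xb_eq, Tr_neg, v14, neg_neg]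

lemma xf9_eq (t : K) : (S).xf9 t = xG ax 0 (Tr φ t) := by
  show cj (nG ax 14 1) (cj (S).w ((S).xm t)) = _
  rw [S_w, xm_eq, w9, v1]
  simp

end system

end Cfsg.Agent.Lib.SchD4.G
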