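import Cfsg.Agent.Lib.SchD4.G1

/-!
The commutator relations in the root elements of `D₄` as word identities.
-/

set_option autoImplicit false
set_option linter.unusedSectionVars false
set_option linter.unusedVariables false
set_option linter.ambiguousOpen false
set_option linter.unusedSimpArgs false
set_option linter.unusedTactic false
set_option linter.unreachableTactic false
set_option linter.dupNamespace false

namespace Cfsg.Agent.Lib.SchD4.G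

open scoped MatrixGroups Matrix
open Cfsg Lie ChevalleyDatum
open Cfsg.Agent.Lib.Chev
open Tables Tables2 Tables3 Raise Basic AxBasic Torus Products Products2 Mono1 Mono2 Mono3 Bn Diag SL2 SL2Chev
open Cfsg.Agent.Lib.Twisted.Bruhat Cfsg.Agent.Lib.Twisted.D4H Cfsg.Agent.Lib.Twisted.TorusFix
open Cfsg.Agent.Lib.TorD4.Root Cfsg.Agent.Lib.Twisted.Ortho
open Cfsg.Agent.Lib.SchD4.Col
open Cfsg.Agent.Lib.SchD4.Sys (cj cj_mul cj_one cj_inv cj_cj one_cj cj_inv_cj cj_cj_inv map_cj cj_eq_self_iff cj_cm cj_inj cjH Tr Nm Nu chi1)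
open Cfsg.Agent.Lib.SchD4.SL2 (dg n0 dc nn sl_induction sl_hom_ext ext_sl up_add lo_add up_zero lo_zero dg_mul dg_one)

universe u

variable {K : Type u} [Field K] (ax : Ax chevD4 K)

/-- The key of the positive roots. -/
def keyId (r : ℕ) : ℤ := r

theorem word_R2 (s0 s1 s2 a0 a1 a2 : K) :
    xG ax 18 s0 * xG ax 13 s1 * xG ax 12 s2 * (xG ax 19 a0 * xG ax 16 (-a1) * xG ax 15 (-a2)) *
      (xG ax 18 s0 * xG ax 13 s1 * xG ax 12 s2)⁻¹ =
    (xG ax 19 a0 * xG ax 16 (-a1) * xG ax 15 (-a2)) *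
      (xG ax 17 (-(s1 * a2) + -(s2 * a1)) * xG ax 20 (s2 * a0 + s0 * a2) * xG ax 21 (s0 * a1 + s1 * a0)) *
      (xG ax 22 (a0 * s1 * s2 + a1 * s2 * s0 + a2 * s0 * s1) * xG ax 23 (-(a0 * a1 * s2) + -(a1 * a2 * s0) + -(a2 * a0 * s1))) := by
  have key := ev_of_collect (Cfsg.Agent.Lib.Steinberg.Levi.stRel_xG ax) [s0, s1, s2, a0, a1, a2] (key := keyId) (f := 100)
    (L := [(18, 1, [1, 0, 0, 0, 0, 0]), (13, 1, [0, 1, 0, 0, 0, 0]), (12, 1, [0, 0, 1, 0, 0, 0]), (19, 1, [0, 0, 0, 1, 0, 0]), (16, -1, [0, 0, 0, 0, 1, 0]), (15, -1, [0, 0, 0, 0, 0, 1]), (12, -1, [0, 0, 1, 0, 0, 0]), (13, -1, [0, 1, 0, 0, 0, 0]), (18, -1, [1, 0, 0, 0, 0, 0])])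
    (L' := [(19, 1, [0, 0, 0, 1, 0, 0]), (16, -1, [0, 0, 0, 0, 1, 0]), (15, -1, [0, 0, 0, 0, 0, 1]), (17, -1, [0, 1, 0, 0, 0, 1]), (17, -1, [0, 0, 1, 0, 1, 0]), (20, 1, [0, 0, 1, 1, 0, 0]), (20, 1, [1, 0, 0, 0, 0, 1]), (21, 1, [1, 0, 0, 0, 1, 0]), (21, 1, [0, 1, 0, 1, 0, 0]), (22, 1, [0, 1, 1, 1, 0, 0]), (22, 1, [1, 0, 1, 0, 1, 0]), (22, 1, [1, 1, 0, 0, 0, 1]), (23, -1, [0, 0, 1, 1, 1, 0]), (23, -1, [1, 0, 0, 0, 1, 1]), (23, -1, [0, 1, 0, 1, 0, 1])])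
    (by decide +kernel)
  simp only [ev, val, evM, List.map_cons, List.map_nil, List.prod_cons, List.prod_nil, pow_zero, pow_one, one_mul, mul_one,
    Int.cast_one, Int.cast_neg, neg_mul] at key
  simp only [← xG_add, mul_inv_rev, xG_inv, mul_assoc]
  ring_nf at key ⊢
  exact key

theorem word_R1 (a0 a1 a2 b0 b1 b2 : K) :
    (xG ax 19 a0 * xG ax 16 (-a1) * xG ax 15 (-a2)) * (xG ax 17 b0 * xG ax 20 (-b1) * xG ax 21 (-b2)) *
      (xG ax 19 a0 * xG ax 16 (-a1) * xG ax 15 (-a2))⁻¹ * (xG ax 17 b0 * xG ax 20 (-b1) * xG ax 21 (-b2))⁻¹ =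
    xG ax 23 (-(a0 * b0) + -(a1 * b1) + -(a2 * b2)) := by
  have key := ev_of_collect (Cfsg.Agent.Lib.Steinberg.Levi.stRel_xG ax) [a0, a1, a2, b0, b1, b2] (key := keyId) (f := 100)
    (L := [(19, 1, [1, 0, 0, 0, 0, 0]), (16, -1, [0, 1, 0, 0, 0, 0]), (15, -1, [0, 0, 1, 0, 0, 0]), (17, 1, [0, 0, 0, 1, 0, 0]), (20, -1, [0, 0, 0, 0, 1, 0]), (21, -1, [0, 0, 0, 0, 0, 1]), (15, 1, [0, 0, 1, 0, 0, 0]), (16, 1, [0, 1, 0, 0, 0, 0]), (19, -1, [1, 0, 0, 0, 0, 0]), (21, 1, [0, 0, 0, 0, 0, 1]), (20, 1, [0, 0, 0, 0, 1, 0]), (17, -1, [0, 0, 0, 1, 0, 0])])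
    (L' := [(23, -1, [1, 0, 0, 1, 0, 0]), (23, -1, [0, 1, 0, 0, 1, 0]), (23, -1, [0, 0, 1, 0, 0, 1])])
    (by decide +kernel)
  simp only [ev, val, evM, List.map_cons, List.map_nil, List.prod_cons, List.prod_nil, pow_zero, pow_one, one_mul, mul_one,
    Int.cast_one, Int.cast_neg, neg_mul] at key
  simp only [← xG_add, mul_inv_rev, xG_inv, mul_assoc]
  ring_nf at key ⊢
  exact key

theorem word_R4 (s0 s1 s2 T : K) :
    xG ax 18 s0 * xG ax 13 s1 * xG ax 12 s2 * xG ax 14 (-T) * (xG ax 18 s0 * xG ax 13 s1 * xG ax 12 s2)⁻¹ =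
    xG ax 14 (-T) * ((xG ax 19 (T * s0) * xG ax 16 (-(T * s1)) * xG ax 15 (-(T * s2))) *
      (xG ax 17 (-(T * s1 * s2)) * xG ax 20 (T * s2 * s0) * xG ax 21 (T * s0 * s1)) *
      (xG ax 22 (T * s0 * s1 * s2) * xG ax 23 (-(T * T * s0 * s1 * s2)))) := by
  have key := ev_of_collect (Cfsg.Agent.Lib.Steinberg.Levi.stRel_xG ax) [s0, s1, s2, T] (key := keyId) (f := 100)
    (L := [(18, 1, [1, 0, 0, 0]), (13, 1, [0, 1, 0, 0]), (12, 1, [0, 0, 1, 0]), (14, -1, [0, 0, 0, 1]), (12, -1, [0, 0, 1, 0]), (13, -1, [0, 1, 0, 0]), (18, -1, [1, 0, 0, 0])])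
    (L' := [(14, -1, [0, 0, 0, 1]), (19, 1, [1, 0, 0, 1]), (16, -1, [0, 1, 0, 1]), (15, -1, [0, 0, 1, 1]), (17, -1, [0, 1, 1, 1]), (20, 1, [1, 0, 1, 1]), (21, 1, [1, 1, 0, 1]), (22, 1, [1, 1, 1, 1]), (23, -1, [1, 1, 1, 2])])
    (by decide +kernel)
  simp only [ev, val, evM, List.map_cons, List.map_nil, List.prod_cons, List.prod_nil, pow_zero, pow_one, one_mul, mul_one,
    Int.cast_one, Int.cast_neg, neg_mul] at key
  simp only [← xG_add, mul_inv_rev, xG_inv, mul_assoc]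
  ring_nf at key ⊢
  exact key

/-- A triple of root elements commuting with a root element. -/
lemma comm_triple {r₁ r₂ r₃ s : ℕ} (H1 : CommPair chevD4 s r₁) (H2 : CommPair chevD4 s r₂) (H3 : CommPair chevD4 s r₃)
    (a b c t : K) : xG ax r₁ a * xG ax r₂ b * xG ax r₃ c * xG ax s t = xG ax s t * (xG ax r₁ a * xG ax r₂ b * xG ax r₃ c) := by
  have h1 := cp ax H1 a t
  have h2 := cp ax H2 b t
  have h3 := cp ax H3 c t
  calc xG ax r₁ a * xG ax r₂ b * xG ax r₃ c * xG ax s t = xG ax r₁ a * xG ax r₂ b * (xG ax r₃ c * xG ax s t) := by group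
    _ = xG ax r₁ a * (xG ax r₂ b * xG ax s t) * xG ax r₃ c := by rw [h3]; group
    _ = (xG ax r₁ a * xG ax s t) * xG ax r₂ b * xG ax r₃ c := by rw [h2]; group
    _ = _ := by rw [h1]; group

section

variable (φ : K →+* K) (u0 : K) (hφ3 : ∀ t, φ (φ (φ t)) = t) (p m : ℕ)

local notation "S" => Sy ax φ u0 hφ3 p m

include hφ3 in
lemma Tr_fix (x : K) : φ (Tr φ x) = Tr φ x := by
  simp only [Tr, map_add, hφ3]
  ring

lemma h_R1 (a b : K) : Cfsg.Agent.Lib.Steinberg.CExt.cm ((S).ψ₁ (upM a)) ((S).ψ₂ (upM b)) = (S).xz (a * b) := by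
  rw [psi1_up, psi2_up, xz_eq]
  have := word_R1 ax a (φ a) (φ (φ a)) b (φ b) (φ (φ b))
  simp only [Cfsg.Agent.Lib.Steinberg.CExt.cm]
  rw [this]
  congr 1
  simp only [Tr, map_mul]
  ring

lemma h_R2 (s a : K) : ∃ r r', cj ((S).ψ (upM s)) ((S).ψ₁ (upM a)) =
    (S).ψ₁ (upM a) * (S).ψ₂ (upM ((S).eps * ((S).φ s * (S).φ ((S).φ a) + (S).φ ((S).φ s) * (S).φ a))) * ((S).xl r * (S).xz r') := by
  refine ⟨-(a * φ s * φ (φ s)), a * φ a * φ (φ s), ?_⟩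
  rw [psi1_up, psi2_up, xl_eq, xz_eq]
  show cj (psi ax φ (upM s)) _ = _
  rw [psi_up]
  have := word_R2 ax s (φ s) (φ (φ s)) a (φ a) (φ (φ a))
  simp only [cj]
  rw [this]
  have c0 : (S).eps * ((S).φ s * (S).φ ((S).φ a) + (S).φ ((S).φ s) * (S).φ a) = -(φ s * φ (φ a)) + -(φ (φ s) * φ a) := by
    show -1 * (φ s * φ (φ a) + φ (φ s) * φ a) = _
    ring
  have c1 : -φ (-(φ s * φ (φ a)) + -(φ (φ s) * φ a)) = φ (φ s) * a + s * φ (φ a) := by
    simp only [map_mul, map_add, map_neg, hφ3]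
    ring
  have c2 : -φ (φ (-(φ s * φ (φ a)) + -(φ (φ s) * φ a))) = s * φ a + φ s * a := by
    simp only [map_mul, map_add, map_neg, hφ3]
    ring
  have t1 : -Tr φ (-(a * φ s * φ (φ s))) = a * φ s * φ (φ s) + φ a * φ (φ s) * s + φ (φ a) * s * φ s := by
    simp only [Tr, map_mul, map_add, map_neg, hφ3]
    ring
  have t2 : -Tr φ (a * φ a * φ (φ s)) = -(a * φ a * φ (φ s)) + -(φ a * φ (φ a) * s) + -(φ (φ a) * a * φ s) := by
    simp only [Tr, map_mul, map_add, map_neg, hφ3]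
    ring
  rw [c0, c1, c2, t1, t2]

lemma h_R4 (s u : K) : ∃ c r r', cj ((S).ψ (upM s)) ((S).xb u) =
    (S).xb u * ((S).ψ₁ (upM ((S).kap * Tr (S).φ u * s)) * (S).ψ₂ (upM c) * ((S).xl r * (S).xz r')) := by
  have hT := Tr_fix φ hφ3 u
  set T := Tr φ u with hTdef
  refine ⟨-(T * φ s * φ (φ s)), -((s * φ s * φ (φ s)) * u), (s * φ s * φ (φ s)) * T * u, ?_⟩
  rw [psi1_up, psi2_up, xl_eq, xz_eq, xb_eq]
  show cj (psi ax φ (upM s)) _ = _
  rw [psi_up, ← hTdef]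
  have := word_R4 ax s (φ s) (φ (φ s)) T
  simp only [cj]
  rw [this]
  have hTr : ∀ (e x : K), φ e = e → Tr φ (e * x) = e * Tr φ x := by
    intro e x he
    simp only [Tr, map_mul, he]
    ring
  have hN : φ (s * φ s * φ (φ s)) = s * φ s * φ (φ s) := by
    simp only [map_mul, hφ3]
    ring
  have e1 : -Tr φ (-(s * φ s * φ (φ s) * u)) = T * s * φ s * φ (φ s) := by
    rw [Tr_neg, hTr _ _ hN, neg_neg]
    ring
  have e2 : -Tr φ (s * φ s * φ (φ s) * T * u) = -(T * T * s * φ s * φ (φ s)) := by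
    rw [mul_assoc, hTr _ _ hN, hTr _ _ hT]
    ring
  have k0 : (S).kap * Tr (S).φ u * s = T * s := by
    show 1 * T * s = _
    ring
  have k1 : φ (T * s) = T * φ s := by
    simp only [map_mul, hT]
  have k2 : φ (T * φ s) = T * φ (φ s) := by
    simp only [map_mul, hT]
  have k3 : φ (-(T * φ s * φ (φ s))) = -(T * φ (φ s) * s) := by
    simp only [map_mul, map_neg, hT, hφ3]
  have k4 : φ (-(T * φ (φ s) * s)) = -(T * s * φ s) := by
    simp only [map_mul, map_neg, hT, hφ3]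
  rw [e1, e2, k0, k1, k2, k3, k4, neg_neg, neg_neg]
end

end Cfsg.Agent.Lib.SchD4.G
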