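import Cfsg.Agent.Lib.SchD4.G2

/-!
The axioms of the system of `³D₄`, except for the field facts.
-/

set_option autoImplicit false
set_option linter.unusedSectionVars false
set_option linter.unusedVariables false
set_option linter.ambiguousOpen false
set_option linter.unusedSimpArgs false
set_option linter.unusedTactic false
set_option linter.unreachableTactic false
set_option linter.dupNamespace false

namespace Cfsg.Agent.Lib.SchD4.G

open scoped MatrixGroups Matrix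
open Cfsg Lie ChevalleyDatum
open Cfsg.Agent.Lib.Chev
open Tables Tables2 Tables3 Raise Basic AxBasic Torus Products Products2 Mono1 Mono2 Mono3 Bn Diag SL2 SL2Chev
open Cfsg.Agent.Lib.Twisted.Bruhat Cfsg.Agent.Lib.Twisted.D4H Cfsg.Agent.Lib.Twisted.TorusFix
open Cfsg.Agent.Lib.TorD4.Root Cfsg.Agent.Lib.Twisted.Ortho
open Cfsg.Agent.Lib.SchD4.Col
open Cfsg.Agent.Lib.SchD4.Sys (cj cj_mul cj_one cj_inv cj_cj one_cj cj_inv_cj cj_cj_inv map_cj cj_eq_self_iff cj_cm cj_inj cjH cjH_apply Tr Nm Nu chi1 Nu_val)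
open Cfsg.Agent.Lib.SchD4.SL2 (dg n0 dc nn sl_induction sl_hom_ext ext_sl up_add lo_add up_zero lo_zero dg_mul dg_one dc_up dc_lo dc_dg)

universe u

variable {K : Type u} [Field K] (ax : Ax chevD4 K)

/-- Commuting with the image of a homomorphism can be checked on generators. -/
lemma comm_hom {H : Type*} [Group H] {y : H} (f : SL(2, K) →* H) (hu : ∀ t, f (upM t) * y = y * f (upM t))
    (hl : ∀ t, f (loM t) * y = y * f (loM t)) (M : SL(2, K)) : f M * y = y * f M := by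
  refine sl_induction (P := fun M => f M * y = y * f M) (by simp) hu hl ?_ M
  intro a b ha hb
  simp only [map_mul]
  calc f a * f b * y = f a * (f b * y) := by group
    _ = (f a * y) * f b := by rw [hb]; group
    _ = _ := by rw [ha]; group

section

variable (φ : K →+* K) (u0 : K) (hφ3 : ∀ t, φ (φ (φ t)) = t) (p m : ℕ)

local notation "S" => Sy ax φ u0 hφ3 p m

lemma h_add_z (a b : K) : (S).xz (a + b) = (S).xz a * (S).xz b := by
  rw [xz_eq, xz_eq, xz_eq, xG_add, Tr_add]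
  congr 1
  ring

lemma h_v_eq (hu0 : Tr φ u0 = -1) : (S).v = (S).xb (S).u0 * (S).xm (-(S).u0) * (S).xb (S).u0 := by
  rw [xb_eq, xm_eq]
  show nG ax 14 1 = xG ax 14 (-(Tr φ u0)) * xG ax 9 (-(Tr φ (-u0))) * xG ax 14 (-(Tr φ u0))
  rw [Tr_neg, hu0]
  have hn : chevD4.neg 14 = 9 := by decide +kernel
  simp [nG, hn]

lemma h_1_z (a u : K) : (S).ψ₁ (upM a) * (S).xz u = (S).xz u * (S).ψ₁ (upM a) := by
  rw [psi1_up, xz_eq]
  exact comm_triple ax (by decide +kernel) (by decide +kernel) (by decide +kernel) _ _ _ _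

lemma h_2_z (a u : K) : (S).ψ₂ (upM a) * (S).xz u = (S).xz u * (S).ψ₂ (upM a) := by
  rw [psi2_up, xz_eq]
  exact comm_triple ax (by decide +kernel) (by decide +kernel) (by decide +kernel) _ _ _ _

lemma h_1_l (a u : K) : (S).ψ₁ (upM a) * (S).xl u = (S).xl u * (S).ψ₁ (upM a) := by
  rw [psi1_up, xl_eq]
  exact comm_triple ax (by decide +kernel) (by decide +kernel) (by decide +kernel) _ _ _ _

lemma h_2_l (a u : K) : (S).ψ₂ (upM a) * (S).xl u = (S).xl u * (S).ψ₂ (upM a) := by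
  rw [psi2_up, xl_eq]
  exact comm_triple ax (by decide +kernel) (by decide +kernel) (by decide +kernel) _ _ _ _

lemma h_1_b (a u : K) : (S).ψ₁ (upM a) * (S).xb u = (S).xb u * (S).ψ₁ (upM a) := by
  rw [psi1_up, xb_eq]
  exact comm_triple ax (by decide +kernel) (by decide +kernel) (by decide +kernel) _ _ _ _

lemma h_0_l (a u : K) : (S).ψ (upM a) * (S).xl u = (S).xl u * (S).ψ (upM a) := by
  show psi ax φ (upM a) * _ = _ * psi ax φ (upM a)
  rw [psi_up, xl_eq]
  exact comm_triple ax (by decide +kernel) (by decide +kernel) (by decide +kernel) _ _ _ _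

lemma h_ψ_z (M : SL(2, K)) (u : K) : (S).ψ M * (S).xz u = (S).xz u * (S).ψ M := by
  refine comm_hom (psi ax φ) ?_ ?_ M
  · intro t
    rw [psi_up, xz_eq]
    exact comm_triple ax (by decide +kernel) (by decide +kernel) (by decide +kernel) _ _ _ _
  · intro t
    rw [psi_lo, xz_eq]
    exact comm_triple ax (by decide +kernel) (by decide +kernel) (by decide +kernel) _ _ _ _

lemma h_ψ_f9 (M : SL(2, K)) (u : K) : (S).ψ M * (S).xf9 u = (S).xf9 u * (S).ψ M := by
  refine comm_hom (psi ax φ) ?_ ?_ M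
  · intro t
    rw [psi_up, xf9_eq]
    exact comm_triple ax (by decide +kernel) (by decide +kernel) (by decide +kernel) _ _ _ _
  · intro t
    rw [psi_lo, xf9_eq]
    exact comm_triple ax (by decide +kernel) (by decide +kernel) (by decide +kernel) _ _ _ _

/-- The homomorphism of the third family. -/
noncomputable def psi2H : SL(2, K) →* GL chevD4.Idx K := cjH (S).w (cjH (S).v (S).ψ)

lemma psi2H_apply (M : SL(2, K)) : psi2H ax φ u0 hφ3 p m M = (S).ψ₂ M := rfl

lemma h_c_b (M : SL(2, K)) (u : K) : (S).ψ₂ M * (S).xb u = (S).xb u * (S).ψ₂ M := by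
  refine comm_hom (psi2H ax φ u0 hφ3 p m) ?_ ?_ M
  · intro t
    rw [psi2H_apply, psi2_up, xb_eq]
    exact comm_triple ax (by decide +kernel) (by decide +kernel) (by decide +kernel) _ _ _ _
  · intro t
    rw [psi2H_apply, psi2_lo, xb_eq]
    exact comm_triple ax (by decide +kernel) (by decide +kernel) (by decide +kernel) _ _ _ _

lemma h_c_m (M : SL(2, K)) (u : K) : (S).ψ₂ M * (S).xm u = (S).xm u * (S).ψ₂ M := by
  refine comm_hom (psi2H ax φ u0 hφ3 p m) ?_ ?_ M
  · intro t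
    rw [psi2H_apply, psi2_up, xm_eq]
    exact comm_triple ax (by decide +kernel) (by decide +kernel) (by decide +kernel) _ _ _ _
  · intro t
    rw [psi2H_apply, psi2_lo, xm_eq]
    exact comm_triple ax (by decide +kernel) (by decide +kernel) (by decide +kernel) _ _ _ _

lemma h_v2 (M : SL(2, K)) : cj ((S).v * (S).v) ((S).ψ M) = (S).ψ (dc (-1) M) := by
  have key : cjH (nG ax 14 1 * nG ax 14 1) (psi ax φ) = (psi ax φ).comp (dc (-1)) := by
    apply sl_hom_ext
    · intro t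
      rw [cjH_apply, MonoidHom.comp_apply, dc_up, ← cj_cj, psi_up, psi_up]
      simp only [cj_mul, v18, v13, v12, v19, v16, v15]
      simp
    · intro t
      rw [cjH_apply, MonoidHom.comp_apply, dc_lo, ← cj_cj, psi_lo, psi_lo]
      simp only [cj_mul, v5, v10, v11, v4, v7, v8]
      simp
  exact DFunLike.congr_fun key M

/-! ### The torus -/

lemma fr_dg (r : ℕ) (hr : r < chevD4.nroots) (s : Kˣ) : fr ax r hr (dg s) = tor chevD4 (hW chevD4 r s) := by
  have := fH_of_offdiag' (h := hD) (h2 := hD2) (ax := ax) (hr := hr) (A := dg s) rfl rfl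
  rw [fr, this]
  congr 2
  exact Units.ext rfl

lemma fr_dg_conj (q : ℕ) (hq : q < chevD4.nroots) (s : Kˣ) {r : ℕ} (hr : r < chevD4.nroots) (t : K) :
    cj (fr ax q hq (dg s)) (xG ax r t) = xG ax r (((s ^ pair chevD4 q r : Kˣ) : K) * t) := by
  rw [fr_dg]
  show tor chevD4 _ * _ * (tor chevD4 _)⁻¹ = _
  rw [tor_conj_xG ax hD _ hr, chi_hW hD _ _ hr]

/-- The image of units under `φ`. -/
noncomputable def φu (s : Kˣ) : Kˣ := Units.map (φ : K →* K) s

@[simp] lemma φu_val (s : Kˣ) : ((φu φ s : Kˣ) : K) = φ s := rfl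

lemma psi_dg (s : Kˣ) : psi ax φ (dg s) = fr ax 18 (by decide) (dg s) * fr ax 13 (by decide) (dg (φu φ s)) *
    fr ax 12 (by decide) (dg (φu φ (φu φ s))) := by
  simp [psi, φu]

lemma psi_dg_conj (s : Kˣ) {r : ℕ} (hr : r < chevD4.nroots) {a b c : ℤ} (h18 : pair chevD4 18 r = a) (h13 : pair chevD4 13 r = b)
    (h12 : pair chevD4 12 r = c) (t : K) :
    cj (psi ax φ (dg s)) (xG ax r t) = xG ax r ((s : K) ^ a * (φ s) ^ b * (φ (φ s)) ^ c * t) := by
  rw [psi_dg, ← cj_cj, ← cj_cj, fr_dg_conj ax 12 _ _ hr, fr_dg_conj ax 13 _ _ hr, fr_dg_conj ax 18 _ _ hr, h18, h13, h12]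
  congr 1
  simp only [Units.val_zpow_eq_zpow_val, φu_val]
  ring

lemma N_form (s : Kˣ) : Nm φ s = s * φ s * φ (φ s) := rfl

lemma chi_val (s : Kˣ) : ((chi1 φ s : Kˣ) : K) = (s : K) * (s : K) * (s * φ s * φ (φ s))⁻¹ := by
  simp [chi1, Nm, Units.val_mul, Units.val_inv_eq_inv_val]

lemma s_ne (s : Kˣ) : (s : K) ≠ 0 := s.ne_zero
lemma s_ne1 (s : Kˣ) : φ (s : K) ≠ 0 := (φu φ s).ne_zero
lemma s_ne2 (s : Kˣ) : φ (φ (s : K)) ≠ 0 := (φu φ (φu φ s)).ne_zero

include hφ3 in
lemma chi_fr (s : Kˣ) (a : K) : φ (((chi1 φ s : Kˣ) : K) * a) = φ (s : K) * (s * φ (φ s))⁻¹ * φ a := by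
  have h0 := s_ne s
  have h1 := s_ne1 φ s
  have h2 := s_ne2 φ s
  rw [map_mul, chi_val]
  simp only [map_mul, map_inv₀, hφ3]
  field_simp

include hφ3 in
lemma chi_fr2 (s : Kˣ) (a : K) : φ (φ (((chi1 φ s : Kˣ) : K) * a)) = φ (φ (s : K)) * (s * φ s)⁻¹ * φ (φ a) := by
  have h0 := s_ne s
  have h1 := s_ne1 φ s
  have h2 := s_ne2 φ s
  rw [chi_fr φ hφ3]
  simp only [map_mul, map_inv₀, hφ3]
  field_simp

include hφ3 in
lemma chi_inv0 (s : Kˣ) : ((chi1 φ s : Kˣ) : K)⁻¹ = (s * φ s * φ (φ s)) * ((s : K) * s)⁻¹ := by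
  have h0 := s_ne s
  have h1 := s_ne1 φ s
  have h2 := s_ne2 φ s
  rw [chi_val]
  field_simp

include hφ3 in
lemma chi_inv1 (s : Kˣ) (t : K) : φ (((chi1 φ s : Kˣ) : K)⁻¹ * t) = (s * φ (φ s)) * (φ (s : K))⁻¹ * φ t := by
  have h0 := s_ne s
  have h1 := s_ne1 φ s
  have h2 := s_ne2 φ s
  rw [chi_inv0 φ hφ3]
  simp only [map_mul, map_inv₀, hφ3]
  field_simp

include hφ3 in
lemma chi_inv2 (s : Kˣ) (t : K) : φ (φ (((chi1 φ s : Kˣ) : K)⁻¹ * t)) = (s * φ s) * (φ (φ (s : K)))⁻¹ * φ (φ t) := by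
  have h0 := s_ne s
  have h1 := s_ne1 φ s
  have h2 := s_ne2 φ s
  rw [chi_inv1 φ hφ3]
  simp only [map_mul, map_inv₀, hφ3]
  field_simp

lemma h_tor (s : Kˣ) (M : SL(2, K)) : cj ((S).ψ (dg s)) ((S).ψ₁ M) = (S).ψ₁ (dc (chi1 (S).φ s) M) := by
  have key : cjH (psi ax φ (dg s)) (cjH (nG ax 14 1) (psi ax φ)) = (cjH (nG ax 14 1) (psi ax φ)).comp (dc (chi1 φ s)) := by
    have h0 := s_ne s
    have h1 := s_ne1 φ s
    have h2 := s_ne2 φ s
    apply sl_hom_ext
    · intro t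
      have e2 : ∀ x, cjH (nG ax 14 1) (psi ax φ) (upM x) = (S).ψ₁ (upM x) := fun x => rfl
      rw [cjH_apply, MonoidHom.comp_apply, dc_up, e2, e2, psi1_up, psi1_up, cj_mul, cj_mul,
        psi_dg_conj ax φ s (r := 19) (by decide) (a := 1) (b := -1) (c := -1) (by decide +kernel) (by decide +kernel) (by decide +kernel),
        psi_dg_conj ax φ s (r := 16) (by decide) (a := -1) (b := 1) (c := -1) (by decide +kernel) (by decide +kernel) (by decide +kernel),
        psi_dg_conj ax φ s (r := 15) (by decide) (a := -1) (b := -1) (c := 1) (by decide +kernel) (by decide +kernel) (by decide +kernel)]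
      have A0 : (s : K) ^ (1 : ℤ) * φ (s : K) ^ (-1 : ℤ) * φ (φ (s : K)) ^ (-1 : ℤ) * t = ((chi1 φ s : Kˣ) : K) * t := by
        rw [chi_val]
        simp only [zpow_one, zpow_neg]
        field_simp
      have A1 : (s : K) ^ (-1 : ℤ) * φ (s : K) ^ (1 : ℤ) * φ (φ (s : K)) ^ (-1 : ℤ) * -φ t = -φ (((chi1 φ s : Kˣ) : K) * t) := by
        rw [chi_fr φ hφ3]
        simp only [zpow_one, zpow_neg]
        field_simp
      have A2 : (s : K) ^ (-1 : ℤ) * φ (s : K) ^ (-1 : ℤ) * φ (φ (s : K)) ^ (1 : ℤ) * -φ (φ t) = -φ (φ (((chi1 φ s : Kˣ) : K) * t)) := by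
        rw [chi_fr2 φ hφ3]
        simp only [zpow_one, zpow_neg]
        field_simp
      rw [A0, A1, A2]
    · intro t
      have e2 : ∀ x, cjH (nG ax 14 1) (psi ax φ) (loM x) = (S).ψ₁ (loM x) := fun x => rfl
      rw [cjH_apply, MonoidHom.comp_apply, dc_lo, e2, e2, psi1_lo, psi1_lo, cj_mul, cj_mul,
        psi_dg_conj ax φ s (r := 4) (by decide) (a := -1) (b := 1) (c := 1) (by decide +kernel) (by decide +kernel) (by decide +kernel),
        psi_dg_conj ax φ s (r := 7) (by decide) (a := 1) (b := -1) (c := 1) (by decide +kernel) (by decide +kernel) (by decide +kernel),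
        psi_dg_conj ax φ s (r := 8) (by decide) (a := 1) (b := 1) (c := -1) (by decide +kernel) (by decide +kernel) (by decide +kernel)]
      have A0 : (s : K) ^ (-1 : ℤ) * φ (s : K) ^ (1 : ℤ) * φ (φ (s : K)) ^ (1 : ℤ) * t = ((chi1 φ s : Kˣ) : K)⁻¹ * t := by
        rw [chi_inv0 φ hφ3]
        simp only [zpow_one, zpow_neg]
        field_simp
      have A1 : (s : K) ^ (1 : ℤ) * φ (s : K) ^ (-1 : ℤ) * φ (φ (s : K)) ^ (1 : ℤ) * -φ t = -φ (((chi1 φ s : Kˣ) : K)⁻¹ * t) := by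
        rw [chi_inv1 φ hφ3]
        simp only [zpow_one, zpow_neg]
        field_simp
      have A2 : (s : K) ^ (1 : ℤ) * φ (s : K) ^ (1 : ℤ) * φ (φ (s : K)) ^ (-1 : ℤ) * -φ (φ t) = -φ (φ (((chi1 φ s : Kˣ) : K)⁻¹ * t)) := by
        rw [chi_inv2 φ hφ3]
        simp only [zpow_one, zpow_neg]
        field_simp
      rw [A0, A1, A2]
  exact DFunLike.congr_fun key M

lemma h_C_b (c : Kˣ) (hc : Nu (S).φ c = 1) (u : K) : (S).ψ (dg c) * (S).xb u = (S).xb u * (S).ψ (dg c) := by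
  rw [← cj_eq_self_iff, xb_eq]
  have hN : (c : K) * φ c * φ (φ c) = 1 := congrArg Units.val hc
  have h0 := s_ne c
  have h1 := s_ne1 φ c
  have h2 := s_ne2 φ c
  show cj (psi ax φ (dg c)) _ = _
  rw [psi_dg_conj ax φ c (r := 14) (by decide) (a := -1) (b := -1) (c := -1) (by decide +kernel) (by decide +kernel) (by decide +kernel)]
  congr 1
  simp only [zpow_neg, zpow_one]
  field_simp
  linear_combination (Tr φ u) * hN

lemma h_C_m (c : Kˣ) (hc : Nu (S).φ c = 1) (u : K) : (S).ψ (dg c) * (S).xm u = (S).xm u * (S).ψ (dg c) := by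
  rw [← cj_eq_self_iff, xm_eq]
  have hN : (c : K) * φ c * φ (φ c) = 1 := congrArg Units.val hc
  show cj (psi ax φ (dg c)) _ = _
  rw [psi_dg_conj ax φ c (r := 9) (by decide) (a := 1) (b := 1) (c := 1) (by decide +kernel) (by decide +kernel) (by decide +kernel)]
  congr 1
  simp only [zpow_one]
  rw [hN, one_mul]

/-! ### Uniqueness -/

lemma root_mem {L : List ℕ} {r : ℕ} (hr : r ∈ L) (t : K) : xG ax r t ∈ rootClosure ax (· ∈ L) :=
  xG_mem_rootClosure ax hr t

lemma h_uniq (s u a c r r' : K)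
    (h : (S).ψ (upM s) * (S).xb u * ((S).ψ₁ (upM a) * (S).ψ₂ (upM c) * ((S).xl r * (S).xz r')) = 1) :
    s = 0 ∧ Tr (S).φ u = 0 ∧ a = 0 ∧ c = 0 ∧ Tr (S).φ r = 0 ∧ Tr (S).φ r' = 0 := by
  rw [xb_eq, psi1_up, psi2_up, xl_eq, xz_eq] at h
  replace h : psi ax φ (upM s) * _ * _ = 1 := h
  rw [psi_up] at h
  -- the first coordinate
  have h1 : φ (φ s) = 0 := by
    have c1 := cp ax (K := K) (r := 18) (s := 12) (by decide +kernel) s (φ (φ s))
    have c2 := cp ax (K := K) (r := 13) (s := 12) (by decide +kernel) (φ s) (φ (φ s))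
    have e : xG ax 12 (φ (φ s)) * (xG ax 18 s * xG ax 13 (φ s) * xG ax 14 (-Tr φ u) * (xG ax 19 a * xG ax 16 (-φ a) * xG ax 15 (-φ (φ a)) *
        (xG ax 17 c * xG ax 20 (-φ c) * xG ax 21 (-φ (φ c))) * (xG ax 22 (-Tr φ r) * xG ax 23 (-Tr φ r')))) = 1 := by
      rw [← h]
      calc _ = (xG ax 12 (φ (φ s)) * xG ax 18 s) * xG ax 13 (φ s) * (xG ax 14 (-Tr φ u) * (xG ax 19 a * xG ax 16 (-φ a) * xG ax 15 (-φ (φ a)) *
            (xG ax 17 c * xG ax 20 (-φ c) * xG ax 21 (-φ (φ c))) * (xG ax 22 (-Tr φ r) * xG ax 23 (-Tr φ r')))) := by group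
        _ = xG ax 18 s * (xG ax 12 (φ (φ s)) * xG ax 13 (φ s)) * (xG ax 14 (-Tr φ u) * (xG ax 19 a * xG ax 16 (-φ a) * xG ax 15 (-φ (φ a)) *
            (xG ax 17 c * xG ax 20 (-φ c) * xG ax 21 (-φ (φ c))) * (xG ax 22 (-Tr φ r) * xG ax 23 (-Tr φ r')))) := by rw [← c1]; group
        _ = _ := by rw [← c2]; group
    have hL : ∀ t ∈ [13, 14, 15, 16, 17, 18, 19, 20, 21, 22, 23], chevD4.IsPosRoot t ∧ 12 < t := by decide +kernel
    exact head_eq_zero ax hD hD2 (a := 12) (L := [13, 14, 15, 16, 17, 18, 19, 20, 21, 22, 23]) (by decide +kernel) hL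
      (by
        have R := fun r (hr : r ∈ [13, 14, 15, 16, 17, 18, 19, 20, 21, 22, 23]) t => root_mem ax (K := K) hr t
        refine Subgroup.mul_mem _ (Subgroup.mul_mem _ (Subgroup.mul_mem _ (R _ (by decide) _) (R _ (by decide) _)) (R _ (by decide) _))
          (Subgroup.mul_mem _ (Subgroup.mul_mem _ ?_ ?_) ?_)
        · exact Subgroup.mul_mem _ (Subgroup.mul_mem _ (R _ (by decide) _) (R _ (by decide) _)) (R _ (by decide) _)
        · exact Subgroup.mul_mem _ (Subgroup.mul_mem _ (R _ (by decide) _) (R _ (by decide) _)) (R _ (by decide) _)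
        · exact Subgroup.mul_mem _ (R _ (by decide) _) (R _ (by decide) _))
      (Subgroup.one_mem _) e
  have hs : s = 0 := by
    have := congrArg φ h1
    rw [hφ3, map_zero] at this
    exact this
  subst hs
  simp only [map_zero, xG_zero, mul_one, one_mul] at h
  -- the root `β`
  have h2 : -Tr φ u = 0 := by
    have hL : ∀ t ∈ [15, 16, 17, 19, 20, 21, 22, 23], chevD4.IsPosRoot t ∧ 14 < t := by decide +kernel
    exact head_eq_zero ax hD hD2 (a := 14) (L := [15, 16, 17, 19, 20, 21, 22, 23]) (by decide +kernel) hL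
      (by
        have R := fun r (hr : r ∈ [15, 16, 17, 19, 20, 21, 22, 23]) t => root_mem ax (K := K) hr t
        refine Subgroup.mul_mem _ (Subgroup.mul_mem _ ?_ ?_) ?_
        · exact Subgroup.mul_mem _ (Subgroup.mul_mem _ (R _ (by decide) _) (R _ (by decide) _)) (R _ (by decide) _)
        · exact Subgroup.mul_mem _ (Subgroup.mul_mem _ (R _ (by decide) _) (R _ (by decide) _)) (R _ (by decide) _)
        · exact Subgroup.mul_mem _ (R _ (by decide) _) (R _ (by decide) _))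
      (Subgroup.one_mem _) h
  rw [h2, xG_zero, one_mul] at h
  -- the roots `α + β`
  have h3 : -φ (φ a) = 0 := by
    have c1 := cp ax (K := K) (r := 19) (s := 15) (by decide +kernel) a (-φ (φ a))
    have c2 := cp ax (K := K) (r := 16) (s := 15) (by decide +kernel) (-φ a) (-φ (φ a))
    have e : xG ax 15 (-φ (φ a)) * (xG ax 19 a * xG ax 16 (-φ a) * ((xG ax 17 c * xG ax 20 (-φ c) * xG ax 21 (-φ (φ c))) * (xG ax 22 (-Tr φ r) * xG ax 23 (-Tr φ r')))) = 1 := by
      rw [← h]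
      calc _ = (xG ax 15 (-φ (φ a)) * xG ax 19 a) * xG ax 16 (-φ a) * ((xG ax 17 c * xG ax 20 (-φ c) * xG ax 21 (-φ (φ c))) * (xG ax 22 (-Tr φ r) * xG ax 23 (-Tr φ r'))) := by group
        _ = xG ax 19 a * (xG ax 15 (-φ (φ a)) * xG ax 16 (-φ a)) * ((xG ax 17 c * xG ax 20 (-φ c) * xG ax 21 (-φ (φ c))) * (xG ax 22 (-Tr φ r) * xG ax 23 (-Tr φ r'))) := by rw [← c1]; group
        _ = _ := by rw [← c2]; group
    have hL : ∀ t ∈ [16, 17, 19, 20, 21, 22, 23], chevD4.IsPosRoot t ∧ 15 < t := by decide +kernel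
    exact head_eq_zero ax hD hD2 (a := 15) (L := [16, 17, 19, 20, 21, 22, 23]) (by decide +kernel) hL
      (by
        have R := fun r (hr : r ∈ [16, 17, 19, 20, 21, 22, 23]) t => root_mem ax (K := K) hr t
        refine Subgroup.mul_mem _ (Subgroup.mul_mem _ (R _ (by decide) _) (R _ (by decide) _)) (Subgroup.mul_mem _ ?_ ?_)
        · exact Subgroup.mul_mem _ (Subgroup.mul_mem _ (R _ (by decide) _) (R _ (by decide) _)) (R _ (by decide) _)
        · exact Subgroup.mul_mem _ (R _ (by decide) _) (R _ (by decide) _))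
      (Subgroup.one_mem _) e
  have ha : a = 0 := by
    have h4 : φ (φ a) = 0 := neg_eq_zero.mp h3
    have := congrArg φ h4
    rw [hφ3, map_zero] at this
    exact this
  subst ha
  simp only [map_zero, neg_zero, xG_zero, mul_one, one_mul] at h
  -- the roots `2 α + β`
  have hc : c = 0 := by
    have hL : ∀ t ∈ [20, 21, 22, 23], chevD4.IsPosRoot t ∧ 17 < t := by decide +kernel
    refine head_eq_zero ax hD hD2 (a := 17) (L := [20, 21, 22, 23]) (by decide +kernel) hL (y := xG ax 20 (-φ c) * xG ax 21 (-φ (φ c)) * (xG ax 22 (-Tr φ r) * xG ax 23 (-Tr φ r')))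
      (by
        have R := fun r (hr : r ∈ [20, 21, 22, 23]) t => root_mem ax (K := K) hr t
        exact Subgroup.mul_mem _ (Subgroup.mul_mem _ (R _ (by decide) _) (R _ (by decide) _)) (Subgroup.mul_mem _ (R _ (by decide) _) (R _ (by decide) _)))
      (Subgroup.one_mem _) ?_
    rw [← h]
    group
  subst hc
  simp only [map_zero, neg_zero, xG_zero, mul_one, one_mul] at h
  have hA : -Tr φ r = 0 := by
    have hL : ∀ t ∈ [23], chevD4.IsPosRoot t ∧ 22 < t := by decide +kernel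
    exact head_eq_zero ax hD hD2 (a := 22) (L := [23]) (by decide +kernel) hL (root_mem ax (by decide) _) (Subgroup.one_mem _) h
  rw [hA, xG_zero, one_mul] at h
  have hB : -Tr φ r' = 0 := by
    have hL : ∀ t ∈ ([] : List ℕ), chevD4.IsPosRoot t ∧ 23 < t := by simp
    refine head_eq_zero ax hD hD2 (a := 23) (L := []) (by decide +kernel) hL (Subgroup.one_mem _) (Subgroup.one_mem _) ?_
    rw [mul_one]
    exact h
  exact ⟨rfl, neg_eq_zero.mp h2, rfl, rfl, neg_eq_zero.mp hA, neg_eq_zero.mp hB⟩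

end

end Cfsg.Agent.Lib.SchD4.G
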