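import Cfsg.Agent.Lib.SchD4.G3

/-!
The monomial part of the system of `³D₄`.
-/

set_option autoImplicit false
set_option linter.unusedSectionVars false
set_option linter.unusedVariables false
set_option linter.ambiguousOpen false
set_option linter.unusedSimpArgs false
set_option linter.unusedTactic false
set_option linter.unreachableTactic false
set_option linter.dupNamespace false

namespace Cfsg.Agent.Lib.SchD4.G

open scoped MatrixGroups Matrix
open Cfsg Lie ChevalleyDatum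
open Cfsg.Agent.Lib.Chev
open Tables Tables2 Tables3 Raise Basic AxBasic Torus Products Products2 Mono1 Mono2 Mono3 Bn Diag SL2 SL2Chev
open Cfsg.Agent.Lib.Twisted.Bruhat Cfsg.Agent.Lib.Twisted.D4H Cfsg.Agent.Lib.Twisted.TorusFix
open Cfsg.Agent.Lib.TorD4.Root Cfsg.Agent.Lib.Twisted.Ortho
open Cfsg.Agent.Lib.SchD4.Col
open Cfsg.Agent.Lib.SchD4.Sys (cj cj_mul cj_one cj_inv cj_cj one_cj cj_inv_cj cj_cj_inv map_cj cj_eq_self_iff cj_cm cj_inj cjH cjH_apply Tr Nm Nu chi1 Nu_val)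
open Cfsg.Agent.Lib.SchD4.SL2 (dg n0 dc nn sl_induction sl_hom_ext ext_sl up_add lo_add up_zero lo_zero dg_mul dg_one dc_up dc_lo dc_dg)

universe u

variable {K : Type u} [Field K]

/-- The field part of the injectivity on the torus. -/
lemma tor_field (φ : K →+* K) (hφ3 : ∀ t, φ (φ (φ t)) = t) (s t : Kˣ) (E1 : s * s * chi1 φ t = 1)
    (E2 : Nu φ t = Nu φ s) : Nu φ s = 1 ∧ t = s⁻¹ := by
  have h1 : (s * t) * (s * t) = Nu φ t := by
    have e : s * s * (t * t * (Nu φ t)⁻¹) = 1 := E1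
    calc (s * t) * (s * t) = (s * s * (t * t * (Nu φ t)⁻¹)) * Nu φ t := by
          rw [mul_assoc (s * s), mul_assoc (t * t), inv_mul_cancel, mul_one]
          simp only [mul_assoc, mul_comm, mul_left_comm]
      _ = Nu φ t := by rw [e, one_mul]
  have h2 := congrArg (Nu φ) h1
  rw [Cfsg.Agent.Lib.SchD4.E1.Nu_φ φ hφ3, map_mul, map_mul, E2] at h2
  set e := Nu φ s with he
  have he1 : e = 1 := by
    have h3 : e * e * e * e = e * e * e * 1 := by
      rw [mul_one]
      calc e * e * e * e = e * e * (e * e) := by group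
        _ = _ := h2
    exact mul_left_cancel h3
  refine ⟨he1, ?_⟩
  rw [E2, he1] at h1
  -- `s t = ± 1`
  have hx : ((s * t : Kˣ) : K) = 1 ∨ ((s * t : Kˣ) : K) = -1 := by
    have h3 := congrArg Units.val h1
    simp only [Units.val_mul, Units.val_one] at h3
    have h4 : ((s : K) * t - 1) * ((s : K) * t + 1) = 0 := by linear_combination h3
    rcases mul_eq_zero.mp h4 with h5 | h5
    · left
      simp only [Units.val_mul]
      linear_combination h5
    · right
      simp only [Units.val_mul]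
      linear_combination h5
  have hx1 : s * t = 1 := by
    rcases hx with h | h
    · exact Units.ext h
    · have hu : s * t = -1 := Units.ext (by simpa using h)
      have h5 : Nu φ (s * t) = Nu φ (-1) := congrArg _ hu
      rw [map_mul, E2, ← he, he1, mul_one, Cfsg.Agent.Lib.SchD4.E1.Nu_neg_one] at h5
      rw [hu]
      exact h5.symm
  exact eq_inv_of_mul_eq_one_right hx1

variable (ax : Ax chevD4 K) (φ : K →+* K) (u0 : K) (hφ3 : ∀ t, φ (φ (φ t)) = t) (p m : ℕ)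

local notation "S" => Sy ax φ u0 hφ3 p m

lemma cj_conj {G : Type*} [Group G] (g x y : G) : cj (cj g x) y = cj g (cj x (cj g⁻¹ y)) := by
  simp only [cj]
  group

lemma v_inv_18 (a : K) : cj (nG ax 14 1)⁻¹ (xG ax 18 a) = xG ax 19 (-a) := by
  have := v19 ax (-a)
  rw [neg_neg] at this
  rw [← this, cj_inv_cj]

lemma v_inv_14 (a : K) : cj (nG ax 14 1)⁻¹ (xG ax 14 a) = xG ax 9 (-a) := by
  have := v9 ax (-a)
  rw [neg_neg] at this
  rw [← this, cj_inv_cj]

/-- The action of the second torus on `α`. -/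
lemma psi1_dg_18 (t : Kˣ) (a : K) : cj ((S).ψ₁ (dg t)) (xG ax 18 a) = xG ax 18 (((chi1 φ t : Kˣ) : K) * a) := by
  show cj (cj (nG ax 14 1) (psi ax φ (dg t))) _ = _
  have h0 := s_ne t
  have h1 := s_ne1 φ t
  have h2 := s_ne2 φ t
  rw [cj_conj, v_inv_18, psi_dg_conj ax φ t (r := 19) (by decide) (a := 1) (b := -1) (c := -1) (by decide +kernel) (by decide +kernel) (by decide +kernel), v19, chi_val]
  congr 1
  simp only [zpow_one, zpow_neg]
  field_simp

/-- The action of the second torus on `β`. -/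
lemma psi1_dg_14 (t : Kˣ) (a : K) : cj ((S).ψ₁ (dg t)) (xG ax 14 a) = xG ax 14 ((t * φ t * φ (φ t)) * a) := by
  show cj (cj (nG ax 14 1) (psi ax φ (dg t))) _ = _
  rw [cj_conj, v_inv_14, psi_dg_conj ax φ t (r := 9) (by decide) (a := 1) (b := 1) (c := 1) (by decide +kernel) (by decide +kernel) (by decide +kernel), v9]
  congr 1
  simp only [zpow_one]
  ring

lemma h_tor_inj (s t : Kˣ) (h : (S).ψ (dg s) * (S).ψ₁ (dg t) = 1) : Nu (S).φ s = 1 ∧ t = s⁻¹ := by
  have h0 := s_ne s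
  have h1 := s_ne1 φ s
  have h2 := s_ne2 φ s
  have e18 : xG ax 18 (1 : K) = xG ax 18 ((s : K) ^ (2 : ℤ) * φ (s : K) ^ (0 : ℤ) * φ (φ (s : K)) ^ (0 : ℤ) * (((chi1 φ t : Kˣ) : K) * 1)) := by
    have e := cj_cj ((S).ψ (dg s)) ((S).ψ₁ (dg t)) (xG ax 18 1)
    rw [h, one_cj, psi1_dg_18] at e
    rw [← e]
    show cj (psi ax φ (dg s)) _ = _
    rw [psi_dg_conj ax φ s (r := 18) (by decide) (a := 2) (b := 0) (c := 0) (by decide +kernel) (by decide +kernel) (by decide +kernel)]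
  have e14 : xG ax 14 (1 : K) = xG ax 14 ((s : K) ^ (-1 : ℤ) * φ (s : K) ^ (-1 : ℤ) * φ (φ (s : K)) ^ (-1 : ℤ) * ((t * φ t * φ (φ t)) * 1)) := by
    have e := cj_cj ((S).ψ (dg s)) ((S).ψ₁ (dg t)) (xG ax 14 1)
    rw [h, one_cj, psi1_dg_14] at e
    rw [← e]
    show cj (psi ax φ (dg s)) _ = _
    rw [psi_dg_conj ax φ s (r := 14) (by decide) (a := -1) (b := -1) (c := -1) (by decide +kernel) (by decide +kernel) (by decide +kernel)]
  have e1 := (xG_eq_iff ax hD hD2 (by decide) (by decide) one_ne_zero e18).2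
  have e2 := (xG_eq_iff ax hD hD2 (by decide) (by decide) one_ne_zero e14).2
  refine tor_field φ hφ3 s t ?_ ?_
  · apply Units.ext
    simp only [Units.val_mul, Units.val_one]
    have : (s : K) ^ (2 : ℤ) = s * s := by
      rw [zpow_two]
    simp only [this, zpow_zero, mul_one] at e1
    exact e1.symm
  · apply Units.ext
    show (t : K) * φ t * φ (φ t) = s * φ s * φ (φ s)
    simp only [zpow_neg, zpow_one, mul_one] at e2
    field_simp at e2
    exact e2.symm

/-! ### Words in the Weyl group -/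

/-- The word for `(w v)^k`. -/
def lw : ℕ → List ℕ
  | 0 => []
  | k + 1 => lw k ++ [0, 2, 3, 1]

/-- The word for `w^δ`. -/
def ld : ℕ → List ℕ
  | 0 => []
  | k + 1 => ld k ++ [0, 2, 3]

lemma nw_w : nw chevD4 ax [0, 2, 3] = nW ax := by
  have e0 : chevD4.simple 0 = 18 := by decide +kernel
  have e2 : chevD4.simple 2 = 13 := by decide +kernel
  have e3 : chevD4.simple 3 = 12 := by decide +kernel
  simp only [nw, List.map_cons, List.map_nil, List.prod_cons, List.prod_nil, mul_one, sG, e0, e2, e3, nW, mul_assoc]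

lemma nw_v : nw chevD4 ax [1] = nG ax 14 1 := by
  have e1 : chevD4.simple 1 = 14 := by decide +kernel
  simp only [nw, List.map_cons, List.map_nil, List.prod_cons, List.prod_nil, mul_one, sG, e1]

lemma nw_lw (k : ℕ) : nw chevD4 ax (lw k) = (nW ax * nG ax 14 1) ^ k := by
  induction k with
  | zero => simp [lw]
  | succ k ih =>
    rw [lw, nw_append, ih, pow_succ]
    congr 1
    have : ([0, 2, 3, 1] : List ℕ) = [0, 2, 3] ++ [1] := rfl
    rw [this, nw_append, nw_w, nw_v]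

lemma nw_ld (k : ℕ) : nw chevD4 ax (ld k) = nW ax ^ k := by
  induction k with
  | zero => simp [ld]
  | succ k ih =>
    rw [ld, nw_append, ih, pow_succ, nw_w]

/-- The check. -/
theorem word_check : ∀ k : Fin 6, ∀ δ : Fin 2, (∀ s : Fin 24, wWord chevD4 (lw k ++ ld δ) s = s) → k = 0 ∧ δ = 0 := by
  decide +kernel

theorem word_lt : ∀ k : Fin 6, ∀ δ : Fin 2, ∀ i ∈ lw k ++ ld δ, i < chevD4.rank := by
  decide +kernel

lemma isNor_psi_dg (s : Kˣ) : ∃ c, IsNor hD ax (psi ax φ (dg s)) (1 * 1 * 1) c := by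
  rw [psi_dg, fr_dg, fr_dg, fr_dg]
  exact ⟨_, ((isNor_tor hD ax _).mul hD ax (isNor_tor hD ax _)).mul hD ax (isNor_tor hD ax _)⟩

lemma h_word (s t : Kˣ) (k δ : ℕ) (hk : k < 6) (hδ : δ < 2)
    (h : (S).ψ (dg s) * (S).ψ₁ (dg t) * ((S).w * (S).v) ^ k * (S).w ^ δ = 1) : k = 0 ∧ δ = 0 := by
  rw [S_w] at h
  have hv : (S).v = nG ax 14 1 := rfl
  rw [hv, ← nw_lw, ← nw_ld] at h
  obtain ⟨c0, H0⟩ := isNor_psi_dg ax φ s
  obtain ⟨c1, H1⟩ := isNor_psi_dg ax φ t
  obtain ⟨cv, Hv⟩ := exists_isNor_nw hD hD2 ax (F := K) (l := [1]) (by decide +kernel)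
  rw [nw_v] at Hv
  have hlt1 : ∀ i ∈ lw k, i < chevD4.rank := fun i hi => word_lt ⟨k, hk⟩ ⟨δ, hδ⟩ i (List.mem_append_left _ hi)
  have hlt2 : ∀ i ∈ ld δ, i < chevD4.rank := fun i hi => word_lt ⟨k, hk⟩ ⟨δ, hδ⟩ i (List.mem_append_right _ hi)
  obtain ⟨ck, Hk⟩ := exists_isNor_nw hD hD2 ax (F := K) hlt1
  obtain ⟨cd, Hd⟩ := exists_isNor_nw hD hD2 ax (F := K) hlt2
  have H := ((H0.mul hD ax ((Hv.mul hD ax H1).mul hD ax (Hv.inv hD ax))).mul hD ax Hk).mul hD ax Hd
  have e : psi ax φ (dg s) * (nG ax 14 1 * psi ax φ (dg t) * (nG ax 14 1)⁻¹) * nw chevD4 ax (lw k) * nw chevD4 ax (ld δ) = 1 := h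
  rw [e] at H
  have hπ := (IsNor.unique hD ax hD2 H (IsNor.one hD ax)).1
  have hπ2 : wPw hD (lw k) * wPw hD (ld δ) = 1 := by
    have : (1 * 1 * 1 : Equiv.Perm (Fin chevD4.nroots)) * (wPw hD [1] * (1 * 1 * 1) * (wPw hD [1])⁻¹) * wPw hD (lw k) * wPw hD (ld δ) =
        wPw hD (lw k) * wPw hD (ld δ) := by
      simp
    rw [← this]
    exact hπ
  rw [← wPw_append] at hπ2
  have key := word_check ⟨k, hk⟩ ⟨δ, hδ⟩ (by
    intro r
    have h1 := wPw_val hD (l := lw k ++ ld δ) (fun i hi => word_lt ⟨k, hk⟩ ⟨δ, hδ⟩ i hi) r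
    rw [hπ2] at h1
    exact h1.symm)
  exact ⟨congrArg Fin.val key.1, congrArg Fin.val key.2⟩

end Cfsg.Agent.Lib.SchD4.G
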