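import Cfsg.Agent.Lib.SchD4.G4

/-!
The field facts for the system of `³D₄`.
-/

set_option autoImplicit false
set_option linter.unusedSectionVars false
set_option linter.unusedVariables false
set_option linter.ambiguousOpen false
set_option linter.unusedSimpArgs false
set_option linter.unusedTactic false
set_option linter.unreachableTactic false
set_option linter.dupNamespace false

namespace Cfsg.Agent.Lib.SchD4.G

open Cfsg.Agent.Lib.SchD4.Sys (Tr Nm Nu chi1 Nu_val)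

universe u

/-! ### Numbers -/

lemma cop_d (q : ℕ) (hq : 2 ≤ q) : Nat.Coprime (q ^ 2 + q - 1) (q ^ 3 - 1) := by
  obtain ⟨r, rfl⟩ : ∃ r, q = r + 2 := ⟨q - 2, by omega⟩
  have e1 : (r + 2) ^ 2 + (r + 2) - 1 = r ^ 2 + 5 * r + 5 := by
    have : (r + 2) ^ 2 + (r + 2) = r ^ 2 + 5 * r + 6 := by ring
    omega
  have e2 : (r + 2) ^ 3 - 1 = r ^ 3 + 6 * r ^ 2 + 12 * r + 7 := by
    have : (r + 2) ^ 3 = r ^ 3 + 6 * r ^ 2 + 12 * r + 8 := by ring
    omega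
  rw [e1, e2]
  -- `d` is odd
  obtain ⟨k, hk⟩ : ∃ k, r ^ 2 + 5 * r + 6 = 2 * k := by
    have : Even ((r + 2) * (r + 2 + 1)) := Nat.even_mul_succ_self (r + 2)
    obtain ⟨k, hk⟩ := this
    exact ⟨k, by nlinarith⟩
  rw [← Nat.isCoprime_iff_coprime]
  -- `1 = a d + b 2` with `a = -1`, `b = k`; `2 = d A - (q + 2) N`.
  set Q : ℤ := (r : ℤ) + 2 with hQ
  set K : ℤ := (k : ℤ) with hK
  have hk' : Q * (Q + 1) = 2 * K := by
    have : ((r : ℤ) ^ 2 + 5 * r + 6) = 2 * k := by exact_mod_cast hk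
    rw [hQ, hK]
    linarith [this]
  have hd : ((r ^ 2 + 5 * r + 5 : ℕ) : ℤ) = Q ^ 2 + Q - 1 := by
    push_cast
    rw [hQ]
    ring
  have hN : ((r ^ 3 + 6 * r ^ 2 + 12 * r + 7 : ℕ) : ℤ) = Q ^ 3 - 1 := by
    push_cast
    rw [hQ]
    ring
  rw [hd, hN]
  refine ⟨-1 + K * (2 + (Q + 2) * (Q - 1)), -(K * (Q + 2)), ?_⟩
  have h1 : 2 * K - (Q ^ 2 + Q - 1) = 1 := by linear_combination -hk'
  have h2 : 2 = (Q ^ 2 + Q - 1) * (2 + (Q + 2) * (Q - 1)) - (Q + 2) * (Q ^ 3 - 1) := by ring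
  linear_combination h1 - K * h2

lemma cop_e (q : ℕ) (hq : 2 ≤ q) : Nat.Coprime (q ^ 2 + q - 3) (q ^ 3 - 1) := by
  obtain ⟨r, rfl⟩ : ∃ r, q = r + 2 := ⟨q - 2, by omega⟩
  have e1 : (r + 2) ^ 2 + (r + 2) - 3 = r ^ 2 + 5 * r + 3 := by
    have : (r + 2) ^ 2 + (r + 2) = r ^ 2 + 5 * r + 6 := by ring
    omega
  have e2 : (r + 2) ^ 3 - 1 = r ^ 3 + 6 * r ^ 2 + 12 * r + 7 := by
    have : (r + 2) ^ 3 = r ^ 3 + 6 * r ^ 2 + 12 * r + 8 := by ring
    omega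
  rw [e1, e2]
  obtain ⟨k, hk⟩ : ∃ k, r ^ 2 + 5 * r + 6 = 2 * k := by
    have : Even ((r + 2) * (r + 2 + 1)) := Nat.even_mul_succ_self (r + 2)
    obtain ⟨k, hk⟩ := this
    exact ⟨k, by nlinarith⟩
  rw [← Nat.isCoprime_iff_coprime]
  set Q : ℤ := (r : ℤ) + 2 with hQ
  set K : ℤ := (k : ℤ) with hK
  have hk' : Q * (Q + 1) = 2 * K := by
    have : ((r : ℤ) ^ 2 + 5 * r + 6) = 2 * k := by exact_mod_cast hk
    rw [hQ, hK]
    linarith [this]
  have hd : ((r ^ 2 + 5 * r + 3 : ℕ) : ℤ) = Q ^ 2 + Q - 3 := by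
    push_cast
    rw [hQ]
    ring
  have hN : ((r ^ 3 + 6 * r ^ 2 + 12 * r + 7 : ℕ) : ℤ) = Q ^ 3 - 1 := by
    push_cast
    rw [hQ]
    ring
  rw [hd, hN]
  -- `e = 2 K - 3`; `1 = (e ... )`: from `4 = (q+2) N - ((q+2)(q-1) + 4) e`, and `2 * (K - 1) - e = 1`,
  -- so `1 = (2 (K-1) - e)^2 = 4 (K-1)^2 - e (...)`.
  set e : ℤ := Q ^ 2 + Q - 3 with he
  have h1 : 2 * (K - 1) - e = 1 := by
    rw [he]
    linear_combination -hk'
  have h2 : 4 = (Q + 2) * (Q ^ 3 - 1) - ((Q + 2) * (Q - 1) + 4) * e := by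
    rw [he]
    ring
  refine ⟨e - 4 * (K - 1) - (K - 1) ^ 2 * ((Q + 2) * (Q - 1) + 4), (K - 1) ^ 2 * (Q + 2), ?_⟩
  have h3 : (2 * (K - 1) - e) ^ 2 = 1 := by rw [h1]; ring
  linear_combination h3 - (K - 1) ^ 2 * h2

variable {K : Type u} [Field K] [Fintype K] {q : ℕ} (hq : IsPrimePow q) (hK : Fintype.card K = q ^ 3)
  (φ : K →+* K) (hφ : ∀ t, φ t = t ^ q) (hφ3 : ∀ t, φ (φ (φ t)) = t)

include hq in
lemma two_le_q : 2 ≤ q := hq.two_le

lemma card_units_K [DecidableEq K] (hK : Fintype.card K = q ^ 3) : Fintype.card Kˣ = q ^ 3 - 1 := by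
  rw [Fintype.card_units, hK]

include hφ in
lemma Nu_eq (s : Kˣ) : Nu φ s = s ^ (q ^ 2 + q + 1) := by
  apply Units.ext
  rw [Nu_val, Nm, hφ, hφ]
  simp only [Units.val_pow_eq_pow_val]
  ring

include hφ in
lemma chi1_eq (hq : 2 ≤ q) (s : Kˣ) : chi1 φ s = (s ^ (q ^ 2 + q - 1))⁻¹ := by
  rw [chi1, Nu_eq φ hφ]
  have e : q ^ 2 + q + 1 = (q ^ 2 + q - 1) + 2 := by
    have : 1 ≤ q ^ 2 + q := by nlinarith
    omega
  rw [e, pow_add, ← pow_two, mul_inv]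
  rw [mul_comm, mul_assoc, mul_comm, mul_assoc]
  simp

include hφ in
lemma chi2_eq (hq : 2 ≤ q) (s : Kˣ) : s * s * chi1 φ s = (s ^ (q ^ 2 + q - 3))⁻¹ := by
  rw [chi1, Nu_eq φ hφ]
  have e : q ^ 2 + q + 1 = (q ^ 2 + q - 3) + 4 := by
    have : 3 ≤ q ^ 2 + q := by nlinarith
    omega
  rw [e, pow_add, mul_inv]
  have e4 : (s ^ 4)⁻¹ * (s * s * (s * s)) = 1 := by
    rw [inv_mul_eq_one]
    simp only [pow_succ, pow_zero, one_mul, mul_assoc]
  calc s * s * (s * s * ((s ^ (q ^ 2 + q - 3))⁻¹ * (s ^ 4)⁻¹))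
      = (s ^ (q ^ 2 + q - 3))⁻¹ * ((s ^ 4)⁻¹ * (s * s * (s * s))) := by
        simp only [mul_assoc, mul_comm, mul_left_comm]
    _ = _ := by rw [e4, mul_one]

lemma q_fact (hq : 1 ≤ q) : (q - 1) * (q ^ 2 + q + 1) = q ^ 3 - 1 := by
  obtain ⟨r, rfl⟩ : ∃ r, q = r + 1 := ⟨q - 1, by omega⟩
  have : (r + 1) ^ 3 = r * ((r + 1) ^ 2 + (r + 1) + 1) + 1 := by ring
  rw [this]
  simp

include hK in
lemma exists_gen : ∃ g : Kˣ, orderOf g = q ^ 3 - 1 ∧ ∀ x : Kˣ, ∃ i : ℕ, g ^ i = x := by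
  classical
  obtain ⟨g, hg⟩ := IsCyclic.exists_generator (α := Kˣ)
  refine ⟨g, ?_, ?_⟩
  · rw [orderOf_eq_card_of_forall_mem_zpowers hg, Nat.card_eq_fintype_card, card_units_K hK]
  · intro x
    exact mem_powers_iff_mem_zpowers.mpr (hg x)

include hK in
lemma pow_m (s : Kˣ) : s ^ (q ^ 3 - 1) = 1 := by
  classical
  rw [← card_units_K hK]
  exact pow_card_eq_one

include hK in
lemma pow_surj {n : ℕ} (hc : Nat.Coprime n (q ^ 3 - 1)) (x : Kˣ) : ∃ s : Kˣ, s ^ n = x := by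
  classical
  have h : (Nat.card Kˣ).Coprime n := by
    rw [Nat.card_eq_fintype_card, card_units_K hK]
    exact hc.symm
  exact ⟨(powCoprime h).symm x, (powCoprime h).apply_symm_apply x⟩

include hK in
lemma exists_char (hq : IsPrimePow q) : ∃ p : ℕ, p.Prime ∧ (p : K) = 0 ∧ Nat.Coprime p (q ^ 3 - 1) := by
  obtain ⟨p, k, hp, hk, rfl⟩ := hq
  have hp' : p.Prime := hp.nat_prime
  refine ⟨p, hp', ?_, ?_⟩
  · have h := FiniteField.cast_card_eq_zero K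
    rw [hK] at h
    push_cast at h
    exact pow_eq_zero_iff (by positivity) |>.1 (pow_eq_zero_iff (by positivity) |>.1 h)
  · rw [Nat.Prime.coprime_iff_not_dvd hp']
    intro hd
    have h1 : p ∣ (p ^ k) ^ 3 := dvd_pow (dvd_pow_self p (by omega)) (by norm_num)
    have h2 : 1 ≤ (p ^ k) ^ 3 := Nat.one_le_iff_ne_zero.2 (pow_ne_zero _ (pow_ne_zero _ hp'.ne_zero))
    have h3 : (p ^ k) ^ 3 = ((p ^ k) ^ 3 - 1) + 1 := by omega
    rw [h3] at h1
    have h4 := (Nat.dvd_add_right hd).1 h1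
    exact hp'.one_lt.ne' (Nat.dvd_one.1 h4)

include hq hK hφ in
lemma h_c0_K : ∃ c : Kˣ, Nu φ c = 1 ∧ c * c ≠ 1 := by
  obtain ⟨g, hg, -⟩ := exists_gen hK
  have hq2 := hq.two_le
  refine ⟨g ^ (q - 1), ?_, ?_⟩
  · rw [Nu_eq φ hφ, ← pow_mul, q_fact (by omega), ← hg, pow_orderOf_eq_one]
  · intro h
    rw [← pow_add, ← orderOf_dvd_iff_pow_eq_one, hg, ← q_fact (by omega)] at h
    have h1 : 0 < q - 1 := by omega
    have h2 := Nat.le_of_dvd (by omega) h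
    have h3 : q - 1 + (q - 1) = (q - 1) * 2 := by ring
    rw [h3] at h2
    have h4 := Nat.le_of_mul_le_mul_left h2 h1
    nlinarith

include hq hK hφ in
lemma h_chi_K (l : Kˣ) : ∃ s, chi1 φ s = l := by
  have hq2 := hq.two_le
  obtain ⟨s, hs⟩ := pow_surj hK (cop_d q hq2) l⁻¹
  exact ⟨s, by rw [chi1_eq φ hφ hq2, hs, inv_inv]⟩

include hq hK hφ in
lemma h_bal_K (l : Kˣ) : ∃ s, s * s * chi1 φ s = l := by
  have hq2 := hq.two_le
  obtain ⟨s, hs⟩ := pow_surj hK (cop_e q hq2) l⁻¹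
  exact ⟨s, by rw [chi2_eq φ hφ hq2, hs, inv_inv]⟩

include hq hK hφ in
lemma h_φ_K : ∃ w : K, φ w ≠ w := by
  obtain ⟨g, hg, -⟩ := exists_gen hK
  have hq2 := hq.two_le
  refine ⟨g, ?_⟩
  rw [hφ]
  intro h
  have h1 : g ^ q = g := Units.ext (by simpa using h)
  have h2 : g ^ (q - 1) = 1 := by
    have e : q = (q - 1) + 1 := by omega
    rw [e, pow_succ] at h1
    simpa using h1
  rw [← orderOf_dvd_iff_pow_eq_one, hg, ← q_fact (by omega)] at h2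
  have h3 := Nat.le_of_dvd (by omega) h2
  have h4 : q - 1 ≥ 1 := by omega
  nlinarith

include hq hK hφ in
lemma h_N_K (e : K) (h : φ e = e) (he : e ≠ 0) : ∃ s : Kˣ, Nm φ s = e := by
  obtain ⟨g, hg, hgen⟩ := exists_gen hK
  have hq2 := hq.two_le
  obtain ⟨i, hi⟩ := hgen (Units.mk0 e he)
  have h1 : (g ^ i) ^ q = g ^ i := by
    rw [hi]
    apply Units.ext
    simp only [Units.val_pow_eq_pow_val, Units.val_mk0]
    rw [← hφ, h]
  have h2 : (g ^ i) ^ (q - 1) = 1 := by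
    have e : q = (q - 1) + 1 := by omega
    rw [e, pow_succ] at h1
    simpa using h1
  rw [← pow_mul, ← orderOf_dvd_iff_pow_eq_one, hg, ← q_fact (by omega), mul_comm i] at h2
  have h3 := Nat.dvd_of_mul_dvd_mul_left (by omega) h2
  obtain ⟨j, rfl⟩ := h3
  refine ⟨g ^ j, ?_⟩
  have h4 : Nu φ (g ^ j) = Units.mk0 e he := by
    rw [Nu_eq φ hφ, ← hi, ← pow_mul, mul_comm]
  exact congrArg Units.val h4

include hq hK hφ in
lemma h_tr_K : ∃ θ : K, Tr φ θ ≠ 0 := by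
  classical
  by_contra hcon
  push Not at hcon
  have hq2 := hq.two_le
  set P : Polynomial K := Polynomial.X ^ (q ^ 2) + Polynomial.X ^ q + Polynomial.X with hP
  have hq3 : q < q ^ 2 := by nlinarith
  have hdeg : P.natDegree ≤ q ^ 2 := by
    rw [hP]
    refine (Polynomial.natDegree_add_le _ _).trans (max_le ((Polynomial.natDegree_add_le _ _).trans (max_le ?_ ?_)) ?_)
    · exact Polynomial.natDegree_X_pow_le _
    · exact (Polynomial.natDegree_X_pow_le _).trans hq3.le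
    · exact Polynomial.natDegree_X_le.trans (by nlinarith)
  have hlt : P.natDegree < Fintype.card K := by
    rw [hK]
    refine lt_of_le_of_lt hdeg ?_
    nlinarith
  have hzero : P = 0 := by
    refine Polynomial.eq_zero_of_natDegree_lt_card_of_eval_eq_zero P (f := id) Function.injective_id ?_ hlt
    intro t
    have h := hcon t
    rw [Tr, hφ, hφ] at h
    simp only [id, hP, Polynomial.eval_add, Polynomial.eval_pow, Polynomial.eval_X]
    rw [← h, pow_two, pow_mul]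
    ring
  have hc := congrArg (fun P => Polynomial.coeff P (q ^ 2)) hzero
  simp only [hP, Polynomial.coeff_add, Polynomial.coeff_X_pow, Polynomial.coeff_X, Polynomial.coeff_zero] at hc
  have h5 : q ^ 2 ≠ q := hq3.ne'
  have h6 : 1 ≠ q ^ 2 := by nlinarith
  simp [h5, h6] at hc

lemma Tr_mul_fix (t θ : K) (h : φ t = t) : Tr φ (t * θ) = t * Tr φ θ := by
  simp only [Tr, map_mul, h]
  ring

include hq hK hφ hφ3 in
lemma exists_θ : ∃ θ : K, Tr φ θ = 1 := by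
  obtain ⟨θ, hθ⟩ := h_tr_K hq hK φ hφ
  refine ⟨(Tr φ θ)⁻¹ * θ, ?_⟩
  rw [Tr_mul_fix φ _ _ (by rw [map_inv₀, Tr_fix φ hφ3]), inv_mul_cancel₀ hθ]

include hq hK hφ hφ3 in
lemma exists_u0 : ∃ u0 : K, Tr φ u0 = -1 := by
  obtain ⟨θ, hθ⟩ := exists_θ hq hK φ hφ hφ3
  exact ⟨-1 * θ, by rw [Tr_mul_fix φ _ _ (by simp), hθ, mul_one]⟩

end Cfsg.Agent.Lib.SchD4.G
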