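import Cfsg.Agent.Lib.SchD4.G5
import Cfsg.Agent.Lib.SchD4.E8
import Cfsg.Agent.Lib.Schur.Stem

/-!
The Schur multiplier of `³D₄(q)` is trivial.
-/

set_option autoImplicit false
set_option linter.unusedSectionVars false
set_option linter.unusedVariables false
set_option linter.ambiguousOpen false
set_option linter.unusedSimpArgs false
set_option linter.unusedTactic false
set_option linter.unreachableTactic false
set_option linter.dupNamespace false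

namespace Cfsg.Agent.Lib.SchD4.G

open scoped MatrixGroups Matrix
open Cfsg Lie ChevalleyDatum
open Cfsg.Agent.Lib.Chev
open Tables Tables2 Tables3 Raise Basic AxBasic Torus Products Products2 Mono1 Mono2 Mono3 Bn Diag SL2 SL2Chev
open Cfsg.Agent.Lib.Twisted.Bruhat Cfsg.Agent.Lib.Twisted.D4H Cfsg.Agent.Lib.Twisted.TorusFix
open Cfsg.Agent.Lib.TorD4.Root Cfsg.Agent.Lib.Twisted.Ortho
open Cfsg.Agent.Lib.SchD4.Col
open Cfsg.Agent.Lib.SchD4.Sys (Sys cj cj_mul cj_one cj_inv cj_cj one_cj cj_inv_cj cj_cj_inv map_cj cj_eq_self_iff cj_cm cj_inj cjH cjH_apply Tr Nm Nu chi1 Nu_val)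
open Cfsg.Agent.Lib.SchD4.SL2 (dg n0 dc nn sl_induction sl_hom_ext ext_sl up_add lo_add up_zero lo_zero dg_mul dg_one dc_up dc_lo dc_dg exists_lift)
open Cfsg.Agent.Lib.SchD4.E1

universe u

variable {K : Type u} [Field K]

section sys

variable [Fintype K] {q : ℕ} (hq : IsPrimePow q) (hK : Fintype.card K = q ^ 3)
  (ax : Ax chevD4 K) (φ : K →+* K) (hφ : ∀ t, φ t = t ^ q) (hφ3 : ∀ t, φ (φ (φ t)) = t) (u0 : K)
  (hu0 : Tr φ u0 = -1) (p : ℕ) (hp : p.Prime) (hpK : (p : K) = 0) (hpm : Nat.Coprime p (q ^ 3 - 1))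

local notation "S" => Sy ax φ u0 hφ3 p (q ^ 3 - 1)

include hq hK hφ hu0 hp hpK hpm in
theorem axSy : Sys.Ax (S) where
  add_z := h_add_z ax φ u0 hφ3 p _
  heps := Or.inr rfl
  hkap := Or.inl rfl
  hp := hp
  hpK := hpK
  hm := pow_m hK
  hpm := hpm
  h_c0 := h_c0_K hq hK φ hφ
  h_chi := h_chi_K hq hK φ hφ
  h_φ := h_φ_K hq hK φ hφ
  h_tr := h_tr_K hq hK φ hφ
  v_eq := h_v_eq ax φ u0 hφ3 p _ hu0
  h_R4 := h_R4 ax φ u0 hφ3 p _
  h_uniq := h_uniq ax φ u0 hφ3 p _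
  h_bal := h_bal_K hq hK φ hφ
  h_R2 := h_R2 ax φ u0 hφ3 p _
  h_v2 := h_v2 ax φ u0 hφ3 p _
  h_c_b := h_c_b ax φ u0 hφ3 p _
  h_c_m := h_c_m ax φ u0 hφ3 p _
  h_tor := h_tor ax φ u0 hφ3 p _
  h_C_b := h_C_b ax φ u0 hφ3 p _
  h_C_m := h_C_m ax φ u0 hφ3 p _
  h_R1 := h_R1 ax φ u0 hφ3 p _
  h_ψ_z := h_ψ_z ax φ u0 hφ3 p _
  h_ψ_f9 := h_ψ_f9 ax φ u0 hφ3 p _
  h_1_z := h_1_z ax φ u0 hφ3 p _
  h_2_z := h_2_z ax φ u0 hφ3 p _
  h_1_l := h_1_l ax φ u0 hφ3 p _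
  h_2_l := h_2_l ax φ u0 hφ3 p _
  h_1_b := h_1_b ax φ u0 hφ3 p _
  h_0_l := h_0_l ax φ u0 hφ3 p _

lemma nW_mem_mono : nW ax ∈ chevD4.monomialSubgroup K := by
  rw [monomial_eq_monoS hD hD2 ax, nW]
  exact mul_mem (mul_mem (nG_mem_monoS hD hD2 ax (by decide) one_ne_zero)
    (nG_mem_monoS hD hD2 ax (by decide) one_ne_zero)) (nG_mem_monoS hD hD2 ax (by decide) one_ne_zero)

lemma v_mem_mono : nG ax 14 (1 : K) ∈ chevD4.monomialSubgroup K := by
  rw [monomial_eq_monoS hD hD2 ax]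
  exact nG_mem_monoS hD hD2 ax (by decide) one_ne_zero

lemma fr_dg_mem {r : ℕ} (hr : r < chevD4.nroots) (s : Kˣ) : fr ax r hr (dg s) ∈ chevD4.monomialSubgroup K := by
  rw [fr_dg, ← hG_eq_tor ax hD hr s]
  exact (le_sup_left : chevD4.diagonalSubgroup K ≤ _) (hG_mem_diagonal ax hr s.ne_zero)

lemma psi_dg_mem (s : Kˣ) : psi ax φ (dg s) ∈ chevD4.monomialSubgroup K := by
  rw [psi_dg]
  exact mul_mem (mul_mem (fr_dg_mem ax _ _) (fr_dg_mem ax _ _)) (fr_dg_mem ax _ _)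

include hq hK hφ hu0 in
theorem ax2Sy : Ax2 (S) (chevD4.posUnipotent K) (chevD4.monomialSubgroup K) where
  h_N := h_N_K hq hK φ hφ
  h_u0 := by
    show Tr φ u0 ≠ 0
    rw [hu0]
    exact neg_ne_zero.2 one_ne_zero
  h_UN := U_inf_monomial hD hD2 ax
  h_U0 s := by
    show psi ax φ (upM s) ∈ _
    rw [psi_up]
    exact mul_mem (mul_mem (xG_mem_U ax (by decide +kernel) _) (xG_mem_U ax (by decide +kernel) _)) (xG_mem_U ax (by decide +kernel) _)
  h_U1 s := by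
    rw [psi1_up]
    exact mul_mem (mul_mem (xG_mem_U ax (by decide +kernel) _) (xG_mem_U ax (by decide +kernel) _)) (xG_mem_U ax (by decide +kernel) _)
  h_U2 s := by
    rw [psi2_up]
    exact mul_mem (mul_mem (xG_mem_U ax (by decide +kernel) _) (xG_mem_U ax (by decide +kernel) _)) (xG_mem_U ax (by decide +kernel) _)
  h_Ub u := by
    rw [xb_eq]
    exact xG_mem_U ax (by decide +kernel) _
  h_Ul u := by
    rw [xl_eq]
    exact xG_mem_U ax (by decide +kernel) _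
  h_Uz u := by
    rw [xz_eq]
    exact xG_mem_U ax (by decide +kernel) _
  h_N0 s := psi_dg_mem ax φ s
  h_N1 s := by
    show nG ax 14 1 * psi ax φ (dg s) * (nG ax 14 1)⁻¹ ∈ _
    exact mul_mem (mul_mem (v_mem_mono ax) (psi_dg_mem ax φ s)) (inv_mem (v_mem_mono ax))
  h_Nw := by
    rw [S_w]
    exact nW_mem_mono ax
  h_Nv := v_mem_mono ax
  h_tor_inj := h_tor_inj ax φ u0 hφ3 p _
  h_word := h_word ax φ u0 hφ3 p _

end sys

section final

variable [Fintype K] {q : ℕ} (hK : Fintype.card K = q ^ 3)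
  (ax : Ax chevD4 K) (φ : K →+* K) (hφ : ∀ t, φ t = t ^ q) (hφ3 : ∀ t, φ (φ (φ t)) = t) (u0 : K)
  (p m : ℕ)

local notation "S" => Sy ax φ u0 hφ3 p m

include hφ in
lemma pow_q2' (t : K) : t ^ (q ^ 2) = φ (φ t) := by
  rw [hφ, hφ, pow_two, pow_mul]

include hφ in
lemma psi_up_mem (s : K) : psi ax φ (upM s) ∈ twistedD4 K q := by
  have h := mem_triple (q := q) ax (rs := (18, 13, 12)) (by simp [d4p1, d4p3, d4p4]) s
  rw [psi_up, hφ s, hφ (s ^ q)]
  simp only at h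
  rwa [pow_q2' φ hφ, hφ s, hφ (s ^ q)] at h

include hφ in
lemma psi_lo_mem (s : K) : psi ax φ (loM s) ∈ twistedD4 K q := by
  have h := mem_triple (q := q) ax (rs := (5, 10, 11)) (by simp [d4m1, d4m3, d4m4]) s
  rw [psi_lo, hφ s, hφ (s ^ q)]
  simp only at h
  rwa [pow_q2' φ hφ, hφ s, hφ (s ^ q)] at h

include hφ in
lemma psi_mem (M : SL(2, K)) : psi ax φ M ∈ twistedD4 K q := by
  refine sl_induction (P := fun M => psi ax φ M ∈ twistedD4 K q) ?_ (psi_up_mem ax φ hφ) (psi_lo_mem ax φ hφ) ?_ M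
  · rw [map_one]
    exact one_mem _
  · intro a b ha hb
    rw [map_mul]
    exact mul_mem ha hb

include hφ hφ3 in
lemma Tr_pow (u : K) : (Tr φ u) ^ q = Tr φ u := by
  rw [← hφ]
  exact Tr_fix φ hφ3 u

include hφ in
lemma xb_mem (u : K) : (S).xb u ∈ twistedD4 K q := by
  rw [xb_eq]
  refine mem_single ax (r := 14) (by simp [d4p2]) ?_
  rw [← hφ, map_neg, Tr_fix φ hφ3]

include hφ in
lemma xm_mem (u : K) : (S).xm u ∈ twistedD4 K q := by
  rw [xm_eq]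
  refine mem_single ax (r := 9) (by simp [d4m2]) ?_
  rw [← hφ, map_neg, Tr_fix φ hφ3]

/-- The generators of the group. -/
lemma twisted_le (θ : K) (hθ : Tr φ θ = 1) (hφ : ∀ t, φ t = t ^ q) :
    twistedD4 K q ≤ Subgroup.closure (Set.range (fun s => (S).ψ (upM s)) ∪ Set.range (fun s => (S).ψ (loM s)) ∪
      Set.range (S).xb ∪ Set.range (S).xm) := by
  rw [twistedD4, genSubgroup, Subgroup.closure_le]
  rintro g ⟨w, hw, hg⟩
  rcases hw with ⟨t, ht, r, hr, rfl⟩ | ⟨t, rs, hrs, rfl⟩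
  · have e : g = xG ax r t := Units.ext (by rw [hg, xG_val, word_single])
    rw [e]
    have hft : φ t = t := by rw [hφ, ht]
    have hT : -Tr φ (-t * θ) = t := by
      have : -t * θ = (-t) * θ := rfl
      rw [Tr_mul_fix φ _ _ (by rw [map_neg, hft]), hθ]
      ring
    simp only [List.mem_cons, List.not_mem_nil, or_false] at hr
    rcases hr with rfl | rfl
    · apply Subgroup.subset_closure
      refine Or.inl (Or.inr ⟨-t * θ, ?_⟩)
      show (S).xb _ = _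
      rw [xb_eq, hT]
      rfl
    · apply Subgroup.subset_closure
      refine Or.inr ⟨-t * θ, ?_⟩
      show (S).xm _ = _
      rw [xm_eq, hT]
      rfl
  · have e : g = xG ax rs.1 t * xG ax rs.2.1 (t ^ q) * xG ax rs.2.2 (t ^ (q ^ 2)) :=
      Units.ext (by rw [hg, word_triple]; simp)
    rw [e, pow_q2' φ hφ, ← hφ t]
    simp only [List.mem_cons, List.not_mem_nil, or_false] at hrs
    rcases hrs with rfl | rfl
    · apply Subgroup.subset_closure
      refine Or.inl (Or.inl (Or.inl ⟨t, ?_⟩))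
      show psi ax φ (upM t) = _
      rw [psi_up]
      rfl
    · apply Subgroup.subset_closure
      refine Or.inl (Or.inl (Or.inr ⟨t, ?_⟩))
      show psi ax φ (loM t) = _
      rw [psi_lo]
      rfl

end final

/-- The Schur multiplier of `³D₄(q)` is trivial. -/
theorem schur_D4 [Fintype K] {q : ℕ} (hq : IsPrimePow q) (hK : Fintype.card K = q ^ 3) :
    HasCyclicSchurMultiplier ↥(twistedD4 K q) 1 := by
  classical
  have hq2 := hq.two_le
  have hcard8 : 8 ≤ q ^ 3 := by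
    calc 8 = 2 ^ 3 := by norm_num
      _ ≤ q ^ 3 := Nat.pow_le_pow_left hq2 3
  have hc4 : Fintype.card K ≠ 4 := by omega
  have hc9 : Fintype.card K ≠ 9 := by
    rw [hK]
    intro h
    rcases Nat.lt_or_ge q 3 with h1 | h1
    · have : q = 2 := by omega
      rw [this] at h
      norm_num at h
    · have : 3 ^ 3 ≤ q ^ 3 := Nat.pow_le_pow_left h1 3
      omega
  have hc3 : 3 < Fintype.card K := by omega
  have hc3' : 3 < Nat.card K := by rwa [Nat.card_eq_fintype_card]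
  have hc4' : 4 < Nat.card K := by rw [Nat.card_eq_fintype_card]; omega
  have ax : Ax chevD4 K := Cfsg.Agent.Lib.Lie.AxOf.ax_of_mem hD4mem
  obtain ⟨φe, hφe, hφe3⟩ := Cfsg.Agent.Lib.Twisted.D4H.exists_φ (K := K) hq hK
  set φ : K →+* K := (φe : K →+* K) with hφdef
  have hφ : ∀ t, φ t = t ^ q := hφe
  have hφ3 : ∀ t, φ (φ (φ t)) = t := hφe3
  obtain ⟨θ, hθ⟩ := exists_θ hq hK φ hφ hφ3
  obtain ⟨u0, hu0⟩ := exists_u0 hq hK φ hφ hφ3
  obtain ⟨p, hp, hpK, hpm⟩ := exists_char (K := K) hK hq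
  have Ax' := axSy hq hK ax φ hφ hφ3 u0 hu0 p hp hpK hpm
  have A2 := ax2Sy hq hK ax φ hφ hφ3 u0 hu0 p
  have : Finite (GL chevD4.Idx K) := inferInstance
  apply Cfsg.Agent.Lib.Schur.Stem.hasCyclicSchurMultiplier_one
  intro Γ _ _ σ hσ
  obtain ⟨hs, hc, hcm⟩ := hσ
  set σ' : Γ →* GL chevD4.Idx K := (twistedD4 K q).subtype.comp σ with hσ'
  have hker : σ'.ker = σ.ker := by
    ext x
    simp [MonoidHom.mem_ker, σ']
  have hrange : ∀ g ∈ twistedD4 K q, g ∈ σ'.range := by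
    intro g hg
    obtain ⟨y, hy⟩ := hs ⟨g, hg⟩
    exact ⟨y, by simp [σ', hy]⟩
  obtain ⟨ps, hps⟩ := exists_lift σ' (by rwa [hker]) hc4 hc9 hc3 (psi ax φ) (fun M => hrange _ (psi_mem ax φ hφ M))
  have hv : (Sy ax φ u0 hφ3 p (q ^ 3 - 1)).v ∈ twistedD4 K q := by
    rw [h_v_eq ax φ u0 hφ3 p _ hu0]
    exact mul_mem (mul_mem (xb_mem ax φ hφ hφ3 _ _ _ _) (xm_mem ax φ hφ hφ3 _ _ _ _)) (xb_mem ax φ hφ hφ3 _ _ _ _)
  obtain ⟨V₀, hV₀⟩ := hrange _ hv
  let C₀ : Ctx (Sy ax φ u0 hφ3 p (q ^ 3 - 1)) σ' := ⟨by rwa [hker], hc3', ps, hps, V₀, hV₀⟩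
  have hmain := Ctx.ker_main (C₀.good Ax') Ax' hc4' (C₀.good_spec Ax') A2 (by rwa [hker])
    (fun e => twisted_le ax φ hφ3 u0 p _ θ hθ hφ (σ e).2)
  rw [hker] at hmain
  rw [hmain, Subgroup.card_bot]

end Cfsg.Agent.Lib.SchD4.G
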