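import Cfsg.Agent.Lib.Chev.SL2
import Cfsg.Agent.Lib.Steinberg.CExt
import Cfsg.Agent.S2117

/-!
`SL₂` over a finite field: homomorphisms are determined by the root elements, and, in a central extension,
lifts exist and are unique.
-/

set_option autoImplicit false
set_option linter.unusedSectionVars false
set_option linter.unusedVariables false
set_option linter.ambiguousOpen false
set_option linter.unusedSimpArgs false
set_option linter.unusedTactic false
set_option linter.unreachableTactic false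

namespace Cfsg.Agent.Lib.SchD4.SL2

open scoped MatrixGroups Matrix
open Cfsg Cfsg.Agent.Lib.Chev.SL2 Cfsg.Agent.Lib.Steinberg.CExt

universe u v

variable {K : Type u} [Field K]

lemma ext_sl {A B : SL(2, K)} (h00 : A.1 0 0 = B.1 0 0) (h01 : A.1 0 1 = B.1 0 1) (h10 : A.1 1 0 = B.1 1 0)
    (h11 : A.1 1 1 = B.1 1 1) : A = B := by
  apply Subtype.ext
  ext i j
  fin_cases i <;> fin_cases j <;> assumption

lemma mul00 (A B : SL(2, K)) : (A * B).1 0 0 = A.1 0 0 * B.1 0 0 + A.1 0 1 * B.1 1 0 := by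
  show (A.1 * B.1) 0 0 = _
  simp [Matrix.mul_apply, Fin.sum_univ_two]

lemma mul01 (A B : SL(2, K)) : (A * B).1 0 1 = A.1 0 0 * B.1 0 1 + A.1 0 1 * B.1 1 1 := by
  show (A.1 * B.1) 0 1 = _
  simp [Matrix.mul_apply, Fin.sum_univ_two]

lemma mul10 (A B : SL(2, K)) : (A * B).1 1 0 = A.1 1 0 * B.1 0 0 + A.1 1 1 * B.1 1 0 := by
  show (A.1 * B.1) 1 0 = _
  simp [Matrix.mul_apply, Fin.sum_univ_two]

lemma mul11 (A B : SL(2, K)) : (A * B).1 1 1 = A.1 1 0 * B.1 0 1 + A.1 1 1 * B.1 1 1 := by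
  show (A.1 * B.1) 1 1 = _
  simp [Matrix.mul_apply, Fin.sum_univ_two]

lemma one00 : (1 : SL(2, K)).1 0 0 = 1 := by simp
lemma one01 : (1 : SL(2, K)).1 0 1 = 0 := by simp
lemma one10 : (1 : SL(2, K)).1 1 0 = 0 := by simp
lemma one11 : (1 : SL(2, K)).1 1 1 = 1 := by simp

/-- The diagonal matrix. -/
def dg (s : Kˣ) : SL(2, K) := ⟨!![(s : K), 0; 0, (s : K)⁻¹], by simp [Matrix.det_fin_two]⟩

@[simp] lemma dg00 (s : Kˣ) : (dg s).1 0 0 = s := rfl
@[simp] lemma dg01 (s : Kˣ) : (dg s).1 0 1 = 0 := rfl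
@[simp] lemma dg10 (s : Kˣ) : (dg s).1 1 0 = 0 := rfl
@[simp] lemma dg11 (s : Kˣ) : (dg s).1 1 1 = (s : K)⁻¹ := rfl

@[simp] lemma up00 (t : K) : (upM t).1 0 0 = 1 := rfl
@[simp] lemma up01 (t : K) : (upM t).1 0 1 = t := rfl
@[simp] lemma up10 (t : K) : (upM t).1 1 0 = 0 := rfl
@[simp] lemma up11 (t : K) : (upM t).1 1 1 = 1 := rfl
@[simp] lemma lo00 (t : K) : (loM t).1 0 0 = 1 := rfl
@[simp] lemma lo01 (t : K) : (loM t).1 0 1 = 0 := rfl
@[simp] lemma lo10 (t : K) : (loM t).1 1 0 = t := rfl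
@[simp] lemma lo11 (t : K) : (loM t).1 1 1 = 1 := rfl

/-- The element `n₀`. -/
noncomputable def n0 : SL(2, K) := wM 1 one_ne_zero

@[simp] lemma n000 : (n0 : SL(2, K)).1 0 0 = 0 := rfl
@[simp] lemma n001 : (n0 : SL(2, K)).1 0 1 = 1 := rfl
@[simp] lemma n010 : (n0 : SL(2, K)).1 1 0 = -1 := by simp [n0, wM]
@[simp] lemma n011 : (n0 : SL(2, K)).1 1 1 = 0 := rfl

/-- Conjugation by a diagonal matrix. -/
def dcF (u : Kˣ) (A : SL(2, K)) : SL(2, K) :=
  ⟨!![A.1 0 0, (u : K) * A.1 0 1; (u : K)⁻¹ * A.1 1 0, A.1 1 1], by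
    have := det_eq A
    have hu := u.ne_zero
    rw [Matrix.det_fin_two]
    simp only [Matrix.of_apply, Matrix.cons_val', Matrix.cons_val_zero, Matrix.cons_val_one]
    field_simp
    linear_combination this⟩

@[simp] lemma dcF00 (u : Kˣ) (A : SL(2, K)) : (dcF u A).1 0 0 = A.1 0 0 := rfl
@[simp] lemma dcF01 (u : Kˣ) (A : SL(2, K)) : (dcF u A).1 0 1 = (u : K) * A.1 0 1 := rfl
@[simp] lemma dcF10 (u : Kˣ) (A : SL(2, K)) : (dcF u A).1 1 0 = (u : K)⁻¹ * A.1 1 0 := rfl
@[simp] lemma dcF11 (u : Kˣ) (A : SL(2, K)) : (dcF u A).1 1 1 = A.1 1 1 := rfl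

/-- Conjugation by a diagonal matrix, as a homomorphism. -/
def dc (u : Kˣ) : SL(2, K) →* SL(2, K) where
  toFun := dcF u
  map_one' := by
    apply ext_sl <;> simp
  map_mul' := by
    intro A B
    have hu := u.ne_zero
    apply ext_sl
    · simp only [dcF00, mul00, dcF01, dcF10]
      field_simp
    · simp only [dcF01, mul01, dcF00, dcF11]
      ring
    · simp only [dcF10, mul10, dcF00, dcF11]
      ring
    · simp only [dcF11, mul11, dcF01, dcF10]
      field_simp

lemma dc_apply (u : Kˣ) (A : SL(2, K)) : dc u A = dcF u A := rfl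

@[simp] lemma dc_up (u : Kˣ) (t : K) : dc u (upM t) = upM ((u : K) * t) := by
  rw [dc_apply]
  apply ext_sl <;> simp

@[simp] lemma dc_lo (u : Kˣ) (t : K) : dc u (loM t) = loM ((u : K)⁻¹ * t) := by
  rw [dc_apply]
  apply ext_sl <;> simp

@[simp] lemma dc_dg (u s : Kˣ) : dc u (dg s) = dg s := by
  rw [dc_apply]
  apply ext_sl <;> simp

lemma dc_n0 (u : Kˣ) : dc u n0 = dg u * n0 := by
  rw [dc_apply]
  apply ext_sl <;> simp [mul00, mul01, mul10, mul11]

lemma dc_mul (u u' : Kˣ) (A : SL(2, K)) : dc u (dc u' A) = dc (u * u') A := by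
  simp only [dc_apply]
  apply ext_sl <;> simp <;> ring

lemma dc_one (A : SL(2, K)) : dc 1 A = A := by
  simp only [dc_apply]
  apply ext_sl <;> simp

lemma up_add (a b : K) : upM a * upM b = upM (a + b) := by
  apply ext_sl <;> simp [mul00, mul01, mul10, mul11]
  ring

lemma lo_add (a b : K) : loM a * loM b = loM (a + b) := by
  apply ext_sl <;> simp [mul00, mul01, mul10, mul11]

lemma up_zero : upM (0 : K) = 1 := by
  apply ext_sl <;> simp

lemma lo_zero : loM (0 : K) = 1 := by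
  apply ext_sl <;> simp

lemma dg_mul (s t : Kˣ) : dg s * dg t = dg (s * t) := by
  apply ext_sl <;> simp [mul00, mul01, mul10, mul11]
  ring

lemma dg_one : dg (1 : Kˣ) = 1 := by
  apply ext_sl <;> simp

/-- The diagonal homomorphism. -/
def dgHom : Kˣ →* SL(2, K) where
  toFun := dg
  map_one' := dg_one
  map_mul' s t := (dg_mul s t).symm

@[simp] lemma dgHom_apply (s : Kˣ) : dgHom s = dg s := rfl

lemma n0_conj_dg (s : Kˣ) : n0 * dg s * (n0 : SL(2, K))⁻¹ = dg s⁻¹ := by
  have hs := s.ne_zero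
  rw [mul_inv_eq_iff_eq_mul]
  apply ext_sl <;> simp [mul00, mul01, mul10, mul11]

lemma n0_sq : (n0 : SL(2, K)) * n0 = dg (-1) := by
  apply ext_sl <;> simp [mul00, mul01, mul10, mul11]

/-- Conjugation of `SL₂` by `n₀` on root elements. -/
lemma n0_conj_up (t : K) : n0 * upM t * (n0 : SL(2, K))⁻¹ = loM (-t) := by
  rw [mul_inv_eq_iff_eq_mul]
  apply ext_sl <;> simp [mul00, mul01, mul10, mul11]

lemma n0_conj_lo (t : K) : n0 * loM t * (n0 : SL(2, K))⁻¹ = upM (-t) := by
  rw [mul_inv_eq_iff_eq_mul]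
  apply ext_sl <;> simp [mul00, mul01, mul10, mul11]

/-- `dg s · n₀ = [[0, s], [-s⁻¹, 0]]`. -/
noncomputable def nn (s : Kˣ) : SL(2, K) := dg s * n0

lemma nn_eq (s : Kˣ) : nn s = upM (s : K) * loM (-(s : K)⁻¹) * upM (s : K) := by
  have hs := s.ne_zero
  apply ext_sl <;> simp [nn, mul00, mul01, mul10, mul11] <;> field_simp <;> ring

lemma nn_eq' (s : Kˣ) : nn s = loM (-(s : K)⁻¹) * upM (s : K) * loM (-(s : K)⁻¹) := by
  have hs := s.ne_zero
  apply ext_sl <;> simp [nn, mul00, mul01, mul10, mul11] <;> field_simp <;> ring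

lemma lo_decomp (s : Kˣ) : loM (-(s : K)⁻¹) = upM (-(s : K)) * nn s * upM (-(s : K)) := by
  rw [nn_eq]
  have e1 : upM (-(s : K)) * upM (s : K) = 1 := by rw [up_add, neg_add_cancel, up_zero]
  have e2 : upM (s : K) * upM (-(s : K)) = 1 := by rw [up_add, add_neg_cancel, up_zero]
  calc loM (-(s : K)⁻¹) = (upM (-(s : K)) * upM (s : K)) * loM (-(s : K)⁻¹) * (upM (s : K) * upM (-(s : K))) := by
        rw [e1, e2, one_mul, mul_one]
    _ = _ := by group

lemma up_decomp (s : Kˣ) : upM (s : K) = loM ((s : K)⁻¹) * nn s * loM ((s : K)⁻¹) := by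
  rw [nn_eq']
  have e1 : loM ((s : K)⁻¹) * loM (-(s : K)⁻¹) = 1 := by rw [lo_add, add_neg_cancel, lo_zero]
  have e2 : loM (-(s : K)⁻¹) * loM ((s : K)⁻¹) = 1 := by rw [lo_add, neg_add_cancel, lo_zero]
  calc upM (s : K) = (loM ((s : K)⁻¹) * loM (-(s : K)⁻¹)) * upM (s : K) * (loM (-(s : K)⁻¹) * loM ((s : K)⁻¹)) := by
        rw [e1, e2, one_mul, mul_one]
    _ = _ := by group

lemma nn_conj_up (s : Kˣ) (t : K) : (nn s)⁻¹ * upM t * nn s = loM (-(s : K)⁻¹ * (s : K)⁻¹ * t) := by
  have hs := s.ne_zero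
  rw [mul_assoc, inv_mul_eq_iff_eq_mul]
  apply ext_sl <;> simp [nn, mul00, mul01, mul10, mul11] <;> field_simp <;> ring

lemma nn_conj_lo (s : Kˣ) (t : K) : (nn s)⁻¹ * loM t * nn s = upM (-(s : K) * s * t) := by
  have hs := s.ne_zero
  rw [mul_assoc, inv_mul_eq_iff_eq_mul]
  apply ext_sl <;> simp [nn, mul00, mul01, mul10, mul11] <;> field_simp <;> ring

/-- `SL₂` is generated by the root elements. -/
theorem sl_induction {P : SL(2, K) → Prop} (h1 : P 1) (hu : ∀ t, P (upM t)) (hl : ∀ t, P (loM t))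
    (hm : ∀ a b, P a → P b → P (a * b)) (A : SL(2, K)) : P A := by
  have key : ∀ B : SL(2, K), B.1 1 0 ≠ 0 → P B := by
    intro B hc
    have hd := det_eq B
    have e : B = upM ((B.1 0 0 - 1) / B.1 1 0) * loM (B.1 1 0) * upM ((B.1 1 1 - 1) / B.1 1 0) := by
      refine ext_sl ?_ ?_ ?_ ?_
      · simp [mul00, mul01, mul10, mul11]
        field_simp
        ring
      · have hb : B.1 0 1 = (B.1 0 0 * B.1 1 1 - 1) / B.1 1 0 := by
          field_simp
          linear_combination -hd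
        simp only [mul01, mul00]
        rw [hb]
        simp
        field_simp
        ring
      · simp [mul00, mul01, mul10, mul11]
      · simp [mul00, mul01, mul10, mul11]
        field_simp
        ring
    rw [e]
    exact hm _ _ (hm _ _ (hu _) (hl _)) (hu _)
  by_cases hc : A.1 1 0 = 0
  · have ha := ne_zero_of_c hc
    have e : A = loM (-1) * (loM 1 * A) := by
      rw [← mul_assoc, lo_add]
      simp [lo_zero]
    rw [e]
    refine hm _ _ (hl _) (key _ ?_)
    simp [mul10, hc, ha]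
  · exact key A hc

theorem sl_hom_ext {H : Type*} [Group H] {f g : SL(2, K) →* H} (hu : ∀ t, f (upM t) = g (upM t))
    (hl : ∀ t, f (loM t) = g (loM t)) : f = g := by
  ext A
  refine sl_induction (P := fun A => f A = g A) (by simp) hu hl ?_ A
  intro a b ha hb
  rw [map_mul, map_mul, ha, hb]

section lift

variable {E : Type u} {G : Type v} [Group E] [Group G] (σ : E →* G) (hc : σ.ker ≤ Subgroup.center E)

/-- A unit whose square is not `1`. -/
lemma exists_unit_sq [Finite K] (hK : 3 < Nat.card K) : ∃ s : Kˣ, (s : K) ^ 2 ≠ 1 := by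
  classical
  have := Fintype.ofFinite K
  by_contra hcon
  push Not at hcon
  have hsub : ∀ x : K, x ≠ 0 → x ∈ (Polynomial.nthRoots 2 (1 : K)).toFinset := by
    intro x hx
    rw [Multiset.mem_toFinset, Polynomial.mem_nthRoots (by norm_num)]
    exact hcon (Units.mk0 x hx)
  have h1 : ((Finset.univ : Finset K).erase 0).card ≤ (Polynomial.nthRoots 2 (1 : K)).toFinset.card := by
    apply Finset.card_le_card
    intro x hx
    exact hsub x (Finset.ne_of_mem_erase hx)
  have h2 := Multiset.toFinset_card_le (Polynomial.nthRoots 2 (1 : K))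
  have h3 := Polynomial.card_nthRoots 2 (1 : K)
  rw [Finset.card_erase_of_mem (Finset.mem_univ _), Finset.card_univ, ← Nat.card_eq_fintype_card] at h1
  omega

lemma up_cm (s : Kˣ) (hs' : (s : K) ^ 2 - 1 ≠ 0) (t : K) :
    upM t = cm (dg s) (upM (t / ((s : K) ^ 2 - 1))) := by
  have h0 := s.ne_zero
  simp only [cm]
  rw [eq_mul_inv_iff_mul_eq, eq_mul_inv_iff_mul_eq, up_add]
  apply ext_sl <;> simp [mul00, mul01, mul10, mul11]
  field_simp
  ring

lemma lo_cm (s : Kˣ) (hs' : (s : K) ^ 2 - 1 ≠ 0) (t : K) :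
    loM t = cm (dg s⁻¹) (loM (t / ((s : K) ^ 2 - 1))) := by
  have h0 := s.ne_zero
  simp only [cm]
  rw [eq_mul_inv_iff_mul_eq, eq_mul_inv_iff_mul_eq, lo_add]
  apply ext_sl <;> simp [mul00, mul01, mul10, mul11]
  field_simp
  ring

include hc

/-- Uniqueness of lifts. -/
theorem lift_ext [Finite K] (hK : 3 < Nat.card K) {f g : SL(2, K) →* E} (h : ∀ M, σ (f M) = σ (g M)) : f = g := by
  obtain ⟨s, hs⟩ := exists_unit_sq hK
  have hs' : (s : K) ^ 2 - 1 ≠ 0 := sub_ne_zero.mpr hs
  apply sl_hom_ext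
  · intro t
    rw [up_cm s hs' t]
    have e : ∀ (F : SL(2, K) →* E) (a b : SL(2, K)), F (cm a b) = cm (F a) (F b) := by
      intro F a b
      simp [cm]
    rw [e, e]
    exact cm_lift σ hc (h _) (h _)
  · intro t
    rw [lo_cm s hs' t]
    have e : ∀ (F : SL(2, K) →* E) (a b : SL(2, K)), F (cm a b) = cm (F a) (F b) := by
      intro F a b
      simp [cm]
    rw [e, e]
    exact cm_lift σ hc (h _) (h _)

end lift

section exists_lift

variable {E : Type u} {G : Type v} [Group E] [Group G] [Finite E] (σ : E →* G) (hc : σ.ker ≤ Subgroup.center E)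

include hc

/-- Existence of lifts. -/
theorem exists_lift [Fintype K] (h4 : Fintype.card K ≠ 4) (h9 : Fintype.card K ≠ 9) (hK : 3 < Fintype.card K)
    (f : SL(2, K) →* G) (hf : ∀ M, f M ∈ σ.range) : ∃ F : SL(2, K) →* E, ∀ M, σ (F M) = f M := by
  classical
  have hK' : 3 < Nat.card K := by rwa [Nat.card_eq_fintype_card]
  -- the pull-back
  let P : Subgroup (SL(2, K) × E) :=
    { carrier := {x | f x.1 = σ x.2}
      one_mem' := by simp
      mul_mem' := by
        intro a b ha hb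
        simp only [Set.mem_setOf_eq] at ha hb ⊢
        simp [ha, hb]
      inv_mem' := by
        intro a ha
        simp only [Set.mem_setOf_eq] at ha ⊢
        simp [ha] }
  let p1 : P →* SL(2, K) := (MonoidHom.fst _ _).comp P.subtype
  have hp1 : Function.Surjective p1 := by
    intro M
    obtain ⟨e, he⟩ := hf M
    exact ⟨⟨(M, e), he.symm⟩, rfl⟩
  have hker : ∀ x : P, p1 x = 1 → x.1.2 ∈ Subgroup.center E := by
    intro x hx
    apply hc
    rw [MonoidHom.mem_ker]
    have := x.2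
    have e1 : f x.1.1 = σ x.1.2 := this
    have e2 : x.1.1 = 1 := hx
    rw [← e1, e2, map_one]
  have hkerc : p1.ker ≤ Subgroup.center P := by
    intro x hx
    rw [Subgroup.mem_center_iff]
    intro y
    apply Subtype.ext
    have hx1 : x.1.1 = 1 := hx
    have h2 := Subgroup.mem_center_iff.mp (hker x hx) y.1.2
    apply Prod.ext
    · show y.1.1 * x.1.1 = x.1.1 * y.1.1
      rw [hx1, mul_one, one_mul]
    · exact h2
  -- the commutator subgroup
  let Q : Subgroup P := commutator P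
  let p2 : Q →* SL(2, K) := p1.comp Q.subtype
  -- `SL₂` is perfect
  have hperf : commutator (SL(2, K)) = ⊤ := by
    obtain ⟨s, hs⟩ := exists_unit_sq hK'
    have hs' : (s : K) ^ 2 - 1 ≠ 0 := sub_ne_zero.mpr hs
    rw [eq_top_iff]
    intro A _
    refine sl_induction (P := fun A => A ∈ commutator (SL(2, K))) (Subgroup.one_mem _) ?_ ?_ (fun a b => Subgroup.mul_mem _) A
    · intro t
      rw [up_cm s hs' t, commutator_def]
      exact Subgroup.commutator_mem_commutator (Subgroup.mem_top _) (Subgroup.mem_top _)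
    · intro t
      rw [lo_cm s hs' t, commutator_def]
      exact Subgroup.commutator_mem_commutator (Subgroup.mem_top _) (Subgroup.mem_top _)
  have hp2 : Function.Surjective p2 := by
    intro M
    have hM : M ∈ (commutator P).map p1 := by
      rw [commutator_def, Subgroup.map_commutator, ← MonoidHom.range_eq_map,
        MonoidHom.range_eq_top.mpr hp1, ← commutator_def, hperf]
      exact Subgroup.mem_top _
    obtain ⟨y, hy, rfl⟩ := hM
    exact ⟨⟨y, hy⟩, rfl⟩
  -- the stem extension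
  have hstem : IsStemExtension p2 := by
    refine ⟨hp2, ?_, ?_⟩
    · intro x hx
      rw [Subgroup.mem_center_iff]
      intro y
      apply Subtype.ext
      exact Subgroup.mem_center_iff.mp (hkerc hx) y.1
    · -- `Q` is perfect
      have hQ : commutator Q = ⊤ := by
        rw [eq_top_iff]
        rintro ⟨x, hx⟩ _
        have hle : commutator P ≤ (commutator Q).map Q.subtype := by
          rw [commutator_def (G := P), Subgroup.commutator_le]
          intro a _ b _
          obtain ⟨a', ha'⟩ := hp2 (p1 a)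
          obtain ⟨b', hb'⟩ := hp2 (p1 b)
          have e := cm_lift p1 hkerc (x := a) (x' := a'.1) (e := b) (e' := b'.1) ha'.symm hb'.symm
          have e3 : a * b * a⁻¹ * b⁻¹ = Q.subtype (a' * b' * a'⁻¹ * b'⁻¹) := by
            simp only [map_mul, map_inv]
            exact e
          show a * b * a⁻¹ * b⁻¹ ∈ _
          rw [e3]
          exact ⟨a' * b' * a'⁻¹ * b'⁻¹, Subgroup.commutator_mem_commutator (Subgroup.mem_top _) (Subgroup.mem_top _), rfl⟩
        obtain ⟨y, hy, e⟩ := hle hx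
        have e' : (⟨x, hx⟩ : Q) = y := Subtype.ext e.symm
        rw [e']
        exact hy
      rw [hQ]
      exact le_top
  obtain ⟨π, hπ⟩ := (Cfsg.Agent.S2117.result (F := K) h4 h9).2 Q p2 hstem
  have hinj : Function.Injective p2 := by
    rw [injective_iff_map_eq_one]
    intro x hx
    obtain ⟨z, hz⟩ := hπ ⟨x, hx⟩
    have hz1 : z = 1 := Subsingleton.elim (α := Multiplicative (ZMod 1)) _ _
    rw [hz1, map_one] at hz
    exact (congrArg Subtype.val hz).symm
  let e : Q ≃* SL(2, K) := MulEquiv.ofBijective p2 ⟨hinj, hp2⟩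
  refine ⟨(MonoidHom.snd _ _).comp (P.subtype.comp (Q.subtype.comp e.symm.toMonoidHom)), ?_⟩
  intro M
  have h1 : p2 (e.symm M) = M := e.apply_symm_apply M
  have h2 := (e.symm M).1.2
  have h3 : f (e.symm M).1.1.1 = σ (e.symm M).1.1.2 := h2
  have h4 : (e.symm M).1.1.1 = M := h1
  rw [h4] at h3
  exact h3.symm

end exists_lift

end Cfsg.Agent.Lib.SchD4.SL2
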