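import Cfsg.Agent.Lib.SchD4.SL2
import Cfsg.Agent.Lib.SchD4.Abs

/-!
The abstract system: a group with the root elements of a group of type `³D₄`, and a central extension.
-/

set_option autoImplicit false
set_option linter.unusedSectionVars false
set_option linter.unusedVariables false
set_option linter.ambiguousOpen false
set_option linter.unusedSimpArgs false
set_option linter.unusedTactic false
set_option linter.unreachableTactic false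
set_option linter.dupNamespace false

namespace Cfsg.Agent.Lib.SchD4.Sys

open scoped MatrixGroups Matrix
open Cfsg Cfsg.Agent.Lib.Chev.SL2 Cfsg.Agent.Lib.Steinberg.CExt Cfsg.Agent.Lib.SchD4.SL2

universe u v

/-- Conjugation. -/
def cj {G : Type*} [Group G] (g x : G) : G := g * x * g⁻¹

section cj
variable {G H : Type*} [Group G] [Group H]

lemma cj_mul (g x y : G) : cj g (x * y) = cj g x * cj g y := by simp [cj, mul_assoc]
lemma cj_one (g : G) : cj g 1 = 1 := by simp [cj]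
lemma cj_inv (g x : G) : cj g x⁻¹ = (cj g x)⁻¹ := by simp [cj, mul_assoc]
lemma cj_cj (g h x : G) : cj g (cj h x) = cj (g * h) x := by simp [cj, mul_assoc]
lemma one_cj (x : G) : cj 1 x = x := by simp [cj]
lemma cj_inv_cj (g x : G) : cj g⁻¹ (cj g x) = x := by simp [cj, mul_assoc]
lemma cj_cj_inv (g x : G) : cj g (cj g⁻¹ x) = x := by simp [cj, mul_assoc]
lemma map_cj (f : G →* H) (g x : G) : f (cj g x) = cj (f g) (f x) := by simp [cj]
lemma cj_eq_self_iff {g x : G} : cj g x = x ↔ g * x = x * g := by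
  simp [cj, mul_inv_eq_iff_eq_mul]
lemma cj_cm (g a b : G) : cj g (cm a b) = cm (cj g a) (cj g b) := by simp [cj, cm, mul_assoc]
lemma cj_inj (g : G) {x y : G} (h : cj g x = cj g y) : x = y := by simpa [cj] using h

/-- Conjugation as a homomorphism after `f`. -/
def cjH {L : Type*} [Group L] (g : G) (f : L →* G) : L →* G := (MulAut.conj g).toMonoidHom.comp f

@[simp] lemma cjH_apply {L : Type*} [Group L] (g : G) (f : L →* G) (x : L) : cjH g f x = cj g (f x) := rfl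

end cj

variable {K : Type u} [Field K]

/-- Norm. -/
def Nm (φ : K →+* K) (s : K) : K := s * φ s * φ (φ s)

/-- Trace. -/
def Tr (φ : K →+* K) (s : K) : K := s + φ s + φ (φ s)

lemma Nm_mul (φ : K →+* K) (s t : K) : Nm φ (s * t) = Nm φ s * Nm φ t := by
  simp [Nm, map_mul]; ring

lemma Nm_ne_zero (φ : K →+* K) {s : K} (hs : s ≠ 0) : Nm φ s ≠ 0 := by
  simp [Nm, hs]

/-- Norm on units. -/
noncomputable def Nu (φ : K →+* K) : Kˣ →* Kˣ where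
  toFun s := Units.mk0 (Nm φ s) (Nm_ne_zero φ s.ne_zero)
  map_one' := by
    apply Units.ext
    simp [Nm]
  map_mul' s t := by
    apply Units.ext
    simp [Nm_mul]

@[simp] lemma Nu_val (φ : K →+* K) (s : Kˣ) : ((Nu φ s : Kˣ) : K) = Nm φ s := rfl

/-- The character `s² / N s`. -/
noncomputable def chi1 (φ : K →+* K) (s : Kˣ) : Kˣ := s * s * (Nu φ s)⁻¹

lemma chi1_mul (φ : K →+* K) (s t : Kˣ) : chi1 φ (s * t) = chi1 φ s * chi1 φ t := by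
  simp only [chi1, map_mul, mul_inv]
  exact by
    rw [mul_comm s t]
    simp only [mul_assoc, mul_comm, mul_left_comm]

/-- The system. -/
structure Sys (K : Type u) [Field K] (G : Type v) [Group G] where
  φ : K →+* K
  φ3 : ∀ t, φ (φ (φ t)) = t
  ψ : SL(2, K) →* G
  v : G
  xz : K → G
  u0 : K
  eps : K
  kap : K
  p : ℕ
  m : ℕ

namespace Sys

variable {G : Type v} [Group G] (S : Sys K G)

/-- `n_α`. -/
noncomputable def w : G := S.ψ n0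

/-- The second family of short roots. -/
def ψ₁ (M : SL(2, K)) : G := cj S.v (S.ψ M)

/-- The third family of short roots. -/
noncomputable def ψ₂ (M : SL(2, K)) : G := cj S.w (S.ψ₁ M)

/-- The long root `3α + β`. -/
def xl (u : K) : G := cj S.v⁻¹ (S.xz u)

/-- The long root `β`. -/
noncomputable def xb (u : K) : G := cj S.w (S.xl u)

/-- The long root `-β`. -/
noncomputable def xm (t : K) : G := cj S.v (S.xb (-t))

/-- The long root `-(3α + 2β)`. -/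
noncomputable def xf9 (t : K) : G := cj S.v (cj S.w (S.xm t))

end Sys

/-- The axioms of the system. -/
structure Ax {G : Type v} [Group G] (S : Sys K G) : Prop where
  add_z : ∀ a b, S.xz (a + b) = S.xz a * S.xz b
  heps : S.eps = 1 ∨ S.eps = -1
  hkap : S.kap = 1 ∨ S.kap = -1
  hp : S.p.Prime
  hpK : (S.p : K) = 0
  hm : ∀ s : Kˣ, s ^ S.m = 1
  hpm : Nat.Coprime S.p S.m
  h_c0 : ∃ c : Kˣ, Nu S.φ c = 1 ∧ c * c ≠ 1
  h_chi : ∀ l : Kˣ, ∃ s, chi1 S.φ s = l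
  h_φ : ∃ w : K, S.φ w ≠ w
  h_tr : ∃ θ : K, Tr S.φ θ ≠ 0
  v_eq : S.v = S.xb S.u0 * S.xm (-S.u0) * S.xb S.u0
  h_R4 : ∀ s u, ∃ c r r', cj (S.ψ (upM s)) (S.xb u) =
    S.xb u * (S.ψ₁ (upM (S.kap * Tr S.φ u * s)) * S.ψ₂ (upM c) * (S.xl r * S.xz r'))
  h_uniq : ∀ s u a c r r', S.ψ (upM s) * S.xb u * (S.ψ₁ (upM a) * S.ψ₂ (upM c) * (S.xl r * S.xz r')) = 1 →
    s = 0 ∧ Tr S.φ u = 0 ∧ a = 0 ∧ c = 0 ∧ Tr S.φ r = 0 ∧ Tr S.φ r' = 0
  h_bal : ∀ c : Kˣ, ∃ s, s * s * chi1 S.φ s = c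
  h_R2 : ∀ s a, ∃ r r', cj (S.ψ (upM s)) (S.ψ₁ (upM a)) =
    S.ψ₁ (upM a) * S.ψ₂ (upM (S.eps * (S.φ s * S.φ (S.φ a) + S.φ (S.φ s) * S.φ a))) * (S.xl r * S.xz r')
  h_v2 : ∀ M, cj (S.v * S.v) (S.ψ M) = S.ψ (dc (-1) M)
  h_c_b : ∀ M u, S.ψ₂ M * S.xb u = S.xb u * S.ψ₂ M
  h_c_m : ∀ M u, S.ψ₂ M * S.xm u = S.xm u * S.ψ₂ M
  h_tor : ∀ (s : Kˣ) M, cj (S.ψ (dg s)) (S.ψ₁ M) = S.ψ₁ (dc (chi1 S.φ s) M)
  h_C_b : ∀ c : Kˣ, Nu S.φ c = 1 → ∀ u, S.ψ (dg c) * S.xb u = S.xb u * S.ψ (dg c)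
  h_C_m : ∀ c : Kˣ, Nu S.φ c = 1 → ∀ u, S.ψ (dg c) * S.xm u = S.xm u * S.ψ (dg c)
  h_R1 : ∀ a b, cm (S.ψ₁ (upM a)) (S.ψ₂ (upM b)) = S.xz (a * b)
  h_ψ_z : ∀ M u, S.ψ M * S.xz u = S.xz u * S.ψ M
  h_ψ_f9 : ∀ M u, S.ψ M * S.xf9 u = S.xf9 u * S.ψ M
  h_1_z : ∀ a u, S.ψ₁ (upM a) * S.xz u = S.xz u * S.ψ₁ (upM a)
  h_2_z : ∀ a u, S.ψ₂ (upM a) * S.xz u = S.xz u * S.ψ₂ (upM a)
  h_1_l : ∀ a u, S.ψ₁ (upM a) * S.xl u = S.xl u * S.ψ₁ (upM a)
  h_2_l : ∀ a u, S.ψ₂ (upM a) * S.xl u = S.xl u * S.ψ₂ (upM a)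
  h_1_b : ∀ a u, S.ψ₁ (upM a) * S.xb u = S.xb u * S.ψ₁ (upM a)
  h_0_l : ∀ a u, S.ψ (upM a) * S.xl u = S.xl u * S.ψ (upM a)

end Cfsg.Agent.Lib.SchD4.Sys
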